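import Mathlib
import Cfsg.Agent.S0014
import Cfsg.Agent.S0029

namespace Cfsg.Agent.Lib.Helper6.AbSylow

open Subgroup

theorem aut_trivial {V : Type*} [Group V] [Finite V] {p d q : ℕ} (hp : p.Prime) (hq : q.Prime)
    (hV : Nat.card V = p ^ d) (hqd : ∀ i ∈ Finset.Icc 1 d, ¬ q ∣ p ^ i - 1) (hqp : q ≠ p)
    (τ : MulAut V) (n : ℕ) (hτ : τ ^ (q ^ n) = 1) : τ = 1 := by
  haveI : Fact q.Prime := ⟨hq⟩
  have hQ : IsPGroup q (zpowers τ) := by
    have h1 : orderOf τ ∣ q ^ n := orderOf_dvd_of_pow_eq_one hτ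
    obtain ⟨k, -, hk⟩ := (Nat.dvd_prime_pow hq).1 h1
    exact IsPGroup.of_card (n := k) (by rw [Nat.card_zpowers, hk])
  let W : Subgroup V := MonoidHom.eqLocus τ.toMonoidHom (MonoidHom.id V)
  have hWmem : ∀ v : V, v ∈ W ↔ τ v = v := fun v => Iff.rfl
  have hfix : MulAction.fixedPoints (zpowers τ) V = (W : Set V) := by
    ext v
    simp only [MulAction.mem_fixedPoints, SetLike.mem_coe]
    constructor
    · intro h
      exact h ⟨τ, mem_zpowers τ⟩
    · rintro h ⟨σ, hσ⟩
      have h1 : τ ∈ MulAction.stabilizer (MulAut V) v := h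
      have h2 : zpowers τ ≤ MulAction.stabilizer (MulAut V) v := (zpowers_le).2 h1
      exact h2 hσ
  have hmod := hQ.card_modEq_card_fixedPoints V
  have hcW : Nat.card (MulAction.fixedPoints (zpowers τ) V) = Nat.card W := by
    rw [hfix]; rfl
  rw [hcW, hV] at hmod
  have hWd : Nat.card W ∣ p ^ d := hV ▸ Subgroup.card_subgroup_dvd_card W
  obtain ⟨c, hcd, hc⟩ := (Nat.dvd_prime_pow hp).1 hWd
  rw [hc] at hmod
  rcases hcd.eq_or_lt with hcd' | hcd'
  · have hWtop : W = ⊤ := Subgroup.eq_top_of_card_eq W (by rw [hc, hV, hcd'])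
    ext v
    have : v ∈ W := by rw [hWtop]; trivial
    exact (hWmem v).1 this
  · exfalso
    have hle : p ^ c ≤ p ^ d := Nat.pow_le_pow_right hp.pos hcd
    have hdvd : q ∣ p ^ d - p ^ c := (Nat.modEq_iff_dvd' hle).1 hmod.symm
    have heq : p ^ d - p ^ c = p ^ c * (p ^ (d - c) - 1) := by
      have : p ^ d = p ^ c * p ^ (d - c) := by
        rw [← pow_add]; congr 1; omega
      rw [this, Nat.mul_sub, mul_one]
    rw [heq] at hdvd
    rcases (Nat.Prime.dvd_mul hq).1 hdvd with h | h
    · exact hqp ((Nat.prime_dvd_prime_iff_eq hq hp).1 (hq.dvd_of_dvd_pow h))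
    · exact hqd (d - c) (Finset.mem_Icc.2 ⟨by omega, by omega⟩) h

theorem normalizer_le_centralizer {G : Type*} [Group G] [Finite G] (p : ℕ) [Fact p.Prime]
    (P : Sylow p G) (hab : IsMulCommutative (P : Subgroup G))
    (hcop : Nat.Coprime (Nat.card G)
      (∏ i ∈ Finset.Icc 1 (Group.rank (P : Subgroup G)), (p ^ i - 1))) :
    normalizer ((P : Subgroup G) : Set G) ≤ centralizer ((P : Subgroup G) : Set G) := by
  classical
  have hp : p.Prime := Fact.out
  obtain ⟨kP, hkP⟩ := (IsPGroup.iff_card (p := p) (G := (P : Subgroup G))).1 P.isPGroup'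
  have hidx : (frattini (P : Subgroup G)).index ∣ p ^ kP := by
    rw [← hkP]; exact Subgroup.index_dvd_card _
  obtain ⟨n, -, hn⟩ := (Nat.dvd_prime_pow hp).1 hidx
  have hnr : n ≤ Group.rank (P : Subgroup G) := by
    obtain ⟨S, hS, hS2⟩ := Group.rank_spec (P : Subgroup G)
    have := (Cfsg.Agent.S0014.result p n P.isPGroup' hn).2 S hS2
    omega
  have hVc : Nat.card ((P : Subgroup G) ⧸ frattini (P : Subgroup G)) = p ^ n := by
    rw [← hn]; rfl
  have hfd : Nat.card (frattini (P : Subgroup G)) ∣ p ^ kP := by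
    rw [← hkP]; exact Subgroup.card_subgroup_dvd_card _
  -- key: q-elements of the normalizer act trivially on the Frattini quotient
  have L1 : ∀ q : ℕ, q.Prime → q ≠ p → q ∣ Nat.card G → ∀ a ∈ normalizer ((P : Subgroup G) : Set G),
      ∀ m : ℕ, a ^ (q ^ m) = 1 → ∀ k ∈ (P : Subgroup G),
      a * k * a⁻¹ * k⁻¹ ∈ (frattini (P : Subgroup G)).map (P : Subgroup G).subtype := by
    intro q hq hqp hqG a ha m ham k hk
    have hqd : ∀ i ∈ Finset.Icc 1 n, ¬ q ∣ p ^ i - 1 := by
      intro i hi hdvd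
      have hi' : i ∈ Finset.Icc 1 (Group.rank (P : Subgroup G)) := by
        rw [Finset.mem_Icc] at hi ⊢; omega
      have h1 : q ∣ ∏ i ∈ Finset.Icc 1 (Group.rank (P : Subgroup G)), (p ^ i - 1) :=
        hdvd.trans (Finset.dvd_prod_of_mem _ hi')
      have h2 : q ∣ Nat.gcd (Nat.card G)
          (∏ i ∈ Finset.Icc 1 (Group.rank (P : Subgroup G)), (p ^ i - 1)) :=
        Nat.dvd_gcd hqG h1
      rw [hcop] at h2
      exact hq.one_lt.ne' (Nat.dvd_one.1 h2)
    set σ : MulAut (P : Subgroup G) := (P : Subgroup G).normalizerMonoidHom ⟨a, ha⟩ with hσ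
    have hσpow : σ ^ (q ^ m) = 1 := by
      rw [hσ, ← map_pow]
      have : (⟨a, ha⟩ : normalizer ((P : Subgroup G) : Set G)) ^ (q ^ m) = 1 := by
        apply Subtype.ext
        simpa using ham
      rw [this, map_one]
    have hσΦ : (frattini (P : Subgroup G)).map σ.toMonoidHom = frattini (P : Subgroup G) :=
      (Subgroup.characteristic_iff_map_eq.1 frattini_characteristic) σ
    set τ : MulAut ((P : Subgroup G) ⧸ frattini (P : Subgroup G)) :=
      QuotientGroup.congr (frattini (P : Subgroup G)) (frattini (P : Subgroup G)) σ hσΦ with hτ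
    have hτmk : ∀ x : (P : Subgroup G), τ (QuotientGroup.mk x) = QuotientGroup.mk (σ x) := by
      intro x; rfl
    have hτpow : ∀ j : ℕ, ∀ x : (P : Subgroup G),
        (τ ^ j) (QuotientGroup.mk x) = QuotientGroup.mk ((σ ^ j) x) := by
      intro j
      induction j with
      | zero => intro x; simp
      | succ j ih =>
        intro x
        rw [pow_succ, pow_succ, MulAut.mul_apply, MulAut.mul_apply, hτmk, ih]
    have hτ1 : τ ^ (q ^ m) = 1 := by
      ext v
      induction v using QuotientGroup.induction_on with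
      | H x => rw [hτpow, hσpow]; rfl
    have hτone : τ = 1 := aut_trivial hp hq hVc hqd hqp τ m hτ1
    have hx : (QuotientGroup.mk (⟨k, hk⟩ : (P : Subgroup G)) :
        (P : Subgroup G) ⧸ frattini (P : Subgroup G)) = QuotientGroup.mk (σ ⟨k, hk⟩) := by
      rw [← hτmk, hτone]; rfl
    have hmem : (⟨k, hk⟩ : (P : Subgroup G))⁻¹ * σ ⟨k, hk⟩ ∈ frattini (P : Subgroup G) :=
      QuotientGroup.eq.1 hx
    have hmem2 : σ ⟨k, hk⟩ * (⟨k, hk⟩ : (P : Subgroup G))⁻¹ ∈ frattini (P : Subgroup G) :=
      (Subgroup.Normal.mem_comm inferInstance hmem)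
    exact Subgroup.mem_map.2 ⟨_, hmem2, rfl⟩
  have L2 : ∀ q : ℕ, q.Prime → q ≠ p → ∀ h ∈ normalizer ((P : Subgroup G) : Set G),
      ∀ m : ℕ, h ^ (q ^ m) = 1 → h ∈ centralizer ((P : Subgroup G) : Set G) := by
    intro q hq hqp h hh m hhm
    by_cases h1 : h = 1
    · rw [h1]; exact one_mem _
    have hord : orderOf h ∣ q ^ m := orderOf_dvd_of_pow_eq_one hhm
    obtain ⟨k, -, hk⟩ := (Nat.dvd_prime_pow hq).1 hord
    have hk0 : k ≠ 0 := by
      rintro rfl
      rw [pow_zero, orderOf_eq_one_iff] at hk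
      exact h1 hk
    have hqG : q ∣ Nat.card G := by
      have : q ∣ orderOf h := by rw [hk]; exact dvd_pow_self q hk0
      exact this.trans (orderOf_dvd_natCard h)
    have hcop2 : (Nat.card (zpowers h)).Coprime (Nat.card (frattini (P : Subgroup G))) := by
      rw [Nat.card_zpowers]
      have : (q ^ m).Coprime (p ^ kP) :=
        Nat.Coprime.pow _ _ ((Nat.coprime_primes hq hp).2 hqp)
      exact (this.coprime_dvd_left hord).coprime_dvd_right hfd
    refine Cfsg.Agent.S0029.result (zpowers h) (P : Subgroup G) ((zpowers_le).2 hh) hcop2 ?_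
      (mem_zpowers h)
    intro a ha k hk
    obtain ⟨j, rfl⟩ := mem_zpowers_iff.1 ha
    refine L1 q hq hqp hqG (h ^ j) (zpow_mem hh j) m ?_ k hk
    rw [← zpow_natCast, ← zpow_mul, mul_comm, zpow_mul, zpow_natCast, hhm, one_zpow]
  have key : ∀ N : ℕ, ∀ g ∈ normalizer ((P : Subgroup G) : Set G), orderOf g = N →
      g ∈ centralizer ((P : Subgroup G) : Set G) := by
    intro N
    induction N using Nat.recOnPosPrimePosCoprime with
    | prime_pow q m hq hm =>
      intro g hg hgo
      by_cases hqp : q = p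
      · subst hqp
        have hpg : IsPGroup q (zpowers g) := IsPGroup.of_card (n := m) (by rw [Nat.card_zpowers, hgo])
        have hsup : IsPGroup q (zpowers g ⊔ (P : Subgroup G) : Subgroup G) :=
          IsPGroup.to_sup_of_normal_right' hpg P.isPGroup' ((zpowers_le).2 hg)
        have hsupP : zpowers g ⊔ (P : Subgroup G) = P := P.is_maximal' hsup le_sup_right
        have hgP : g ∈ (P : Subgroup G) := by
          rw [← hsupP]; exact (le_sup_left : zpowers g ≤ _) (mem_zpowers g)
        rw [mem_centralizer_iff]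
        intro x hx
        have := hab.is_comm.comm (⟨x, hx⟩ : (P : Subgroup G)) ⟨g, hgP⟩
        exact congrArg Subtype.val this
      · exact L2 q hq hqp g hg m (by rw [← hgo]; exact pow_orderOf_eq_one g)
    | zero =>
      intro g hg hgo
      exact absurd hgo (orderOf_pos g).ne'
    | one =>
      intro g hg hgo
      rw [orderOf_eq_one_iff] at hgo
      rw [hgo]; exact one_mem _
    | coprime a b ha hb hab iha ihb =>
      intro g hg hgo
      have h0 : orderOf g ≠ 0 := (orderOf_pos g).ne'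
      have hoa : orderOf (g ^ a) = b := by
        have := orderOf_pow_orderOf_div (x := g) (n := b) h0 (by rw [hgo]; exact dvd_mul_left b a)
        rwa [hgo, Nat.mul_div_cancel _ (by omega)] at this
      have hob : orderOf (g ^ b) = a := by
        have := orderOf_pow_orderOf_div (x := g) (n := a) h0 (by rw [hgo]; exact dvd_mul_right a b)
        rwa [hgo, Nat.mul_div_cancel_left _ (by omega)] at this
      have hca := ihb (g ^ a) (pow_mem hg a) hoa
      have hcb := iha (g ^ b) (pow_mem hg b) hob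
      have hbez := Nat.gcd_eq_gcd_ab a b
      rw [hab] at hbez
      have : g = (g ^ a) ^ (Nat.gcdA a b) * (g ^ b) ^ (Nat.gcdB a b) := by
        rw [← zpow_natCast, ← zpow_natCast, ← zpow_mul, ← zpow_mul, ← zpow_add, ← hbez]
        simp
      rw [this]
      exact mul_mem (zpow_mem hca _) (zpow_mem hcb _)
  intro g hg
  exact key (orderOf g) g hg rfl

end Cfsg.Agent.Lib.Helper6.AbSylow
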