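import Mathlib
import Cfsg.Agent.S3969

namespace Cfsg.Agent.Lib.Helper6.AbSylow2

open Subgroup

universe u

theorem rank_le_one_of_card_le_two {P : Type*} [Group P] [Finite P] (h : Nat.card P ≤ 2) :
    Group.rank P ≤ 1 := by
  classical
  have hcyc : IsCyclic P := by
    have hpos : 0 < Nat.card P := Nat.card_pos
    have h12 : Nat.card P = 1 ∨ Nat.card P = 2 := by omega
    rcases h12 with h1 | h2
    · haveI : Subsingleton P := (Nat.card_eq_one_iff_unique.1 h1).1
      exact isCyclic_of_subsingleton
    · haveI : Fact (Nat.Prime 2) := ⟨Nat.prime_two⟩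
      exact isCyclic_of_prime_card (p := 2) h2
  obtain ⟨g, hg⟩ := hcyc.exists_generator
  have hcl : closure (({g} : Finset P) : Set P) = ⊤ := by
    rw [Finset.coe_singleton, ← zpowers_eq_closure]
    exact (eq_top_iff' _).2 hg
  have := Group.rank_le hcl
  simpa using this

theorem sq_sub_one' (p : ℕ) (h : 1 ≤ p) : p ^ 2 - 1 = (p - 1) * (p + 1) := by
  obtain ⟨k, rfl⟩ : ∃ k, p = k + 1 := ⟨p - 1, by omega⟩
  simp only [Nat.add_sub_cancel]
  have : (k + 1) ^ 2 = k * (k + 1 + 1) + 1 := by ring
  rw [this, Nat.add_sub_cancel]

theorem solvable_aux : ∀ n : ℕ, ∀ (G : Type u) [Group G] [Finite G], Nat.card G = n →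
    (∀ p : ℕ, p.Prime → p ∣ Nat.card G → (∃ q : ℕ, q.Prime ∧ q ∣ Nat.card G ∧ p < q) →
      ∀ P : Sylow p G, IsMulCommutative (P : Subgroup G) ∧ Group.rank (P : Subgroup G) ≤ 2) →
    ¬ 12 ∣ Nat.card G → Group.IsSolvable G := by
  intro n
  induction n using Nat.strong_induction_on with
  | _ n ih =>
  intro G _ _ hn h h12
  classical
  by_cases h1 : Nat.card G = 1
  · haveI : Subsingleton G := (Nat.card_eq_one_iff_unique.1 h1).1
    exact isSolvable_of_comm (fun a b => Subsingleton.elim _ _)
  set p := (Nat.card G).minFac with hpdef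
  have hp : p.Prime := Nat.minFac_prime h1
  haveI : Fact p.Prime := ⟨hp⟩
  have hpG : p ∣ Nat.card G := Nat.minFac_dvd _
  have hmin : ∀ q : ℕ, q.Prime → q ∣ Nat.card G → p ≤ q := fun q hq hqG =>
    Nat.minFac_le_of_dvd hq.two_le hqG
  clear_value p
  have hp2le := hp.two_le
  by_cases hex : ∃ q : ℕ, q.Prime ∧ q ∣ Nat.card G ∧ p < q
  · -- normal p-complement
    have P0 : Sylow p G := default
    obtain ⟨hab, hrk⟩ := h p hp hpG hex P0
    have hcop : Nat.Coprime (Nat.card G)
        (∏ i ∈ Finset.Icc 1 (Group.rank (P0 : Subgroup G)), (p ^ i - 1)) := by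
      apply Nat.Coprime.prod_right
      intro i hi
      rw [Finset.mem_Icc] at hi
      apply Nat.coprime_of_dvd
      intro q hq hqG hqi
      have hpq := hmin q hq hqG
      have hp1 : ¬ q ∣ p - 1 := by
        intro hd
        have := Nat.le_of_dvd (by omega) hd
        omega
      have hi12 : i = 1 ∨ i = 2 := by omega
      rcases hi12 with rfl | rfl
      · rw [pow_one] at hqi; exact hp1 hqi
      · have hfac : p ^ 2 - 1 = (p - 1) * (p + 1) := by
          exact sq_sub_one' p (by omega)
        rw [hfac] at hqi
        rcases (Nat.Prime.dvd_mul hq).1 hqi with hd | hd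
        · exact hp1 hd
        · have hle := Nat.le_of_dvd (by omega) hd
          have hne : q ≠ p := by
            intro hqp
            rw [hqp] at hd
            have : p ∣ 1 := (Nat.dvd_add_right (dvd_refl p)).1 hd
            exact hp.one_lt.ne' (Nat.dvd_one.1 this)
          have hq1 : q = p + 1 := by omega
          -- p and p+1 both prime: p = 2
          have hp2 : p = 2 := by
            rcases hp.eq_two_or_odd with h2 | hodd
            · exact h2
            · exfalso
              have hqodd : q % 2 = 0 := by omega
              rcases hq.eq_two_or_odd with h2 | hodd'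
              · have := hp.two_le; omega
              · omega
          have hq3 : q = 3 := by omega
          have hrk2 : Group.rank (P0 : Subgroup G) = 2 := by omega
          have hc4 : 4 ∣ Nat.card (P0 : Subgroup G) := by
            obtain ⟨k, hk⟩ := (IsPGroup.iff_card (p := p) (G := (P0 : Subgroup G))).1 P0.isPGroup'
            have hk' : Nat.card (P0 : Subgroup G) = 2 ^ k := by rw [hk, hp2]
            by_contra h4
            have hk1 : k ≤ 1 := by
              by_contra hk2
              apply h4
              rw [hk']
              exact pow_dvd_pow 2 (show 2 ≤ k by omega)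
            have hle2 : Nat.card (P0 : Subgroup G) ≤ 2 := by
              rw [hk']
              calc 2 ^ k ≤ 2 ^ 1 := Nat.pow_le_pow_right (by norm_num) hk1
                _ = 2 := by norm_num
            have := rank_le_one_of_card_le_two hle2
            omega
          have h4G : 4 ∣ Nat.card G := hc4.trans (Subgroup.card_subgroup_dvd_card _)
          have h3G : 3 ∣ Nat.card G := hq3 ▸ hqG
          exact h12 (Nat.Coprime.mul_dvd_of_dvd_of_dvd (by norm_num : Nat.Coprime 4 3) h4G h3G)
    obtain ⟨P, N, hNn, hNP⟩ := Cfsg.Agent.S3969.result p P0 hab hcop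
    haveI := hNn
    have hcardmul : Nat.card N * Nat.card (P : Subgroup G) = Nat.card G := hNP.card_mul
    obtain ⟨k, hk⟩ := (IsPGroup.iff_card (p := p) (G := (P : Subgroup G))).1 P.isPGroup'
    have hpP : p ∣ Nat.card (P : Subgroup G) := P.dvd_card_of_dvd_card hpG
    have hNlt : Nat.card N < Nat.card G := by
      have hNpos : 0 < Nat.card N := Nat.card_pos
      have hP2 : 2 ≤ Nat.card (P : Subgroup G) :=
        le_trans hp.two_le (Nat.le_of_dvd Nat.card_pos hpP)
      nlinarith
    have hNidx : (P : Subgroup G).index = Nat.card N := hNP.index_eq_card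
    have hpN : ¬ p ∣ Nat.card N := by rw [← hNidx]; exact P.not_dvd_index
    have hNsolv : Group.IsSolvable N := by
      refine ih (Nat.card N) (hn ▸ hNlt) N rfl ?_ ?_
      · intro r hr hrN hexr R
        haveI : Fact r.Prime := ⟨hr⟩
        have hNG : Nat.card N ∣ Nat.card G := Subgroup.card_subgroup_dvd_card N
        have hrG : r ∣ Nat.card G := hrN.trans hNG
        have hrp : r ≠ p := by rintro rfl; exact hpN hrN
        obtain ⟨q, hq, hqN, hrq⟩ := hexr
        have hRp : IsPGroup r (R.map N.subtype : Subgroup G) := R.isPGroup'.map N.subtype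
        obtain ⟨S, hS⟩ := hRp.exists_le_sylow
        obtain ⟨habS, hrkS⟩ := h r hr hrG ⟨q, hq, hqN.trans hNG, hrq⟩ S
        have hcR : Nat.card ((R : Subgroup N).map N.subtype) = Nat.card (R : Subgroup N) :=
          Subgroup.card_map_of_injective N.subtype_injective
        have hRS : (R : Subgroup N).map N.subtype = (S : Subgroup G) := by
          apply Subgroup.eq_of_le_of_card_ge hS
          rw [hcR, S.card_eq_multiplicity, R.card_eq_multiplicity]
          apply Nat.pow_le_pow_right hr.pos
          have hG0 : Nat.card G ≠ 0 := Nat.card_pos.ne'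
          have hN0 : Nat.card N ≠ 0 := Nat.card_pos.ne'
          have h1 : r ^ (Nat.card G).factorization r ∣ Nat.card N * p ^ k := by
            rw [← hk, hcardmul]; exact Nat.ordProj_dvd _ _
          have h2 : Nat.Coprime (r ^ (Nat.card G).factorization r) (p ^ k) :=
            Nat.Coprime.pow _ _ ((Nat.coprime_primes hr hp).2 hrp)
          have h3 : r ^ (Nat.card G).factorization r ∣ Nat.card N := h2.dvd_of_dvd_mul_right h1
          exact (hr.pow_dvd_iff_le_factorization hN0).1 h3
        constructor
        · refine ⟨⟨fun x y => ?_⟩⟩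
          have hx : ((x : N) : G) ∈ (S : Subgroup G) := by
            rw [← hRS]; exact Subgroup.mem_map_of_mem _ x.2
          have hy : ((y : N) : G) ∈ (S : Subgroup G) := by
            rw [← hRS]; exact Subgroup.mem_map_of_mem _ y.2
          have := habS.is_comm.comm (⟨_, hx⟩ : (S : Subgroup G)) ⟨_, hy⟩
          apply Subtype.ext; apply Subtype.ext
          show ((x : N) : G) * ((y : N) : G) = ((y : N) : G) * ((x : N) : G)
          exact congrArg Subtype.val this
        · have e1 : (R : Subgroup N) ≃* ((R : Subgroup N).map N.subtype) :=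
            Subgroup.equivMapOfInjective _ _ N.subtype_injective
          rw [Group.rank_congr e1, Subgroup.rank_congr hRS]
          exact hrkS
      · intro hd
        exact h12 (hd.trans (Subgroup.card_subgroup_dvd_card N))
    have hQsolv : Group.IsSolvable (G ⧸ N) := by
      have hc : Nat.card (G ⧸ N) = p ^ k := by
        rw [← hk]
        exact hNP.symm.index_eq_card
      have : IsPGroup p (G ⧸ N) := IsPGroup.of_card hc
      haveI := this.isNilpotent
      infer_instance
    exact solvable_of_ker_le_range N.subtype (QuotientGroup.mk' N) (by simp)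
  · -- G is a p-group
    have hpow : Nat.card G = p ^ (Nat.card G).primeFactorsList.length := by
      apply Nat.eq_prime_pow_of_unique_prime_dvd Nat.card_pos.ne'
      intro d hd hdG
      by_contra hne
      exact hex ⟨d, hd, hdG, lt_of_le_of_ne (hmin d hd hdG) (Ne.symm hne)⟩
    have : IsPGroup p G := IsPGroup.of_card hpow
    haveI := this.isNilpotent
    infer_instance

end Cfsg.Agent.Lib.Helper6.AbSylow2
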