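import Mathlib
import Cfsg.Agent.Lib.Helper6.PolyFun

set_option autoImplicit false

namespace Cfsg.Agent.Lib.Helper6.Burn

open Polynomial Cfsg.Agent.Lib.Helper6.PolyFun

section
variable (p : ℕ) [Fact p.Prime] (K : Type*) [Field K] [CharP K p]

theorem cast_eq (x : ZMod p) : (ZMod.cast x : K) = ZMod.castHom (dvd_refl p) K x := rfl

/-- The power argument. -/
theorem affine_of_pows (σ : ZMod p → ZMod p) (D : ℕ) (hD1 : 1 ≤ D) (hD2 : 2 * D ≤ p - 1)
    (hQ : ∀ k : ℕ, k ≤ D → ∃ Q : K[X], Q.natDegree ≤ D ∧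
      ∀ j : ZMod p, (ZMod.cast (σ j) : K)^k = Q.eval (ZMod.cast j : K)) :
    ∀ x, σ x = (σ 1 - σ 0) * x + σ 0 := by
  have hp2 : 2 ≤ p := (Fact.out : p.Prime).two_le
  obtain ⟨P, hPd, hPe⟩ := hQ 1 hD1
  have hPe' : ∀ j, (ZMod.cast (σ j) : K) = P.eval (ZMod.cast j : K) := fun j => by
    have h1 := hPe j
    rwa [pow_one] at h1
  have he : P.natDegree ≤ 1 := by
    by_contra hcon
    have he2 : 2 ≤ P.natDegree := by omega
    obtain ⟨e, he_def⟩ : ∃ e, e = P.natDegree := ⟨_, rfl⟩
    rw [← he_def] at he2 hPd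
    have hk1 : D / e + 1 ≤ D := by
      have h1 : D / e ≤ D / 2 := Nat.div_le_div_left he2 (by norm_num)
      omega
    have hk2 : D < (D / e + 1) * e := by
      have h1 := Nat.div_add_mod D e
      have h2 := Nat.mod_lt D (show 0 < e by omega)
      nlinarith
    have hk3 : (D / e + 1) * e ≤ 2 * D := by
      have h1 := Nat.div_mul_le_self D e
      nlinarith
    obtain ⟨Q, hQd, hQe⟩ := hQ (D / e + 1) hk1
    have hPQ : P^(D / e + 1) = Q := by
      apply eq_of_natDegree_lt_card_of_eval_eq _ _ (f := (ZMod.cast : ZMod p → K))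
        (cast_inj p K)
      · intro j
        rw [eval_pow, ← hPe' j, hQe j]
      · rw [ZMod.card, natDegree_pow, ← he_def]
        exact max_lt (by omega) (by omega)
    have h3 : (P^(D / e + 1)).natDegree = (D / e + 1) * e := by
      rw [natDegree_pow, ← he_def]
    rw [hPQ] at h3
    omega
  have hP1 := eq_X_add_C_of_natDegree_le_one he
  have hlin : ∀ j, (ZMod.cast (σ j) : K) = P.coeff 1 * (ZMod.cast j : K) + P.coeff 0 :=
    fun j => by
      rw [hPe' j]
      conv_lhs => rw [hP1]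
      simp
  intro x
  apply cast_inj p K
  have h0 := hlin 0
  have h1 := hlin 1
  have hx := hlin x
  simp only [cast_eq] at h0 h1 hx ⊢
  rw [map_zero, mul_zero, zero_add] at h0
  rw [map_one, mul_one] at h1
  rw [map_add, map_mul, map_sub, hx, h1, h0]
  ring

theorem sum_pow_cast (k : ℕ) (hk : k < p - 1) : ∑ j : ZMod p, (ZMod.cast j : K)^k = 0 := by
  simp only [cast_eq]
  rw [← Finset.sum_congr rfl (fun j _ => map_pow (ZMod.castHom (dvd_refl p) K) j k), ← map_sum,
    FiniteField.sum_pow_lt_card_sub_one (ZMod p) k (by rw [ZMod.card]; exact hk), map_zero]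

theorem sum_pow_cast_top : ∑ j : ZMod p, (ZMod.cast j : K)^(p - 1) = -1 := by
  have hp2 : 2 ≤ p := (Fact.out : p.Prime).two_le
  simp only [cast_eq]
  rw [← Finset.sum_congr rfl (fun j _ => map_pow (ZMod.castHom (dvd_refl p) K) j (p - 1)),
    ← map_sum]
  have h1 : ∑ j : ZMod p, j^(p - 1) = -1 := by
    have h2 : ∀ j : ZMod p, j^(p - 1) = 1 - (if j = 0 then 1 else 0) := by
      intro j
      by_cases hj : j = 0
      · rw [hj, if_pos rfl, zero_pow (by omega)]; ring
      · rw [if_neg hj, ZMod.pow_card_sub_one_eq_one hj]; ring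
    rw [Finset.sum_congr rfl (fun j _ => h2 j), Finset.sum_sub_distrib, Finset.sum_const,
      Finset.card_univ, ZMod.card, Finset.sum_ite_eq' Finset.univ (0 : ZMod p) (fun _ => (1 : ZMod p))]
    simp
  rw [h1, map_neg, map_one]

theorem sum_eval_eq_zero (R : K[X]) (hR : R.natDegree ≤ p - 2) :
    ∑ j : ZMod p, R.eval (ZMod.cast j : K) = 0 := by
  have hp2 : 2 ≤ p := (Fact.out : p.Prime).two_le
  simp only [eval_eq_sum_range]
  rw [Finset.sum_comm]
  apply Finset.sum_eq_zero
  intro k hk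
  rw [← Finset.mul_sum, sum_pow_cast p K k (by have := Finset.mem_range.mp hk; omega), mul_zero]

theorem core (G : Subgroup (Equiv.Perm (ZMod p))) (t : Equiv.Perm (ZMod p)) (ht : t ∈ G)
    (htx : ∀ x, t x = x + 1)
    (W : Submodule K (ZMod p → K)) (hW : ∀ g ∈ G, ∀ f ∈ W, (fun x => f (g x)) ∈ W)
    (h2 : 2 ≤ Module.finrank K W) (hp2 : Module.finrank K W ≤ p - 2) :
    ∀ g ∈ G, ∀ x, g x = (g 1 - g 0) * x + g 0 := by
  have hpp : 2 ≤ p := (Fact.out : p.Prime).two_le
  have htinv : ∀ x, t⁻¹ x = x - 1 := fun x => by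
    rw [Equiv.Perm.inv_eq_iff_eq, htx]; ring
  have hWsh : ∀ f ∈ W, (fun j => f (j - 1)) ∈ W := fun f hf => by
    have h1 := hW t⁻¹ (G.inv_mem ht) f hf
    simpa only [htinv] using h1
  obtain ⟨r, hr, hfr, hWr⟩ := PolyFun.main p K W hWsh
  rw [hfr] at h2 hp2
  obtain ⟨Wp, hWp⟩ : ∃ Wp : Submodule K (ZMod p → K),
      ∀ f, f ∈ Wp ↔ ∀ h ∈ W, ∑ j, f j * h j = 0 :=
    ⟨{ carrier := {f | ∀ h ∈ W, ∑ j, f j * h j = 0}
       add_mem' := fun {a b} ha hb h hh => by
         simp only [Pi.add_apply, add_mul, Finset.sum_add_distrib, ha h hh, hb h hh, add_zero]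
       zero_mem' := fun h hh => by simp
       smul_mem' := fun c a ha h hh => by
         simp only [Pi.smul_apply, smul_eq_mul, mul_assoc, ← Finset.mul_sum, ha h hh,
           mul_zero] }, fun f => Iff.rfl⟩
  have hWpG : ∀ g ∈ G, ∀ f ∈ Wp, (fun x => f (g x)) ∈ Wp := by
    intro g hg f hf
    rw [hWp] at hf ⊢
    intro h hh
    have h1 : ∑ j, f (g j) * h j = ∑ i, f i * h (g⁻¹ i) := by
      rw [← Equiv.sum_comp g (fun i => f i * h (g⁻¹ i))]
      refine Finset.sum_congr rfl (fun j _ => ?_)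
      show f (g j) * h j = f (g j) * h (g⁻¹ (g j))
      rw [show g⁻¹ (g j) = j from g.symm_apply_apply j]
    rw [h1]
    exact hf _ (hW g⁻¹ (G.inv_mem hg) h hh)
  have hWpsh : ∀ f ∈ Wp, (fun j => f (j - 1)) ∈ Wp := fun f hf => by
    have h1 := hWpG t⁻¹ (G.inv_mem ht) f hf
    simpa only [htinv] using h1
  obtain ⟨r', hr', hfr', hWpr⟩ := PolyFun.main p K Wp hWpsh
  have hA : PF p K (p - r) ≤ Wp := by
    intro f hf
    rw [mem_PF] at hf
    obtain ⟨P, hP, hPe⟩ := hf
    rw [hWp]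
    intro h hh
    rw [hWr, mem_PF] at hh
    obtain ⟨Q, hQ, hQe⟩ := hh
    have h1 : ∑ j, f j * h j = ∑ j : ZMod p, (P * Q).eval (ZMod.cast j : K) := by
      refine Finset.sum_congr rfl (fun j _ => ?_)
      rw [hPe j, hQe j, eval_mul]
    rw [h1]
    by_cases hP0 : P = 0
    · rw [hP0]; simp
    by_cases hQ0 : Q = 0
    · rw [hQ0]; simp
    apply sum_eval_eq_zero
    have h3 := (natDegree_lt_iff_degree_lt hP0).mpr hP
    have h4 := (natDegree_lt_iff_degree_lt hQ0).mpr hQ
    have h5 := natDegree_mul_le (p := P) (q := Q)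
    omega
  have hC : p - r ≤ r' := by
    have h1 := Submodule.finrank_mono hA
    rw [finrank_PF p K (p - r) (by omega), hfr'] at h1
    exact h1
  have hB : r' ≤ p - r := by
    by_contra hcon
    have h1 : (fun j : ZMod p => (ZMod.cast j : K)^(p - r)) ∈ Wp := by
      rw [hWpr, mem_PF]
      refine ⟨X^(p - r), ?_, fun j => by simp⟩
      rw [degree_X_pow]
      exact_mod_cast (by omega : p - r < r')
    have h3 : (fun j : ZMod p => (ZMod.cast j : K)^(r - 1)) ∈ W := by
      rw [hWr, mem_PF]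
      refine ⟨X^(r - 1), ?_, fun j => by simp⟩
      rw [degree_X_pow]
      exact_mod_cast (by omega : r - 1 < r)
    rw [hWp] at h1
    have h4 := h1 _ h3
    have h5 : ∑ j : ZMod p, (ZMod.cast j : K)^(p - r) * (ZMod.cast j : K)^(r - 1)
        = ∑ j : ZMod p, (ZMod.cast j : K)^(p - 1) := by
      refine Finset.sum_congr rfl (fun j _ => ?_)
      rw [← pow_add, show p - r + (r - 1) = p - 1 by omega]
    rw [h5, sum_pow_cast_top] at h4
    exact one_ne_zero (neg_eq_zero.mp h4)
  have hr'eq : r' = p - r := le_antisymm hB hC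
  obtain ⟨m, hm2, hmp, hminv⟩ : ∃ m, 2 ≤ m ∧ 2 * m ≤ p ∧
      ∀ g ∈ G, ∀ f ∈ PF p K m, (fun x => f (g x)) ∈ PF p K m := by
    rcases Nat.le_total r (p - r) with h | h
    · exact ⟨r, h2, by omega, by rw [← hWr]; exact hW⟩
    · exact ⟨p - r, by omega, by omega, by rw [← hr'eq, ← hWpr]; exact hWpG⟩
  intro g hg
  apply affine_of_pows p K g (m - 1) (by omega) (by omega)
  intro k hk
  have h1 : (fun j : ZMod p => (ZMod.cast j : K)^k) ∈ PF p K m := by
    rw [mem_PF]
    refine ⟨X^k, ?_, fun j => by simp⟩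
    rw [degree_X_pow]
    exact_mod_cast (by omega : k < m)
  have h3 := hminv g hg _ h1
  rw [mem_PF] at h3
  obtain ⟨Q, hQd, hQe⟩ := h3
  refine ⟨Q, ?_, fun j => hQe j⟩
  by_cases hQ0 : Q = 0
  · rw [hQ0]; simp
  · have h4 := (natDegree_lt_iff_degree_lt hQ0).mpr hQd
    omega

theorem solvable_of_affine (G : Subgroup (Equiv.Perm (ZMod p)))
    (h : ∀ g ∈ G, ∀ x, g x = (g 1 - g 0) * x + g 0) : Group.IsSolvable G := by
  have hne : ∀ g : Equiv.Perm (ZMod p), g 1 - g 0 ≠ 0 := fun g =>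
    sub_ne_zero.mpr (fun h1 => one_ne_zero (g.injective h1))
  let μ : G →* (ZMod p)ˣ :=
    { toFun := fun g =>
        Units.mk0 ((g : Equiv.Perm (ZMod p)) 1 - (g : Equiv.Perm (ZMod p)) 0) (hne _)
      map_one' := by apply Units.ext; simp
      map_mul' := fun a b => by
        apply Units.ext
        show ((a * b : G) : Equiv.Perm (ZMod p)) 1 - ((a * b : G) : Equiv.Perm (ZMod p)) 0 =
          ((a : Equiv.Perm (ZMod p)) 1 - (a : Equiv.Perm (ZMod p)) 0) *
            ((b : Equiv.Perm (ZMod p)) 1 - (b : Equiv.Perm (ZMod p)) 0)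
        rw [Subgroup.coe_mul, Equiv.Perm.mul_apply, Equiv.Perm.mul_apply, h a.1 a.2 (b.1 1),
          h a.1 a.2 (b.1 0)]
        ring }
  have htr : ∀ a : μ.ker, ∀ x,
      ((a : G) : Equiv.Perm (ZMod p)) x = x + ((a : G) : Equiv.Perm (ZMod p)) 0 := by
    intro a x
    have h1 : μ (a : G) = 1 := a.2
    have h2 : ((a : G) : Equiv.Perm (ZMod p)) 1 - ((a : G) : Equiv.Perm (ZMod p)) 0 = 1 :=
      congrArg Units.val h1
    rw [h (a : G).1 (a : G).2 x, h2, one_mul]
  have hker : ∀ a b : μ.ker, a * b = b * a := by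
    intro a b
    apply Subtype.ext; apply Subtype.ext; apply Equiv.ext; intro x
    show ((a : G) : Equiv.Perm (ZMod p)) (((b : G) : Equiv.Perm (ZMod p)) x) =
      ((b : G) : Equiv.Perm (ZMod p)) (((a : G) : Equiv.Perm (ZMod p)) x)
    have ha := htr a
    have hb := htr b
    obtain ⟨fa, hfa⟩ : ∃ fa : Equiv.Perm (ZMod p), fa = ((a : G) : Equiv.Perm (ZMod p)) :=
      ⟨_, rfl⟩
    obtain ⟨fb, hfb⟩ : ∃ fb : Equiv.Perm (ZMod p), fb = ((b : G) : Equiv.Perm (ZMod p)) :=
      ⟨_, rfl⟩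
    rw [← hfa] at ha ⊢
    rw [← hfb] at hb ⊢
    rw [ha (fb x), hb x, hb (fa x), ha x]; ring
  haveI : Group.IsSolvable μ.ker := Group.isSolvable_of_comm hker
  exact Group.isSolvable_of_ker_le_range μ.ker.subtype μ (by rw [Subgroup.range_subtype])

theorem exists_model {α : Type*} [Fintype α] [DecidableEq α] (hα : Fintype.card α = p)
    (G : Subgroup (Equiv.Perm α)) [MulAction.IsPretransitive G α] :
    ∃ e : ZMod p ≃ α, ∃ σ ∈ G, ∀ i : ZMod p, e (i + 1) = σ (e i) := by
  have hpp : p.Prime := Fact.out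
  have hdvd : p ∣ Nat.card G := by
    obtain ⟨a⟩ : Nonempty α := by
      rw [← Fintype.card_pos_iff, hα]; exact hpp.pos
    have h1 := MulAction.index_stabilizer_of_transitive G a
    rw [Nat.card_eq_fintype_card, hα] at h1
    rw [← h1]; exact Subgroup.index_dvd_card _
  obtain ⟨c, hc⟩ := exists_prime_orderOf_dvd_card' p hdvd
  have hσ : orderOf (c : Equiv.Perm α) = p := by rw [Subgroup.orderOf_coe]; exact hc
  have hcyc : (c : Equiv.Perm α).IsCycle :=
    Equiv.Perm.isCycle_of_prime_order'' (by rw [hα]; exact hpp) (by rw [hσ, hα])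
  have hsupp : (c : Equiv.Perm α).support = Finset.univ := by
    apply Finset.eq_univ_of_card
    rw [← hcyc.orderOf, hσ, hα]
  obtain ⟨a, ha, hsame⟩ := hcyc
  have hall : ∀ y, ∃ i : ℤ, ((c : Equiv.Perm α) ^ i) a = y := fun y =>
    hsame (Equiv.Perm.mem_support.mp (by rw [hsupp]; exact Finset.mem_univ y))
  have hsurj : Function.Surjective (fun i : ZMod p => ((c : Equiv.Perm α) ^ i.val) a) := by
    intro y
    obtain ⟨i, hi⟩ := hall y
    refine ⟨(i : ZMod p), ?_⟩
    show ((c : Equiv.Perm α) ^ (i : ZMod p).val) a = y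
    rw [← hi, ← zpow_natCast]
    congr 1
    rw [zpow_eq_zpow_iff_modEq, hσ, ZMod.val_intCast]
    exact Int.mod_modEq i p
  have hbij : Function.Bijective (fun i : ZMod p => ((c : Equiv.Perm α) ^ i.val) a) :=
    (Fintype.bijective_iff_surjective_and_card _).mpr ⟨hsurj, by rw [ZMod.card, hα]⟩
  refine ⟨Equiv.ofBijective _ hbij, (c : Equiv.Perm α), c.2, fun i => ?_⟩
  show ((c : Equiv.Perm α) ^ (i + 1).val) a = (c : Equiv.Perm α) (((c : Equiv.Perm α) ^ i.val) a)
  rw [← Equiv.Perm.mul_apply, ← pow_succ']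
  congr 1
  rw [pow_eq_pow_iff_modEq, hσ, ZMod.val_add, ZMod.val_one_eq_one_mod]
  exact (Nat.mod_modEq _ _).trans ((Nat.ModEq.refl _).add (Nat.mod_modEq 1 p))

theorem heart {α : Type*} [Fintype α] [DecidableEq α] (hα : Fintype.card α = p)
    (G : Subgroup (Equiv.Perm α)) [MulAction.IsPretransitive G α] (hG : ¬ Group.IsSolvable G)
    (W : Submodule K (α → K)) (hWG : ∀ g ∈ G, ∀ f ∈ W, (fun x => f (g x)) ∈ W)
    (h2 : 2 ≤ Module.finrank K W) (hp2 : Module.finrank K W ≤ p - 2) : False := by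
  obtain ⟨e, σ, hσG, he⟩ := exists_model p hα G
  obtain ⟨ψ, hψ⟩ : ∃ ψ : Equiv.Perm α ≃* Equiv.Perm (ZMod p),
      ∀ (g : Equiv.Perm α) (x : ZMod p), ψ g x = e.symm (g (e x)) :=
    ⟨e.symm.permCongrHom, fun g x => rfl⟩
  have hfr : Module.finrank K (W.map (LinearMap.funLeft K K e)) = Module.finrank K W :=
    (Submodule.equivMapOfInjective (LinearMap.funLeft K K e)
      (LinearMap.funLeft_injective_of_surjective K K e e.surjective) W).finrank_eq.symm
  have hW' : ∀ g ∈ G.map ψ.toMonoidHom, ∀ f ∈ W.map (LinearMap.funLeft K K e),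
      (fun x => f (g x)) ∈ W.map (LinearMap.funLeft K K e) := by
    rintro _ ⟨g, hg, rfl⟩ _ ⟨f, hf, rfl⟩
    refine ⟨fun x => f (g x), hWG g hg f hf, ?_⟩
    ext x
    show f (g (e x)) = f (e (ψ g x))
    rw [hψ, Equiv.apply_symm_apply]
  have hall := core p K (G.map ψ.toMonoidHom) (ψ σ) ⟨σ, hσG, rfl⟩
    (fun x => by rw [hψ, ← he, Equiv.symm_apply_apply]) (W.map (LinearMap.funLeft K K e)) hW'
    (by rw [hfr]; exact h2) (by rw [hfr]; exact hp2)
  haveI := solvable_of_affine p (G.map ψ.toMonoidHom) hall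
  apply hG
  exact Group.isSolvable_of_isSolvable_injective
    (f := (G.equivMapOfInjective ψ.toMonoidHom ψ.injective).toMonoidHom) (MulEquiv.injective _)

theorem heart_cases {α : Type*} [Fintype α] [DecidableEq α] (hα : Fintype.card α = p)
    (G : Subgroup (Equiv.Perm α)) [MulAction.IsPretransitive G α] (hG : ¬ Group.IsSolvable G)
    (W Z : Submodule K (α → K)) (hWG : ∀ g ∈ G, ∀ f ∈ W, (fun x => f (g x)) ∈ W)
    (hZ : ∀ f ∈ Z, ∑ x, f x = 0)
    (h₁ : Submodule.span K {(fun _ : α => (1:K))} ≤ W) (h₂ : W ≤ Z) :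
    W = Submodule.span K {(fun _ : α => (1:K))} ∨ W = Z := by
  have hpp : p.Prime := Fact.out
  obtain ⟨a⟩ : Nonempty α := by
    rw [← Fintype.card_pos_iff, hα]; exact hpp.pos
  have hZfr : Module.finrank K Z ≤ p - 1 := by
    let φ : (α → K) →ₗ[K] K := ∑ x : α, LinearMap.proj x
    have hφ : ∀ f : α → K, φ f = ∑ x, f x := fun f => by
      show (∑ x : α, LinearMap.proj x) f = _
      rw [LinearMap.sum_apply]; rfl
    have h1 : Z ≤ LinearMap.ker φ := fun f hf => by
      rw [LinearMap.mem_ker, hφ]; exact hZ f hf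
    have h3 := LinearMap.finrank_range_add_finrank_ker φ
    have h4 : Module.finrank K (LinearMap.range φ) = 1 := by
      have h5 : LinearMap.range φ = ⊤ := by
        rw [LinearMap.range_eq_top]
        intro c
        refine ⟨Pi.single a c, ?_⟩
        rw [hφ, Finset.sum_pi_single']
        simp
      rw [h5, finrank_top, Module.finrank_self]
    rw [h4, Module.finrank_fintype_fun_eq_card, hα] at h3
    have h6 := Submodule.finrank_mono h1
    omega
  by_cases hc1 : Module.finrank K W ≤ 1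
  · left
    symm
    apply Submodule.eq_of_le_of_finrank_le h₁
    rw [finrank_span_singleton (by
      intro h0
      have h1 := congrFun h0 a
      simp at h1)]
    exact hc1
  by_cases hc2 : p - 1 ≤ Module.finrank K W
  · right
    exact Submodule.eq_of_le_of_finrank_le h₂ (hZfr.trans hc2)
  · exfalso
    exact heart p K hα G hG W hWG (by omega) (by omega)

theorem finrank_ker_sq_le {V : Type*} [AddCommGroup V] [Module K V] [FiniteDimensional K V]
    (B : V →ₗ[K] V) :
    Module.finrank K (LinearMap.ker (B ∘ₗ B)) ≤ 2 * Module.finrank K (LinearMap.ker B) := by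
  have h1 := LinearMap.finrank_range_add_finrank_ker (B.comp (LinearMap.ker (B ∘ₗ B)).subtype)
  have h2 : Module.finrank K (LinearMap.range (B.comp (LinearMap.ker (B ∘ₗ B)).subtype)) ≤
      Module.finrank K (LinearMap.ker B) := by
    apply Submodule.finrank_mono
    rintro _ ⟨⟨x, hx⟩, rfl⟩
    exact hx
  have h3 : Module.finrank K (LinearMap.ker (B.comp (LinearMap.ker (B ∘ₗ B)).subtype)) ≤
      Module.finrank K (LinearMap.ker B) := by
    rw [← Submodule.finrank_map_subtype_eq]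
    apply Submodule.finrank_mono
    rintro _ ⟨x, hx, rfl⟩
    exact hx
  omega

theorem tpow_apply (t : Equiv.Perm (ZMod p)) (htx : ∀ x, t x = x + 1) (k : ℕ) (x : ZMod p) :
    (t ^ k) x = x + k := by
  induction k with
  | zero => simp
  | succ k ih => rw [pow_succ', Equiv.Perm.mul_apply, ih, htx]; push_cast; ring

theorem burnside_zmod (hp5 : 5 ≤ p) (G : Subgroup (Equiv.Perm (ZMod p)))
    (t : Equiv.Perm (ZMod p)) (ht : t ∈ G) (htx : ∀ x, t x = x + 1) (a b c d : ZMod p)
    (hab : a ≠ b) (hcd : c ≠ d) (hnot : ∀ g ∈ G, ¬ (g a = c ∧ g b = d)) :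
    ∀ g ∈ G, ∀ x, g x = (g 1 - g 0) * x + g 0 := by
  classical
  have htrans : ∀ u v : ZMod p, ∃ τ ∈ G, τ u = v := by
    intro u v
    refine ⟨t ^ (v - u).val, G.pow_mem ht _, ?_⟩
    rw [tpow_apply p t htx, ZMod.natCast_zmod_val]; ring
  obtain ⟨rel, hrel⟩ : ∃ rel : ZMod p → ZMod p → Prop,
      ∀ x y, rel x y ↔ ∃ g ∈ G, g a = x ∧ g b = y := ⟨_, fun x y => Iff.rfl⟩
  have hrelG : ∀ g ∈ G, ∀ x y, rel (g x) (g y) ↔ rel x y := by
    intro g hg x y
    rw [hrel, hrel]
    constructor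
    · rintro ⟨h, hh, h1, h2⟩
      refine ⟨g⁻¹ * h, G.mul_mem (G.inv_mem hg) hh, ?_, ?_⟩
      · rw [Equiv.Perm.mul_apply, h1]; exact g.symm_apply_apply x
      · rw [Equiv.Perm.mul_apply, h2]; exact g.symm_apply_apply y
    · rintro ⟨h, hh, h1, h2⟩
      exact ⟨g * h, G.mul_mem hg hh, by rw [Equiv.Perm.mul_apply, h1],
        by rw [Equiv.Perm.mul_apply, h2]⟩
  obtain ⟨s, hs⟩ : ∃ s : ℕ, s = (Finset.univ.filter (fun y => rel a y)).card := ⟨_, rfl⟩
  have hval : ∀ x, (Finset.univ.filter (fun y => rel x y)).card = s := by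
    intro x
    obtain ⟨τ, hτ, hτa⟩ := htrans a x
    rw [hs, ← hτa]
    apply Finset.card_bij (fun y _ => τ⁻¹ y)
    · intro y hy
      rw [Finset.mem_filter] at hy ⊢
      refine ⟨Finset.mem_univ _, ?_⟩
      exact (hrelG τ hτ a (τ⁻¹ y)).mp (by
        rw [show τ (τ⁻¹ y) = y from τ.apply_symm_apply y]; exact hy.2)
    · intro y1 _ y2 _ h
      exact τ⁻¹.injective h
    · intro y hy
      rw [Finset.mem_filter] at hy
      refine ⟨τ y, ?_, τ.symm_apply_apply y⟩
      rw [Finset.mem_filter]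
      exact ⟨Finset.mem_univ _, (hrelG τ hτ a y).mpr hy.2⟩
  obtain ⟨B, hBapp⟩ : ∃ B : (ZMod p → ZMod p) →ₗ[ZMod p] (ZMod p → ZMod p),
      ∀ f x, B f x = (∑ y, if rel x y then f y else 0) - (s : ZMod p) * f x :=
    ⟨{ toFun := fun f x => (∑ y, if rel x y then f y else 0) - (s : ZMod p) * f x
       map_add' := fun f h => by
         ext x
         simp only [Pi.add_apply]
         rw [show (∑ y, if rel x y then f y + h y else 0) =
           (∑ y, if rel x y then f y else 0) + (∑ y, if rel x y then h y else 0) from by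
             rw [← Finset.sum_add_distrib]
             refine Finset.sum_congr rfl (fun y _ => ?_)
             split_ifs <;> simp]
         ring
       map_smul' := fun c f => by
         ext x
         simp only [Pi.smul_apply, smul_eq_mul, RingHom.id_apply]
         rw [show (∑ y, if rel x y then c * f y else 0) =
           c * (∑ y, if rel x y then f y else 0) from by
             rw [Finset.mul_sum]
             refine Finset.sum_congr rfl (fun y _ => ?_)
             split_ifs <;> simp]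
         ring }, fun f x => rfl⟩
  have hBG : ∀ g ∈ G, ∀ f : ZMod p → ZMod p, B (fun x => f (g x)) = fun x => B f (g x) := by
    intro g hg f
    ext x
    rw [hBapp, hBapp]
    congr 1
    rw [← Equiv.sum_comp g (fun y' => if rel (g x) y' then f y' else 0)]
    refine Finset.sum_congr rfl (fun y _ => ?_)
    simp only [hrelG g hg x y]
  have hB1 : B (fun _ => 1) = 0 := by
    ext x
    rw [hBapp, Finset.sum_ite, Finset.sum_const_zero, add_zero, Finset.sum_const, hval x]
    simp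
  have hkerG : ∀ g ∈ G, ∀ f ∈ LinearMap.ker B, (fun x => f (g x)) ∈ LinearMap.ker B := by
    intro g hg f hf
    rw [LinearMap.mem_ker] at hf ⊢
    rw [hBG g hg f, hf]; rfl
  have hranG : ∀ g ∈ G, ∀ f ∈ LinearMap.range B, (fun x => f (g x)) ∈ LinearMap.range B := by
    rintro g hg _ ⟨f, rfl⟩
    exact ⟨fun x => f (g x), hBG g hg f⟩
  have hker2G : ∀ g ∈ G, ∀ f ∈ LinearMap.ker (B ∘ₗ B),
      (fun x => f (g x)) ∈ LinearMap.ker (B ∘ₗ B) := by
    intro g hg f hf
    rw [LinearMap.mem_ker, LinearMap.comp_apply] at hf ⊢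
    rw [hBG g hg f, hBG g hg (B f), hf]; rfl
  have htinv : ∀ x, t⁻¹ x = x - 1 := fun x => by
    rw [Equiv.Perm.inv_eq_iff_eq, htx]; ring
  have sh_of_G : ∀ W : Submodule (ZMod p) (ZMod p → ZMod p),
      (∀ g ∈ G, ∀ f ∈ W, (fun x => f (g x)) ∈ W) → ∀ f ∈ W, (fun j => f (j - 1)) ∈ W := by
    intro W hW f hf
    have h1 := hW t⁻¹ (G.inv_mem ht) f hf
    simpa only [htinv] using h1
  obtain ⟨r₂, hr₂, hfr₂, hran⟩ := PolyFun.main p (ZMod p) (LinearMap.range B) (sh_of_G _ hranG)
  obtain ⟨τ, hτ, hτd⟩ := htrans d b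
  have hx1 : ¬ rel (τ c) b := by
    rw [hrel]
    rintro ⟨h, hh, h1, h2⟩
    apply hnot (τ⁻¹ * h) (G.mul_mem (G.inv_mem hτ) hh)
    constructor
    · rw [Equiv.Perm.mul_apply, h1]; exact τ.symm_apply_apply c
    · rw [Equiv.Perm.mul_apply, h2, ← hτd]; exact τ.symm_apply_apply d
  have hx1b : τ c ≠ b := by
    intro h
    rw [← hτd] at h
    exact hcd (τ.injective h)
  have hφa : B (Pi.single b 1) a = 1 := by
    rw [hBapp, Pi.single_eq_of_ne hab, mul_zero, sub_zero,
      Finset.sum_eq_single b]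
    · rw [if_pos ((hrel a b).mpr ⟨1, G.one_mem, rfl, rfl⟩), Pi.single_eq_same]
    · intro y _ hy
      rw [Pi.single_eq_of_ne hy]; simp
    · intro h; exact absurd (Finset.mem_univ b) h
  have hφx : B (Pi.single b 1) (τ c) = 0 := by
    rw [hBapp, Pi.single_eq_of_ne hx1b, mul_zero, sub_zero,
      Finset.sum_eq_single b]
    · rw [if_neg hx1]
    · intro y _ hy
      rw [Pi.single_eq_of_ne hy]; simp
    · intro h; exact absurd (Finset.mem_univ b) h
  have hr₂2 : 2 ≤ r₂ := by
    by_contra hcon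
    have hφ : B (Pi.single b 1) ∈ PF p (ZMod p) r₂ := by
      rw [← hran]; exact LinearMap.mem_range_self _ _
    rw [mem_PF] at hφ
    obtain ⟨P, hP, hPe⟩ := hφ
    have hPn : P.natDegree = 0 := by
      by_cases hP0 : P = 0
      · rw [hP0]; simp
      · have h1 := (natDegree_lt_iff_degree_lt hP0).mpr hP
        omega
    have hPC : P = C (P.coeff 0) := eq_C_of_natDegree_eq_zero hPn
    have h1 := hPe a
    have h2 := hPe (τ c)
    rw [hPC, eval_C] at h1 h2
    rw [hφa] at h1
    rw [hφx] at h2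
    rw [← h2] at h1
    exact one_ne_zero h1
  have hk := LinearMap.finrank_range_add_finrank_ker B
  have hV : Module.finrank (ZMod p) (ZMod p → ZMod p) = p := by simp
  rw [hfr₂, hV] at hk
  by_cases hk2 : 2 ≤ Module.finrank (ZMod p) (LinearMap.ker B)
  · exact core p (ZMod p) G t ht htx (LinearMap.ker B) hkerG hk2 (by omega)
  · have hk1 : 1 ≤ Module.finrank (ZMod p) (LinearMap.ker B) := by
      by_contra h0
      have h00 : Module.finrank (ZMod p) (LinearMap.ker B) = 0 := by omega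
      rw [Submodule.finrank_eq_zero] at h00
      have h1 : (fun _ : ZMod p => (1 : ZMod p)) ∈ LinearMap.ker B := hB1
      rw [h00, Submodule.mem_bot] at h1
      have h3 := congrFun h1 0
      simp at h3
    have h1r : (fun _ : ZMod p => (1 : ZMod p)) ∈ LinearMap.range B := by
      rw [hran, mem_PF]
      refine ⟨C 1, ?_, fun j => by simp⟩
      rw [degree_C one_ne_zero]
      exact_mod_cast (by omega : 0 < r₂)
    obtain ⟨f, hf⟩ := h1r
    have hlt : LinearMap.ker B < LinearMap.ker (B ∘ₗ B) := by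
      refine lt_of_le_of_ne (fun x hx => ?_) (fun heq => ?_)
      · rw [LinearMap.mem_ker] at hx ⊢
        rw [LinearMap.comp_apply, hx, map_zero]
      · have hf2 : f ∈ LinearMap.ker (B ∘ₗ B) := by
          rw [LinearMap.mem_ker, LinearMap.comp_apply, hf]; exact hB1
        rw [← heq, LinearMap.mem_ker, hf] at hf2
        have h3 := congrFun hf2 0
        simp at h3
    have h2le := Submodule.finrank_lt_finrank_of_lt hlt
    have h2ge := finrank_ker_sq_le (ZMod p) B
    exact core p (ZMod p) G t ht htx (LinearMap.ker (B ∘ₗ B)) hker2G (by omega) (by omega)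

end

theorem affine_two : ∀ g : Equiv.Perm (ZMod 2), ∀ x, g x = (g 1 - g 0) * x + g 0 := by decide

theorem affine_three : ∀ g : Equiv.Perm (ZMod 3), ∀ x, g x = (g 1 - g 0) * x + g 0 := by decide

theorem burnside {α : Type*} [Fintype α] [DecidableEq α] (hα : (Fintype.card α).Prime)
    (G : Subgroup (Equiv.Perm α)) [MulAction.IsPretransitive G α] :
    Group.IsSolvable G ∨ MulAction.IsMultiplyPretransitive G α 2 := by
  by_cases h2 : MulAction.IsMultiplyPretransitive G α 2
  · right; exact h2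
  left
  rw [MulAction.is_two_pretransitive_iff] at h2
  push Not at h2
  obtain ⟨a, b, c, d, hab, hcd, hnot⟩ := h2
  obtain ⟨p, hp⟩ : ∃ p, p = Fintype.card α := ⟨_, rfl⟩
  haveI : Fact p.Prime := ⟨by rw [hp]; exact hα⟩
  obtain ⟨e, σ, hσG, he⟩ := exists_model p hp.symm G
  obtain ⟨ψ, hψ⟩ : ∃ ψ : Equiv.Perm α ≃* Equiv.Perm (ZMod p),
      ∀ (g : Equiv.Perm α) (x : ZMod p), ψ g x = e.symm (g (e x)) :=
    ⟨e.symm.permCongrHom, fun g x => rfl⟩
  have hall : ∀ g ∈ G.map ψ.toMonoidHom, ∀ x, g x = (g 1 - g 0) * x + g 0 := by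
    rcases Nat.lt_or_ge p 5 with hlt | hge
    · have hp2 := (Fact.out : p.Prime).two_le
      have hp4 : p ≠ 4 := fun h => by
        have h1 := (Fact.out : p.Prime)
        rw [h] at h1
        exact absurd h1 (by decide)
      have h23 : p = 2 ∨ p = 3 := by omega
      rcases h23 with rfl | rfl
      · intro g _; exact affine_two g
      · intro g _; exact affine_three g
    · apply burnside_zmod p hge (G.map ψ.toMonoidHom) (ψ σ) ⟨σ, hσG, rfl⟩
        (fun x => by rw [hψ, ← he, Equiv.symm_apply_apply]) (e.symm a) (e.symm b) (e.symm c)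
        (e.symm d) (e.symm.injective.ne hab) (e.symm.injective.ne hcd)
      rintro _ ⟨g, hg, rfl⟩ ⟨h1, h2⟩
      have h1' : ψ g (e.symm a) = e.symm c := h1
      have h2' : ψ g (e.symm b) = e.symm d := h2
      rw [hψ, Equiv.apply_symm_apply] at h1' h2'
      exact hnot ⟨g, hg⟩ (e.symm.injective h1') (e.symm.injective h2')
  haveI := solvable_of_affine p (G.map ψ.toMonoidHom) hall
  exact Group.isSolvable_of_isSolvable_injective
    (f := (G.equivMapOfInjective ψ.toMonoidHom ψ.injective).toMonoidHom) (MulEquiv.injective _)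

end Cfsg.Agent.Lib.Helper6.Burn
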