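import Mathlib
import Cfsg.Agent.Lib.Helper6.Burn

set_option autoImplicit false

namespace Cfsg.Agent.Lib.Helper6.Neu

open Polynomial Cfsg.Agent.Lib.Helper6.PolyFun Cfsg.Agent.Lib.Helper6.Burn

section
variable (p : ℕ) [Fact p.Prime]

/-- finrank bound for spans of functions with vanishing zeroth and first moments -/
theorem finrank_moments_le (S : Set (ZMod p → ZMod p))
    (h0 : ∀ f ∈ S, ∑ x, f x = 0) (h1 : ∀ f ∈ S, ∑ x, x * f x = 0) :
    Module.finrank (ZMod p) (Submodule.span (ZMod p) S) ≤ p - 2 := by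
  classical
  have hpp : 2 ≤ p := (Fact.out : p.Prime).two_le
  let φ1 : (ZMod p → ZMod p) →ₗ[ZMod p] ZMod p := ∑ x : ZMod p, LinearMap.proj x
  let φ2 : (ZMod p → ZMod p) →ₗ[ZMod p] ZMod p := ∑ x : ZMod p, x • LinearMap.proj x
  have hφ1 : ∀ f, φ1 f = ∑ x, f x := fun f => by
    show (∑ x : ZMod p, LinearMap.proj x) f = _
    rw [LinearMap.sum_apply]; rfl
  have hφ2 : ∀ f, φ2 f = ∑ x, x * f x := fun f => by
    show (∑ x : ZMod p, x • LinearMap.proj x) f = _
    rw [LinearMap.sum_apply]; rfl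
  have hle : Submodule.span (ZMod p) S ≤ LinearMap.ker (φ1.prod φ2) := by
    rw [Submodule.span_le]
    intro f hf
    show (φ1.prod φ2) f = 0
    rw [LinearMap.prod_apply]
    show (φ1 f, φ2 f) = 0
    rw [hφ1, hφ2, h0 f hf, h1 f hf]; rfl
  have h3 := LinearMap.finrank_range_add_finrank_ker (φ1.prod φ2)
  have h5 : LinearMap.range (φ1.prod φ2) = ⊤ := by
    rw [LinearMap.range_eq_top]
    rintro ⟨c, d⟩
    refine ⟨Pi.single 0 (c - d) + Pi.single 1 d, ?_⟩
    rw [LinearMap.prod_apply]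
    show (φ1 _, φ2 _) = (c, d)
    rw [hφ1, hφ2]
    have e1 : ∑ x : ZMod p, (Pi.single (0 : ZMod p) (c - d) + Pi.single (1 : ZMod p) d : ZMod p → ZMod p) x = c := by
      simp only [Pi.add_apply, Finset.sum_add_distrib, Finset.sum_pi_single', Finset.mem_univ, if_true]
      ring
    have e2 : ∑ x : ZMod p, x * (Pi.single (0 : ZMod p) (c - d) + Pi.single (1 : ZMod p) d : ZMod p → ZMod p) x = d := by
      simp only [Pi.add_apply, mul_add, Finset.sum_add_distrib, Pi.single_apply, mul_ite, mul_zero,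
        Finset.sum_ite_eq', Finset.mem_univ, if_true]
      ring
    rw [e1, e2]
  rw [h5, finrank_top, Module.finrank_prod, Module.finrank_self, Module.finrank_fintype_fun_eq_card,
    ZMod.card] at h3
  have h6 := Submodule.finrank_mono hle
  omega

theorem three_trans (hp5 : 5 ≤ p) (G : Subgroup (Equiv.Perm (ZMod p)))
    (σ : Equiv.Perm (ZMod p)) (hσ : σ ∈ G) (hσx : ∀ x, σ x = x + 1)
    (ρ : Equiv.Perm (ZMod p)) (hρ : ρ ∈ G) (hρx : ∀ x, ρ x = -x)
    (hna : ¬ ∀ g ∈ G, ∀ x, g x = (g 1 - g 0) * x + g 0) :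
    ∀ a b c : ZMod p, a ≠ b → a ≠ c → b ≠ c → ∃ g ∈ G, g a = 0 ∧ g b = 1 ∧ g c = 2⁻¹ := by
  classical
  have hpp : p.Prime := Fact.out
  have h2ne : (2 : ZMod p) ≠ 0 := by
    intro h
    have h1 : ((2 : ℕ) : ZMod p) = 0 := by exact_mod_cast h
    rw [ZMod.natCast_eq_zero_iff] at h1
    have := Nat.le_of_dvd (by norm_num) h1
    omega
  obtain ⟨h, hh⟩ : ∃ h : ZMod p, h = 2⁻¹ := ⟨_, rfl⟩
  rw [← hh]
  have h2h : 2 * h = 1 := by rw [hh]; exact mul_inv_cancel₀ h2ne
  have hh0 : h ≠ 0 := by rw [hh]; exact inv_ne_zero h2ne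
  have hh1 : h ≠ 1 := by
    intro h1
    rw [h1] at h2h
    have : (1 : ZMod p) = 0 := by linear_combination h2h
    exact one_ne_zero this
  -- 2-transitivity
  have h2t : ∀ a b c d : ZMod p, a ≠ b → c ≠ d → ∃ g ∈ G, g a = c ∧ g b = d := by
    intro a b c d hab hcd
    by_contra hcon
    push Not at hcon
    exact hna (burnside_zmod p hp5 G σ hσ hσx a b c d hab hcd
      (fun g hg h12 => hcon g hg h12.1 h12.2))
  -- reflections
  have hrefl : ∀ c : ZMod p, ∃ s ∈ G, ∀ x, s x = c - x := by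
    intro c
    refine ⟨σ ^ c.val * ρ, G.mul_mem (G.pow_mem hσ _) hρ, fun x => ?_⟩
    rw [Equiv.Perm.mul_apply, tpow_apply p σ hσx, hρx, ZMod.natCast_zmod_val]; ring
  -- the relation
  obtain ⟨R, hR⟩ : ∃ R : ZMod p → ZMod p → ZMod p → Prop,
      ∀ x u v, R x u v ↔ ∃ g ∈ G, g 0 = u ∧ g 1 = v ∧ g h = x := ⟨_, fun _ _ _ => Iff.rfl⟩
  have hRG : ∀ g ∈ G, ∀ x u v, R (g x) (g u) (g v) ↔ R x u v := by
    intro g hg x u v
    rw [hR, hR]
    constructor
    · rintro ⟨k, hk, h1, h2, h3⟩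
      refine ⟨g⁻¹ * k, G.mul_mem (G.inv_mem hg) hk, ?_, ?_, ?_⟩
      · rw [Equiv.Perm.mul_apply, h1]; exact g.symm_apply_apply u
      · rw [Equiv.Perm.mul_apply, h2]; exact g.symm_apply_apply v
      · rw [Equiv.Perm.mul_apply, h3]; exact g.symm_apply_apply x
    · rintro ⟨k, hk, h1, h2, h3⟩
      exact ⟨g * k, G.mul_mem hg hk, by rw [Equiv.Perm.mul_apply, h1],
        by rw [Equiv.Perm.mul_apply, h2], by rw [Equiv.Perm.mul_apply, h3]⟩
  have hRsymm : ∀ x u v, R x u v → R x v u := by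
    intro x u v
    rw [hR, hR]
    rintro ⟨k, hk, h1, h2, h3⟩
    obtain ⟨s, hs, hsx⟩ := hrefl 1
    refine ⟨k * s, G.mul_mem hk hs, ?_, ?_, ?_⟩
    · rw [Equiv.Perm.mul_apply, hsx, sub_zero, h2]
    · rw [Equiv.Perm.mul_apply, hsx, sub_self, h1]
    · rw [Equiv.Perm.mul_apply, hsx, show (1 : ZMod p) - h = h by linear_combination (-1 : ZMod p) * h2h,
        h3]
  obtain ⟨k, hk⟩ : ∃ k : ℕ, k = (Finset.univ.filter (fun x => R x 0 1)).card := ⟨_, rfl⟩
  have hcard : ∀ u v : ZMod p, u ≠ v → (Finset.univ.filter (fun x => R x u v)).card = k := by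
    intro u v huv
    obtain ⟨τ, hτ, hτ0, hτ1⟩ := h2t 0 1 u v zero_ne_one huv
    rw [hk]
    apply Finset.card_bij (fun y _ => τ⁻¹ y)
    · intro y hy
      rw [Finset.mem_filter] at hy ⊢
      refine ⟨Finset.mem_univ _, ?_⟩
      have h1 := hRG τ hτ (τ⁻¹ y) 0 1
      rw [show τ (τ⁻¹ y) = y from τ.apply_symm_apply y, hτ0, hτ1] at h1
      exact h1.mp hy.2
    · intro y1 _ y2 _ h
      exact τ⁻¹.injective h
    · intro y hy
      rw [Finset.mem_filter] at hy
      refine ⟨τ y, ?_, τ.symm_apply_apply y⟩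
      rw [Finset.mem_filter]
      have h1 := hRG τ hτ y 0 1
      rw [hτ0, hτ1] at h1
      exact ⟨Finset.mem_univ _, h1.mpr hy.2⟩
  obtain ⟨F, hF⟩ : ∃ F : ZMod p → ZMod p → ZMod p → ZMod p, ∀ u v x,
      F u v x = (if R x u v then 2 else 0) - (k : ZMod p) * (if x = u ∨ x = v then 1 else 0) :=
    ⟨_, fun _ _ _ => rfl⟩
  have hFG : ∀ g ∈ G, ∀ u v x, F (g u) (g v) (g x) = F u v x := by
    intro g hg u v x
    rw [hF, hF]
    have e1 : R (g x) (g u) (g v) ↔ R x u v := hRG g hg x u v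
    have e2 : (g x = g u ∨ g x = g v) ↔ (x = u ∨ x = v) := by
      rw [g.injective.eq_iff, g.injective.eq_iff]
    simp only [e1, e2]
  have hFsymm : ∀ u v x, F u v x = F v u x := by
    intro u v x
    rw [hF, hF]
    have e1 : R x u v ↔ R x v u := ⟨hRsymm x u v, hRsymm x v u⟩
    have e2 : (x = u ∨ x = v) ↔ (x = v ∨ x = u) := or_comm
    simp only [e1, e2]
  have hsum0 : ∀ u v : ZMod p, u ≠ v → ∑ x, F u v x = 0 := by
    intro u v huv
    simp only [hF]
    rw [Finset.sum_sub_distrib, ← Finset.mul_sum, Finset.sum_ite, Finset.sum_const_zero, add_zero,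
      Finset.sum_const, hcard u v huv, Finset.sum_ite, Finset.sum_const_zero, add_zero,
      Finset.sum_const]
    have h2 : (Finset.univ.filter (fun x => x = u ∨ x = v)).card = 2 := by
      rw [show Finset.univ.filter (fun x => x = u ∨ x = v) = {u, v} by
        ext x; simp]
      exact Finset.card_pair huv
    rw [h2]
    simp only [nsmul_eq_mul, mul_one]
    push_cast
    ring
  have hsum1 : ∀ u v : ZMod p, u ≠ v → ∑ x, x * F u v x = 0 := by
    intro u v huv
    obtain ⟨s, hs, hsx⟩ := hrefl (u + v)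
    have hsu : s u = v := by rw [hsx]; ring
    have hsv : s v = u := by rw [hsx]; ring
    have hinv : ∀ x, F u v (s x) = F u v x := by
      intro x
      have h1 := hFG s hs v u x
      rw [hsu, hsv] at h1
      rw [h1, hFsymm]
    have e0 : ∑ x, (s x) * F u v (s x) = ∑ x, x * F u v x :=
      Equiv.sum_comp s (fun x => x * F u v x)
    have e : ∑ x, (u + v - x) * F u v x = ∑ x, x * F u v x := by
      rw [← e0]
      exact Finset.sum_congr rfl (fun x _ => by rw [hinv, hsx])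
    have e2 : ∑ x, (u + v - x) * F u v x = (u + v) * ∑ x, F u v x - ∑ x, x * F u v x := by
      rw [Finset.mul_sum, ← Finset.sum_sub_distrib]
      exact Finset.sum_congr rfl (fun x _ => by ring)
    rw [e2, hsum0 u v huv, mul_zero, zero_sub] at e
    have e3 : 2 * ∑ x, x * F u v x = 0 := by linear_combination (-1 : ZMod p) * e
    exact (mul_eq_zero.mp e3).resolve_left h2ne
  obtain ⟨S, hS⟩ : ∃ S : Set (ZMod p → ZMod p), S = {f | ∃ u v, u ≠ v ∧ f = F u v} := ⟨_, rfl⟩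
  have hfr := finrank_moments_le p S
    (by rw [hS]; rintro _ ⟨u, v, huv, rfl⟩; exact hsum0 u v huv)
    (by rw [hS]; rintro _ ⟨u, v, huv, rfl⟩; exact hsum1 u v huv)
  have hWG : ∀ g ∈ G, ∀ f ∈ Submodule.span (ZMod p) S, (fun x => f (g x)) ∈ Submodule.span (ZMod p) S := by
    intro g hg f hf
    have hmap : (Submodule.span (ZMod p) S).map (LinearMap.funLeft (ZMod p) (ZMod p) g) ≤
        Submodule.span (ZMod p) S := by
      rw [Submodule.map_span, Submodule.span_le]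
      rintro _ ⟨f, hf, rfl⟩
      rw [hS] at hf
      obtain ⟨u, v, huv, rfl⟩ := hf
      apply Submodule.subset_span
      rw [hS]
      refine ⟨g⁻¹ u, g⁻¹ v, g⁻¹.injective.ne huv, ?_⟩
      ext x
      show F u v (g x) = F (g⁻¹ u) (g⁻¹ v) x
      have h1 := hFG g hg (g⁻¹ u) (g⁻¹ v) x
      rw [show g (g⁻¹ u) = u from g.apply_symm_apply u,
        show g (g⁻¹ v) = v from g.apply_symm_apply v] at h1
      exact h1
    exact hmap ⟨f, hf, rfl⟩
  have hfr1 : Module.finrank (ZMod p) (Submodule.span (ZMod p) S) ≤ 1 := by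
    by_contra hcon
    exact hna (core p (ZMod p) G σ hσ hσx (Submodule.span (ZMod p) S) hWG (by omega) hfr)
  have hσinv : ∀ x, σ⁻¹ x = x - 1 := fun x => by
    rw [Equiv.Perm.inv_eq_iff_eq, hσx]; ring
  have hWsh : ∀ f ∈ Submodule.span (ZMod p) S, (fun j => f (j - 1)) ∈ Submodule.span (ZMod p) S :=
    fun f hf => by
      have h1 := hWG σ⁻¹ (G.inv_mem hσ) f hf
      simpa only [hσinv] using h1
  obtain ⟨r, hr, hrfr, hWr⟩ := PolyFun.main p (ZMod p) (Submodule.span (ZMod p) S) hWsh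
  have hmem : F 0 1 ∈ PF p (ZMod p) r := by
    rw [← hWr]
    apply Submodule.subset_span
    rw [hS]
    exact ⟨0, 1, zero_ne_one, rfl⟩
  rw [mem_PF] at hmem
  obtain ⟨P, hPd, hPf⟩ := hmem
  have hP0 : P.degree ≤ 0 := by
    have h1 : P.degree < 1 := lt_of_lt_of_le hPd (by exact_mod_cast (hrfr ▸ hfr1))
    exact Nat.WithBot.lt_one_iff_le_zero.mp h1
  have hconst : ∀ j, F 0 1 j = P.coeff 0 := by
    intro j
    rw [hPf j, eq_C_of_degree_le_zero hP0, eval_C, coeff_C_zero]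
  have hRh : R h 0 1 := by
    rw [hR]; exact ⟨1, G.one_mem, rfl, rfl, rfl⟩
  have hFh : F 0 1 h = 2 := by
    rw [hF, if_pos hRh, if_neg (by push Not; exact ⟨hh0, hh1⟩)]; ring
  have hall : ∀ y : ZMod p, y ≠ 0 → y ≠ 1 → R y 0 1 := by
    intro y hy0 hy1
    by_contra hRy
    have h1 : F 0 1 y = 0 := by
      rw [hF, if_neg hRy, if_neg (by push Not; exact ⟨hy0, hy1⟩)]; ring
    rw [hconst y, ← hconst h, hFh] at h1
    exact h2ne h1
  intro a b c hab hac hbc
  obtain ⟨g1, hg1, hg1a, hg1b⟩ := h2t a b 0 1 hab zero_ne_one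
  have hy0 : g1 c ≠ 0 := by rw [← hg1a]; exact g1.injective.ne (Ne.symm hac)
  have hy1 : g1 c ≠ 1 := by rw [← hg1b]; exact g1.injective.ne (Ne.symm hbc)
  have hRy := hall (g1 c) hy0 hy1
  rw [hR] at hRy
  obtain ⟨g2, hg2, h20, h21, h2h'⟩ := hRy
  refine ⟨g2⁻¹ * g1, G.mul_mem (G.inv_mem hg2) hg1, ?_, ?_, ?_⟩
  · rw [Equiv.Perm.mul_apply, hg1a, Equiv.Perm.inv_eq_iff_eq, h20]
  · rw [Equiv.Perm.mul_apply, hg1b, Equiv.Perm.inv_eq_iff_eq, h21]
  · rw [Equiv.Perm.mul_apply, Equiv.Perm.inv_eq_iff_eq, h2h']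

/-- model from a given element of order p -/
theorem model_of_order {α : Type*} [Fintype α] [DecidableEq α] (hα : Fintype.card α = p)
    (c : Equiv.Perm α) (hσ : orderOf c = p) :
    ∃ e : ZMod p ≃ α, ∀ i : ZMod p, e (i + 1) = c (e i) := by
  have hpp : p.Prime := Fact.out
  have hcyc : c.IsCycle :=
    Equiv.Perm.isCycle_of_prime_order'' (by rw [hα]; exact hpp) (by rw [hσ, hα])
  have hsupp : c.support = Finset.univ := by
    apply Finset.eq_univ_of_card
    rw [← hcyc.orderOf, hσ, hα]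
  obtain ⟨a, ha, hsame⟩ := hcyc
  have hall : ∀ y, ∃ i : ℤ, (c ^ i) a = y := fun y =>
    hsame (Equiv.Perm.mem_support.mp (by rw [hsupp]; exact Finset.mem_univ y))
  have hsurj : Function.Surjective (fun i : ZMod p => (c ^ i.val) a) := by
    intro y
    obtain ⟨i, hi⟩ := hall y
    refine ⟨(i : ZMod p), ?_⟩
    show (c ^ (i : ZMod p).val) a = y
    rw [← hi, ← zpow_natCast]
    congr 1
    rw [zpow_eq_zpow_iff_modEq, hσ, ZMod.val_intCast]
    exact Int.mod_modEq i p
  have hbij : Function.Bijective (fun i : ZMod p => (c ^ i.val) a) :=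
    (Fintype.bijective_iff_surjective_and_card _).mpr ⟨hsurj, by rw [ZMod.card, hα]⟩
  refine ⟨Equiv.ofBijective _ hbij, fun i => ?_⟩
  show (c ^ (i + 1).val) a = c ((c ^ i.val) a)
  rw [← Equiv.Perm.mul_apply, ← pow_succ']
  congr 1
  rw [pow_eq_pow_iff_modEq, hσ, ZMod.val_add, ZMod.val_one_eq_one_mod]
  exact (Nat.mod_modEq _ _).trans ((Nat.ModEq.refl _).add (Nat.mod_modEq 1 p))

theorem sq_not_dvd {α : Type*} [Fintype α] [DecidableEq α] (hα : Fintype.card α = p)
    (G : Subgroup (Equiv.Perm α)) : ¬ p ^ 2 ∣ Nat.card G := by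
  intro h
  have hpp : p.Prime := Fact.out
  have h1 : Nat.card G ∣ p.factorial := by
    have h0 := Subgroup.card_subgroup_dvd_card G
    rwa [Nat.card_perm, Nat.card_eq_fintype_card (α := α), hα] at h0
  have h2 : p ^ 2 ∣ p.factorial := h.trans h1
  rw [← Nat.mul_factorial_pred hpp.pos.ne', pow_two] at h2
  have h3 : p ∣ (p - 1).factorial := Nat.dvd_of_mul_dvd_mul_left hpp.pos h2
  have h4 := (hpp.dvd_factorial).mp h3
  have := hpp.pos
  omega

theorem p_dvd_card {α : Type*} [Fintype α] [DecidableEq α] (hα : Fintype.card α = p)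
    (G : Subgroup (Equiv.Perm α)) [MulAction.IsPretransitive G α] : p ∣ Nat.card G := by
  have hpp : p.Prime := Fact.out
  obtain ⟨a⟩ : Nonempty α := by
    rw [← Fintype.card_pos_iff, hα]; exact hpp.pos
  have h1 := MulAction.index_stabilizer_of_transitive G a
  rw [Nat.card_eq_fintype_card, hα] at h1
  rw [← h1]; exact Subgroup.index_dvd_card _

theorem setup {α : Type*} [Fintype α] [DecidableEq α] (hα : Fintype.card α = p) (hp2 : p ≠ 2)
    (G : Subgroup (Equiv.Perm α)) [MulAction.IsPretransitive G α] (P : Sylow p G)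
    (heven : Even (Nat.card (Subgroup.normalizer ((P : Subgroup G) : Set G)))) :
    ∃ e : ZMod p ≃ α, ∃ σ ∈ G, ∃ ρ ∈ G, (∀ i : ZMod p, e (i + 1) = σ (e i)) ∧
      (∀ i : ZMod p, e (-i) = ρ (e i)) := by
  have hpp : p.Prime := Fact.out
  have hdvd : p ∣ Nat.card G := p_dvd_card p hα G
  have hsq := sq_not_dvd p hα G
  have hPcard : Nat.card (P : Subgroup G) = p := by
    obtain ⟨n, hn⟩ := IsPGroup.iff_card.mp P.isPGroup'
    have h1 : p ∣ Nat.card (P : Subgroup G) := P.dvd_card_of_dvd_card hdvd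
    have h2 : Nat.card (P : Subgroup G) ∣ Nat.card G := Subgroup.card_subgroup_dvd_card _
    rw [hn] at h1 h2 ⊢
    rcases n with _ | _ | n
    · rw [pow_zero] at h1
      exact absurd (Nat.le_of_dvd one_pos h1) (by have := hpp.two_le; omega)
    · rw [zero_add, pow_one]
    · exact absurd ((pow_dvd_pow p (by omega : 2 ≤ n + 1 + 1)).trans h2) hsq
  obtain ⟨c, hcP, hc1⟩ : ∃ c : G, c ∈ (P : Subgroup G) ∧ c ≠ 1 := by
    by_contra hcon
    push Not at hcon
    have h1 : (P : Subgroup G) = ⊥ := (Subgroup.eq_bot_iff_forall _).mpr hcon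
    rw [h1, Subgroup.card_bot] at hPcard
    have := hpp.two_le
    omega
  have hco : orderOf c = p := by
    have h1 : orderOf c ∣ p := by
      have h0 := orderOf_dvd_natCard (⟨c, hcP⟩ : (P : Subgroup G))
      rw [hPcard, Subgroup.orderOf_mk] at h0
      exact h0
    rcases (Nat.dvd_prime hpp).mp h1 with h | h
    · exact absurd (orderOf_eq_one_iff.mp h) hc1
    · exact h
  have hzp : ∀ x ∈ (P : Subgroup G), ∃ n : ℕ, c ^ n = x := by
    have hle : Subgroup.zpowers c ≤ (P : Subgroup G) := (Subgroup.zpowers_le).mpr hcP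
    have heq : Subgroup.zpowers c = (P : Subgroup G) :=
      Subgroup.eq_of_le_of_card_ge hle (by rw [Nat.card_zpowers, hco, hPcard])
    intro x hx
    rw [← heq] at hx
    exact (Submonoid.mem_powers_iff x c).mp
      ((isOfFinOrder_of_finite c).mem_powers_iff_mem_zpowers.mpr hx)
  haveI : Fact (Nat.Prime 2) := ⟨Nat.prime_two⟩
  obtain ⟨τ, hτ⟩ := exists_prime_orderOf_dvd_card' 2 (even_iff_two_dvd.mp heven)
  have hτn : (τ : G) ∈ Subgroup.normalizer ((P : Subgroup G) : Set G) := τ.2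
  have hconj : (τ : G) * c * (τ : G)⁻¹ ∈ (P : Subgroup G) :=
    (Subgroup.mem_normalizer_iff.mp hτn c).mp hcP
  obtain ⟨n, hn⟩ := hzp _ hconj
  obtain ⟨s, hs⟩ : ∃ s : Equiv.Perm α, s = ((c : G) : Equiv.Perm α) := ⟨_, rfl⟩
  obtain ⟨t, ht⟩ : ∃ t : Equiv.Perm α, t = (((τ : G) : Equiv.Perm α)) := ⟨_, rfl⟩
  have hsG : s ∈ G := by rw [hs]; exact c.2
  have htG : t ∈ G := by rw [ht]; exact (τ : G).2
  have hrel : s ^ n = t * s * t⁻¹ := by
    rw [hs, ht]
    exact_mod_cast congrArg Subtype.val hn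
  have ht2 : t * t = 1 := by
    have h1 : τ ^ 2 = 1 := by rw [← hτ]; exact pow_orderOf_eq_one τ
    rw [ht, ← pow_two]
    have h2 := congrArg (fun x : ↥(Subgroup.normalizer ((P : Subgroup G) : Set G)) =>
      ((x : G) : Equiv.Perm α)) h1
    exact_mod_cast h2
  have ht1 : t ≠ 1 := by
    intro h1
    have h2 : τ = 1 := by
      apply Subtype.ext
      apply Subtype.ext
      rw [← ht, h1]; rfl
    rw [h2, orderOf_one] at hτ
    omega
  have hso : orderOf s = p := by rw [hs, Subgroup.orderOf_coe]; exact hco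
  obtain ⟨e, he⟩ := model_of_order p hα s hso
  have hsn : ∀ (m : ℕ) (i : ZMod p), (s ^ m) (e i) = e (i + m) := by
    intro m
    induction m with
    | zero => intro i; simp
    | succ m ih =>
      intro i
      rw [pow_succ', Equiv.Perm.mul_apply, ih, ← he]
      congr 1
      push_cast; ring
  obtain ⟨f, hf⟩ : ∃ f : ZMod p → ZMod p, ∀ i, f i = e.symm (t (e i)) := ⟨_, fun _ => rfl⟩
  have hfe : ∀ i, t (e i) = e (f i) := fun i => by rw [hf, Equiv.apply_symm_apply]
  have hf1 : ∀ i, f (i + 1) = f i + n := by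
    intro i
    apply e.injective
    rw [← hfe, he, ← hsn, ← hfe]
    have h1 : t * s = s ^ n * t := by rw [hrel]; group
    have h2 := congrArg (fun g : Equiv.Perm α => g (e i)) h1
    simpa only [Equiv.Perm.mul_apply] using h2
  have hflin : ∀ m : ℕ, f (m : ZMod p) = n * m + f 0 := by
    intro m
    induction m with
    | zero => simp
    | succ m ih => push_cast; rw [hf1, ih]; ring
  have hflin' : ∀ i : ZMod p, f i = n * i + f 0 := by
    intro i
    have h1 := hflin i.val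
    rwa [ZMod.natCast_zmod_val] at h1
  have hff : ∀ i, f (f i) = i := by
    intro i
    apply e.injective
    rw [← hfe, ← hfe, ← Equiv.Perm.mul_apply, ht2]; rfl
  have h2ne : (2 : ZMod p) ≠ 0 := by
    intro h
    have h1 : ((2 : ℕ) : ZMod p) = 0 := by exact_mod_cast h
    rw [ZMod.natCast_eq_zero_iff] at h1
    have h3 := (Nat.prime_dvd_prime_iff_eq hpp Nat.prime_two).mp h1
    exact hp2 h3
  have e0 := hff 0
  have e1 := hff 1
  rw [hflin' (f 0)] at e0
  rw [hflin' (f 1), hflin' 1] at e1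
  have hsq1 : ((n : ZMod p) - 1) * ((n : ZMod p) + 1) = 0 := by linear_combination e1 - e0
  have hn1 : (n : ZMod p) = -1 := by
    rcases mul_eq_zero.mp hsq1 with h | h
    · exfalso
      have hn1 : (n : ZMod p) = 1 := by linear_combination h
      rw [hn1] at e0
      have hb : f 0 = 0 := by
        have : 2 * f 0 = 0 := by linear_combination e0
        exact (mul_eq_zero.mp this).resolve_left h2ne
      apply ht1
      ext x
      obtain ⟨i, rfl⟩ := e.surjective x
      rw [hfe, hflin', hn1, hb]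
      simp
    · linear_combination h
  obtain ⟨m, hm⟩ : ∃ m : ℕ, (m : ZMod p) = -(f 0) * 2⁻¹ := ⟨(-(f 0) * 2⁻¹).val, ZMod.natCast_zmod_val _⟩
  refine ⟨e, s, hsG, s ^ m * t * (s ^ m)⁻¹, G.mul_mem (G.mul_mem (G.pow_mem hsG m) htG)
    (G.inv_mem (G.pow_mem hsG m)), he, fun i => ?_⟩
  have hinv : (s ^ m)⁻¹ (e i) = e (i - m) := by
    rw [Equiv.Perm.inv_eq_iff_eq, hsn]; congr 1; ring
  rw [Equiv.Perm.mul_apply, Equiv.Perm.mul_apply, hinv, hfe, hsn, hflin', hn1, hm]
  congr 1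
  have h2 : (2 : ZMod p) * 2⁻¹ = 1 := mul_inv_cancel₀ h2ne
  linear_combination (f 0) * h2

theorem not_affine {α : Type*} [Fintype α] [DecidableEq α]
    (G : Subgroup (Equiv.Perm α)) (hG : ¬ Group.IsSolvable G)
    (ψ : Equiv.Perm α ≃* Equiv.Perm (ZMod p)) :
    ¬ ∀ g ∈ G.map ψ.toMonoidHom, ∀ x, g x = (g 1 - g 0) * x + g 0 := by
  intro hall
  haveI := solvable_of_affine p _ hall
  apply hG
  exact Group.isSolvable_of_isSolvable_injective
    (f := (G.equivMapOfInjective ψ.toMonoidHom ψ.injective).toMonoidHom) (MulEquiv.injective _)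

theorem five_le {α : Type*} [Fintype α] [DecidableEq α] (hα : Fintype.card α = p)
    (G : Subgroup (Equiv.Perm α)) (ψ : Equiv.Perm α ≃* Equiv.Perm (ZMod p))
    (hna : ¬ ∀ g ∈ G.map ψ.toMonoidHom, ∀ x, g x = (g 1 - g 0) * x + g 0) : 5 ≤ p := by
  by_contra hlt
  have hp2 := (Fact.out : p.Prime).two_le
  have hp4 : p ≠ 4 := fun h => by
    have h1 := (Fact.out : p.Prime)
    rw [h] at h1
    exact absurd h1 (by decide)
  have h23 : p = 2 ∨ p = 3 := by omega
  apply hna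
  rcases h23 with rfl | rfl
  · intro g _; exact affine_two g
  · intro g _; exact affine_three g

theorem neumann3 {α : Type*} [Fintype α] [DecidableEq α] (hα : Fintype.card α = p)
    (G : Subgroup (Equiv.Perm α)) [MulAction.IsPretransitive G α] (hG : ¬ Group.IsSolvable G)
    (P : Sylow p G)
    (heven : Even (Nat.card (Subgroup.normalizer ((P : Subgroup G) : Set G)))) :
    MulAction.IsMultiplyPretransitive G α 3 := by
  have hpp : p.Prime := Fact.out
  obtain ⟨e0, -⟩ := exists_model p hα G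
  have hp5 : 5 ≤ p := five_le p hα G e0.symm.permCongrHom (not_affine p G hG _)
  obtain ⟨e, σ, hσG, ρ, hρG, he, heneg⟩ := setup p hα (by omega) G P heven
  obtain ⟨ψ, hψ⟩ : ∃ ψ : Equiv.Perm α ≃* Equiv.Perm (ZMod p),
      ∀ (g : Equiv.Perm α) (x : ZMod p), ψ g x = e.symm (g (e x)) :=
    ⟨e.symm.permCongrHom, fun g x => rfl⟩
  have h3 := three_trans p hp5 (G.map ψ.toMonoidHom) (ψ σ) ⟨σ, hσG, rfl⟩
    (fun x => by rw [hψ, ← he, Equiv.symm_apply_apply]) (ψ ρ) ⟨ρ, hρG, rfl⟩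
    (fun x => by rw [hψ, ← heneg, Equiv.symm_apply_apply]) (not_affine p G hG ψ)
  have h3' : ∀ x : Fin 3 ↪ α, ∃ g ∈ G, g (x 0) = e 0 ∧ g (x 1) = e 1 ∧ g (x 2) = e 2⁻¹ := by
    intro x
    have hinj := x.injective
    obtain ⟨g', ⟨g, hg, rfl⟩, h0, h1, h2⟩ := h3 (e.symm (x 0)) (e.symm (x 1)) (e.symm (x 2))
      (e.symm.injective.ne (hinj.ne (by decide))) (e.symm.injective.ne (hinj.ne (by decide)))
      (e.symm.injective.ne (hinj.ne (by decide)))
    refine ⟨g, hg, ?_, ?_, ?_⟩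
    · have h0' : ψ g (e.symm (x 0)) = 0 := h0
      rw [hψ, Equiv.apply_symm_apply] at h0'
      rw [← h0', Equiv.apply_symm_apply]
    · have h0' : ψ g (e.symm (x 1)) = 1 := h1
      rw [hψ, Equiv.apply_symm_apply] at h0'
      rw [← h0', Equiv.apply_symm_apply]
    · have h0' : ψ g (e.symm (x 2)) = 2⁻¹ := h2
      rw [hψ, Equiv.apply_symm_apply] at h0'
      rw [← h0', Equiv.apply_symm_apply]
  refine ⟨fun x y => ?_⟩
  obtain ⟨g1, hg1, a0, a1, a2⟩ := h3' x
  obtain ⟨g2, hg2, b0, b1, b2⟩ := h3' y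
  refine ⟨⟨g2⁻¹ * g1, G.mul_mem (G.inv_mem hg2) hg1⟩, ?_⟩
  ext i
  show (g2⁻¹ * g1) (x i) = y i
  fin_cases i
  · show (g2⁻¹ * g1) (x 0) = y 0
    rw [Equiv.Perm.mul_apply, a0, ← b0]; exact g2.symm_apply_apply _
  · show (g2⁻¹ * g1) (x 1) = y 1
    rw [Equiv.Perm.mul_apply, a1, ← b1]; exact g2.symm_apply_apply _
  · show (g2⁻¹ * g1) (x 2) = y 2
    rw [Equiv.Perm.mul_apply, a2, ← b2]; exact g2.symm_apply_apply _

theorem trans_pow (k : Equiv.Perm (ZMod p)) (b : ZMod p) (hk : ∀ x, k x = x + b) (n : ℕ)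
    (x : ZMod p) : (k ^ n) x = x + n * b := by
  induction n with
  | zero => simp
  | succ n ih => rw [pow_succ', Equiv.Perm.mul_apply, ih, hk]; push_cast; ring

theorem fix_of_affine (H : Subgroup (Equiv.Perm (ZMod p)))
    (haff : ∀ g ∈ H, ∀ x, g x = (g 1 - g 0) * x + g 0)
    (hp' : ∀ k ∈ H, k ^ p = 1 → k = 1) : ∃ c : ZMod p, ∀ k ∈ H, k c = c := by
  have htr : ∀ k ∈ H, ∀ b, (∀ x, k x = x + b) → k = 1 := by
    intro k hk b hb
    apply hp' k hk
    ext x
    rw [trans_pow p k b hb, CharP.cast_eq_zero, zero_mul, add_zero]; rfl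
  have hne : ∀ g : Equiv.Perm (ZMod p), g 1 - g 0 ≠ 0 := fun g =>
    sub_ne_zero.mpr (fun h1 => one_ne_zero (g.injective h1))
  have hcomm : ∀ k ∈ H, ∀ k' ∈ H, k * k' = k' * k := by
    intro k hk k' hk'
    have hu : (k * k')⁻¹ * (k' * k) = 1 := by
      apply htr _ (H.mul_mem (H.inv_mem (H.mul_mem hk hk')) (H.mul_mem hk' hk))
        (((k' 1 - k' 0) * k 0 + k' 0 - ((k 1 - k 0) * k' 0 + k 0)) /
          ((k 1 - k 0) * (k' 1 - k' 0)))
      intro x
      rw [Equiv.Perm.mul_apply, Equiv.Perm.inv_eq_iff_eq, Equiv.Perm.mul_apply,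
        Equiv.Perm.mul_apply]
      rw [haff k' hk' (k x), haff k hk x, haff k hk (k' _), haff k' hk' (x + _)]
      have h1 := hne k
      have h2 := hne k'
      field_simp
      ring
    calc k * k' = (k * k') * ((k * k')⁻¹ * (k' * k)) := by rw [hu, mul_one]
      _ = k' * k := by group
  by_cases hex : ∃ k0 ∈ H, k0 1 - k0 0 ≠ 1
  · obtain ⟨k0, hk0, ha⟩ := hex
    have h1a : (1 - (k0 1 - k0 0)) ≠ 0 := sub_ne_zero.mpr (Ne.symm ha)
    obtain ⟨c, hc⟩ : ∃ c : ZMod p, c = k0 0 / (1 - (k0 1 - k0 0)) := ⟨_, rfl⟩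
    have hc' : c * (1 - (k0 1 - k0 0)) = k0 0 := by rw [hc]; field_simp
    refine ⟨c, fun k hk => ?_⟩
    have hfix : ∀ x, k0 x = x → x = c := by
      intro x hx
      rw [haff k0 hk0 x] at hx
      have h3 : (x - c) * (1 - (k0 1 - k0 0)) = 0 := by linear_combination -hx - hc'
      exact sub_eq_zero.mp ((mul_eq_zero.mp h3).resolve_right h1a)
    have hc0 : k0 c = c := by
      rw [haff k0 hk0 c]
      linear_combination -hc'
    apply hfix
    rw [← Equiv.Perm.mul_apply, hcomm k0 hk0 k hk, Equiv.Perm.mul_apply, hc0]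
  · push Not at hex
    refine ⟨0, fun k hk => ?_⟩
    have h1 := htr k hk (k 0) (fun x => by rw [haff k hk x, hex k hk]; ring)
    rw [h1]; rfl

theorem design (hp2 : p ≠ 2) (G : Subgroup (Equiv.Perm (ZMod p)))
    (h2t : ∀ a b c d : ZMod p, a ≠ b → c ≠ d → ∃ g ∈ G, g a = c ∧ g b = d)
    (B : Finset (ZMod p)) (hsym : ∀ x ∈ B, -x ∈ B)
    (hblk : ∀ g ∈ G, ∀ i : ZMod p, ∃ j : ZMod p, ∀ x, x - i ∈ B ↔ g x - j ∈ B) :
    (∀ x, x ≠ 0 → x ∉ B) ∨ (∀ x, x ≠ 0 → x ∈ B) := by
  classical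
  have hpp : p.Prime := Fact.out
  have h2ne : (2 : ZMod p) ≠ 0 := by
    intro h
    have h1 : ((2 : ℕ) : ZMod p) = 0 := by exact_mod_cast h
    rw [ZMod.natCast_eq_zero_iff] at h1
    exact hp2 ((Nat.prime_dvd_prime_iff_eq hpp Nat.prime_two).mp h1)
  by_cases hB0 : ∀ x, x ∉ B
  · left; exact fun x _ => hB0 x
  by_cases hB1 : ∀ x, x ∈ B
  · right; exact fun x _ => hB1 x
  push Not at hB0 hB1
  obtain ⟨x0, hx0⟩ := hB0
  obtain ⟨x1, hx1⟩ := hB1
  have hsym' : ∀ x, -x ∈ B ↔ x ∈ B := fun x =>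
    ⟨fun h => by simpa using hsym _ h, hsym x⟩
  -- distinct translates
  have hdist : ∀ i i' : ZMod p, (∀ x, x - i ∈ B ↔ x - i' ∈ B) → i = i' := by
    intro i i' hii
    by_contra hne
    have hd : i - i' ≠ 0 := sub_ne_zero.mpr hne
    have hstep : ∀ x, x ∈ B → x + (i - i') ∈ B := by
      intro x hx
      have h1 := (hii (x + i)).mp (by simpa using hx)
      rw [show x + i - i' = x + (i - i') by ring] at h1
      exact h1
    have hsteps : ∀ (n : ℕ) x, x ∈ B → x + n * (i - i') ∈ B := by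
      intro n
      induction n with
      | zero => intro x hx; simpa using hx
      | succ n ih =>
        intro x hx
        have h1 := hstep _ (ih x hx)
        rw [show x + (n : ZMod p) * (i - i') + (i - i') = x + ((n + 1 : ℕ) : ZMod p) * (i - i') by
          push_cast; ring] at h1
        exact h1
    apply hx1
    have h1 := hsteps ((x1 - x0) / (i - i')).val x0 hx0
    rw [ZMod.natCast_zmod_val, div_mul_cancel₀ _ hd] at h1
    simpa using h1
  obtain ⟨N, hN⟩ : ∃ N : ZMod p → ZMod p → ℕ, ∀ u v,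
      N u v = (Finset.univ.filter (fun i => u - i ∈ B ∧ v - i ∈ B)).card := ⟨_, fun _ _ => rfl⟩
  have hNle : ∀ g ∈ G, ∀ u v, N u v ≤ N (g u) (g v) := by
    intro g hg u v
    choose π hπ using hblk g hg
    have hπinj : Function.Injective π := by
      intro i i' hii
      apply hdist
      intro x
      rw [hπ i x, hπ i' x, hii]
    rw [hN, hN]
    apply Finset.card_le_card_of_injOn π
    · intro i hi
      have hi' := (Finset.mem_filter.mp (Finset.mem_coe.mp hi)).2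
      exact Finset.mem_coe.mpr (Finset.mem_filter.mpr ⟨Finset.mem_univ _,
        (hπ i u).mp hi'.1, (hπ i v).mp hi'.2⟩)
    · exact hπinj.injOn
  have hNeq : ∀ g ∈ G, ∀ u v, N (g u) (g v) = N u v := by
    intro g hg u v
    apply le_antisymm _ (hNle g hg u v)
    have h1 := hNle g⁻¹ (G.inv_mem hg) (g u) (g v)
    rwa [show g⁻¹ (g u) = u from g.symm_apply_apply u,
      show g⁻¹ (g v) = v from g.symm_apply_apply v] at h1
  have hNd : ∀ d : ZMod p, d ≠ 0 → N 0 d = N 0 1 := by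
    intro d hd
    obtain ⟨g, hg, hg0, hg1⟩ := h2t 0 1 0 d zero_ne_one (Ne.symm hd)
    have h1 := hNeq g hg 0 1
    rwa [hg0, hg1] at h1
  -- parity
  have hpar : ∀ x : ZMod p, x ≠ 0 → ((N 0 (x + x) : ℕ) : ZMod 2) = if x ∈ B then 1 else 0 := by
    intro x hx
    rw [hN]
    obtain ⟨S, hS⟩ : ∃ S : Finset (ZMod p),
        S = Finset.univ.filter (fun i => 0 - i ∈ B ∧ x + x - i ∈ B) := ⟨_, rfl⟩
    rw [← hS]
    have hmemS : ∀ i, i ∈ S ↔ (i ∈ B ∧ x + x - i ∈ B) := by
      intro i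
      rw [hS, Finset.mem_filter, zero_sub, hsym']
      simp
    have hev : ((S.erase x).card : ZMod 2) = 0 := by
      have h1 : ∑ i ∈ S.erase x, (1 : ZMod 2) = 0 := by
        apply Finset.sum_involution (fun i _ => x + x - i)
        · intro i _; decide
        · intro i hi _ hfix
          have hi' := Finset.mem_erase.mp hi
          apply hi'.1
          have h3 : 2 * (i - x) = 0 := by linear_combination -hfix
          exact sub_eq_zero.mp ((mul_eq_zero.mp h3).resolve_left h2ne)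
        · intro i hi
          have hi' := Finset.mem_erase.mp hi
          have hi2 := (hmemS i).mp hi'.2
          rw [Finset.mem_erase, hmemS]
          refine ⟨fun h => hi'.1 (by linear_combination -h), hi2.2, ?_⟩
          rw [show x + x - (x + x - i) = i by ring]
          exact hi2.1
        · intro i _; ring
      rw [Finset.sum_const, nsmul_eq_mul, mul_one] at h1
      exact h1
    have hxS : x ∈ S ↔ x ∈ B := by
      rw [hmemS, show x + x - x = x by ring, and_self]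
    by_cases hxB : x ∈ B
    · rw [if_pos hxB]
      have h1 := Finset.card_erase_of_mem (hxS.mpr hxB)
      have h2 : S.card = (S.erase x).card + 1 := by
        have := Finset.card_pos.mpr ⟨x, hxS.mpr hxB⟩
        omega
      rw [h2]; push_cast; rw [hev]; ring
    · rw [if_neg hxB, ← Finset.erase_eq_of_notMem (fun h => hxB (hxS.mp h))]
      exact hev
  have hpar' : ∀ x : ZMod p, x ≠ 0 → ((N 0 1 : ℕ) : ZMod 2) = if x ∈ B then 1 else 0 := by
    intro x hx
    rw [← hpar x hx, hNd (x + x) (by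
      intro h
      have h3 : 2 * x = 0 := by linear_combination h
      exact hx ((mul_eq_zero.mp h3).resolve_left h2ne))]
  by_cases hlam : ((N 0 1 : ℕ) : ZMod 2) = 0
  · left
    intro x hx hxB
    have h1 := hpar' x hx
    rw [if_pos hxB, hlam] at h1
    exact absurd h1 (by decide)
  · right
    intro x hx
    by_contra hxB
    have h1 := hpar' x hx
    rw [if_neg hxB] at h1
    exact hlam h1

theorem fix_of_design (hp5 : 5 ≤ p) (G : Subgroup (Equiv.Perm (ZMod p)))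
    (σ : Equiv.Perm (ZMod p)) (hσ : σ ∈ G) (hσx : ∀ x, σ x = x + 1)
    (ρ : Equiv.Perm (ZMod p)) (hρ : ρ ∈ G) (hρx : ∀ x, ρ x = -x)
    (hna : ¬ ∀ g ∈ G, ∀ x, g x = (g 1 - g 0) * x + g 0)
    (H : Subgroup (Equiv.Perm (ZMod p)))
    (hfac : ∀ g ∈ G, ∃ i : ℕ, ∃ k ∈ H, g = σ ^ i * k)
    (hp' : ∀ k ∈ H, k ^ p = 1 → k = 1) : ∃ c : ZMod p, ∀ k ∈ H, k c = c := by
  classical
  have hpp : p.Prime := Fact.out
  have h2ne : (2 : ZMod p) ≠ 0 := by
    intro h
    have h1 : ((2 : ℕ) : ZMod p) = 0 := by exact_mod_cast h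
    rw [ZMod.natCast_eq_zero_iff] at h1
    have := Nat.le_of_dvd (by norm_num) h1
    omega
  have h2t : ∀ a b c d : ZMod p, a ≠ b → c ≠ d → ∃ g ∈ G, g a = c ∧ g b = d := by
    intro a b c d hab hcd
    by_contra hcon
    push Not at hcon
    exact hna (burnside_zmod p hp5 G σ hσ hσx a b c d hab hcd
      (fun g hg h12 => hcon g hg h12.1 h12.2))
  obtain ⟨B0, hB0⟩ : ∃ B0 : Finset (ZMod p), ∀ x, x ∈ B0 ↔ ∃ k ∈ H, k 0 = x :=
    ⟨Finset.univ.filter (fun x => ∃ k ∈ H, k 0 = x), fun x => by simp⟩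
  have h0B : (0 : ZMod p) ∈ B0 := (hB0 0).mpr ⟨1, H.one_mem, rfl⟩
  have hBH : ∀ k ∈ H, ∀ x, x ∈ B0 ↔ k x ∈ B0 := by
    intro k hk x
    rw [hB0, hB0]
    constructor
    · rintro ⟨k1, hk1, rfl⟩
      exact ⟨k * k1, H.mul_mem hk hk1, rfl⟩
    · rintro ⟨k1, hk1, h1⟩
      refine ⟨k⁻¹ * k1, H.mul_mem (H.inv_mem hk) hk1, ?_⟩
      rw [Equiv.Perm.mul_apply, h1]; exact k.symm_apply_apply x
  -- H is not transitive
  have hintr : ¬ ∀ x, x ∈ B0 := by
    intro hall
    haveI : MulAction.IsPretransitive H (ZMod p) := by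
      refine ⟨fun x y => ?_⟩
      obtain ⟨kx, hkx, hx⟩ := (hB0 x).mp (hall x)
      obtain ⟨ky, hky, hy⟩ := (hB0 y).mp (hall y)
      refine ⟨⟨ky * kx⁻¹, H.mul_mem hky (H.inv_mem hkx)⟩, ?_⟩
      show (ky * kx⁻¹) x = y
      rw [Equiv.Perm.mul_apply, ← hx, show kx⁻¹ (kx 0) = 0 from kx.symm_apply_apply 0, hy]
    have h1 := MulAction.index_stabilizer_of_transitive H (0 : ZMod p)
    rw [Nat.card_eq_fintype_card, ZMod.card] at h1
    have h2 : p ∣ Nat.card H := by
      have h0 := Subgroup.index_dvd_card (MulAction.stabilizer H (0 : ZMod p))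
      rwa [h1] at h0
    obtain ⟨k, hk⟩ := exists_prime_orderOf_dvd_card' p h2
    have h3 : (k : Equiv.Perm (ZMod p)) = 1 := by
      apply hp' _ k.2
      have h4 : k ^ p = 1 := by
        have h0 := pow_orderOf_eq_one k
        rwa [hk] at h0
      exact_mod_cast congrArg Subtype.val h4
    have h5 : k = 1 := Subtype.ext h3
    rw [h5, orderOf_one] at hk
    have := hpp.two_le
    omega
  have hblk0 : ∀ g ∈ G, ∀ i : ZMod p, ∃ j : ZMod p, ∀ x, x - i ∈ B0 ↔ g x - j ∈ B0 := by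
    intro g hg i
    obtain ⟨n, k, hk, hgk⟩ := hfac (g * σ ^ i.val) (G.mul_mem hg (G.pow_mem hσ _))
    refine ⟨(n : ZMod p), fun x => ?_⟩
    have h1 := congrArg (fun f : Equiv.Perm (ZMod p) => f (x - i)) hgk
    simp only [Equiv.Perm.mul_apply, tpow_apply p σ hσx, ZMod.natCast_zmod_val, sub_add_cancel]
      at h1
    rw [h1, add_sub_cancel_right]
    exact hBH k hk _
  obtain ⟨c, hc⟩ := hblk0 ρ hρ 0
  obtain ⟨s, hs⟩ : ∃ s : ZMod p, s = c * 2⁻¹ := ⟨_, rfl⟩
  have h2s : 2 * s = c := by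
    rw [hs]
    have h2 : (2 : ZMod p) * 2⁻¹ = 1 := mul_inv_cancel₀ h2ne
    linear_combination c * h2
  obtain ⟨B, hB⟩ : ∃ B : Finset (ZMod p), ∀ x, x ∈ B ↔ x - s ∈ B0 :=
    ⟨Finset.univ.filter (fun x => x - s ∈ B0), fun x => by simp⟩
  have hsym : ∀ x ∈ B, -x ∈ B := by
    intro x hx
    rw [hB] at hx ⊢
    have h1 := (hc (x - s)).mp (by simpa using hx)
    rw [hρx] at h1
    rw [show -x - s = -(x - s) - c by rw [← h2s]; ring]
    exact h1
  have hblk : ∀ g ∈ G, ∀ i : ZMod p, ∃ j : ZMod p, ∀ x, x - i ∈ B ↔ g x - j ∈ B := by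
    intro g hg i
    obtain ⟨j0, hj0⟩ := hblk0 g hg (i + s)
    refine ⟨j0 - s, fun x => ?_⟩
    rw [hB, hB, show x - i - s = x - (i + s) by ring, hj0 x,
      show g x - (j0 - s) - s = g x - j0 by ring]
  rcases design p (by omega) G h2t B hsym hblk with hcase | hcase
  · -- B0 ⊆ {-s}
    have h1 : ∀ y, y ∈ B0 → y = -s := by
      intro y hy
      by_contra hne
      have h2 : y + s ≠ 0 := fun h => hne (by linear_combination h)
      exact hcase (y + s) h2 ((hB _).mpr (by simpa using hy))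
    refine ⟨0, fun k hk => ?_⟩
    have h3 := h1 (k 0) ((hBH k hk 0).mp h0B)
    rw [h3, ← h1 0 h0B]
  · -- B0 ⊇ univ \ {-s}
    have h1 : ∀ y, y ≠ -s → y ∈ B0 := by
      intro y hy
      have h2 : y + s ≠ 0 := fun h => hy (by linear_combination h)
      have h3 := (hB _).mp (hcase (y + s) h2)
      simpa using h3
    have hsB : -s ∉ B0 := by
      intro hsB
      apply hintr
      intro x
      by_cases hx : x = -s
      · rw [hx]; exact hsB
      · exact h1 x hx
    refine ⟨-s, fun k hk => ?_⟩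
    by_contra hne
    exact hsB ((hBH k hk (-s)).mpr (h1 _ hne))

theorem fac_of_index {G : Type*} [Group G] [Finite G] (H : Subgroup G) (hH : H.index = p)
    (c : G) (hc : c ^ p = 1) (hc1 : c ≠ 1) (hp' : ∀ h ∈ H, h ^ p = 1 → h = 1) :
    ∀ g : G, ∃ i : ℕ, ∃ k ∈ H, g = c ^ i * k := by
  have hpp : p.Prime := Fact.out
  have hco : orderOf c = p := orderOf_eq_prime hc hc1
  have hinj : Function.Injective (fun i : ZMod p => (QuotientGroup.mk (c ^ i.val) : G ⧸ H)) := by
    intro i j hij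
    have h1 : (c ^ i.val)⁻¹ * c ^ j.val ∈ H := QuotientGroup.eq.mp hij
    have h2 : ((c ^ i.val)⁻¹ * c ^ j.val) ^ p = 1 := by
      have hcomm : Commute ((c ^ i.val)⁻¹) (c ^ j.val) :=
        ((Commute.refl c).pow_pow i.val j.val).inv_left
      rw [hcomm.mul_pow, inv_pow, ← pow_mul, ← pow_mul, mul_comm i.val, mul_comm j.val,
        pow_mul, pow_mul, hc, one_pow, one_pow, inv_one, one_mul]
    have h3 := hp' _ h1 h2
    have h4 : c ^ i.val = c ^ j.val := by
      rw [inv_mul_eq_one] at h3; exact h3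
    rw [pow_eq_pow_iff_modEq, hco] at h4
    have h5 := (ZMod.natCast_eq_natCast_iff _ _ _).mpr h4
    rwa [ZMod.natCast_zmod_val, ZMod.natCast_zmod_val] at h5
  have hbij := hinj.bijective_of_nat_card_le (by
    rw [Nat.card_eq_fintype_card (α := ZMod p), ZMod.card]
    have h1 : Nat.card (G ⧸ H) = p := hH
    rw [h1])
  intro g
  obtain ⟨i, hi⟩ := hbij.2 (QuotientGroup.mk g)
  have h1 : (c ^ i.val)⁻¹ * g ∈ H := QuotientGroup.eq.mp hi
  exact ⟨i.val, _, h1, by group⟩

theorem neumann_index {α : Type*} [Fintype α] [DecidableEq α] (hα : Fintype.card α = p)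
    (G : Subgroup (Equiv.Perm α)) [MulAction.IsPretransitive G α] (P : Sylow p G)
    (heven : Even (Nat.card (Subgroup.normalizer ((P : Subgroup G) : Set G))))
    (H : Subgroup G) (hH : H.index = p) : ∃ a : α, H = MulAction.stabilizer G a := by
  have hpp : p.Prime := Fact.out
  have hHcard : Nat.card H * p = Nat.card G := by rw [← hH]; exact Subgroup.card_mul_index H
  have hsq := sq_not_dvd p hα G
  have hpH : ¬ p ∣ Nat.card H := by
    intro h
    apply hsq
    rw [← hHcard, pow_two]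
    exact Nat.mul_dvd_mul_right h p
  have hp'H : ∀ h : G, h ∈ H → h ^ p = 1 → h = 1 := by
    intro h hh hhp
    have h1 : orderOf h ∣ p := orderOf_dvd_of_pow_eq_one hhp
    rcases (Nat.dvd_prime hpp).mp h1 with h2 | h2
    · exact orderOf_eq_one_iff.mp h2
    · exfalso
      apply hpH
      have h0 := orderOf_dvd_natCard (⟨h, hh⟩ : H)
      rw [Subgroup.orderOf_mk, h2] at h0
      exact h0
  suffices hfix : ∃ a : α, ∀ h ∈ H, (h : Equiv.Perm α) a = a by
    obtain ⟨a, ha⟩ := hfix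
    refine ⟨a, ?_⟩
    have hle : H ≤ MulAction.stabilizer G a := fun h hh =>
      MulAction.mem_stabilizer_iff.mpr (ha h hh)
    have hidx := MulAction.index_stabilizer_of_transitive G a
    rw [Nat.card_eq_fintype_card, hα] at hidx
    have hcard2 : Nat.card (MulAction.stabilizer G a) * p = Nat.card G := by
      rw [← hidx]; exact Subgroup.card_mul_index _
    apply Subgroup.eq_of_le_of_card_ge hle
    have := hpp.pos
    have h3 : Nat.card (MulAction.stabilizer G a) * p = Nat.card H * p := by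
      rw [hcard2, hHcard]
    exact (Nat.eq_of_mul_eq_mul_right this h3).le
  -- the model
  have key : ∀ (e : ZMod p ≃ α) (ψ : Equiv.Perm α ≃* Equiv.Perm (ZMod p)),
      (∀ (g : Equiv.Perm α) (x : ZMod p), ψ g x = e.symm (g (e x))) →
      (∃ c : ZMod p, ∀ k ∈ (H.map G.subtype).map ψ.toMonoidHom, k c = c) →
      ∃ a : α, ∀ h ∈ H, (h : Equiv.Perm α) a = a := by
    intro e ψ hψ hc
    obtain ⟨c, hc⟩ := hc
    refine ⟨e c, fun h hh => ?_⟩
    have h1 := hc (ψ (h : Equiv.Perm α)) ⟨(h : Equiv.Perm α), ⟨h, hh, rfl⟩, rfl⟩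
    rw [hψ] at h1
    have h2 := congrArg e h1
    rwa [Equiv.apply_symm_apply] at h2
  have hp'' : ∀ (ψ : Equiv.Perm α ≃* Equiv.Perm (ZMod p)),
      ∀ k ∈ (H.map G.subtype).map ψ.toMonoidHom, k ^ p = 1 → k = 1 := by
    rintro ψ _ ⟨_, ⟨h, hh, rfl⟩, rfl⟩ hk
    have h1 : ψ ((h : Equiv.Perm α) ^ p) = 1 := by rw [map_pow]; exact hk
    have h2 : (h : Equiv.Perm α) ^ p = 1 := by
      apply ψ.injective; rw [h1, map_one]
    have h3 : h ^ p = 1 := Subtype.ext (by rw [Subgroup.coe_pow]; exact h2)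
    rw [hp'H h hh h3]
    show ψ 1 = 1
    exact map_one ψ
  by_cases hp2 : p = 2
  · obtain ⟨e, σ, hσG, he⟩ := exists_model p hα G
    apply key e e.symm.permCongrHom (fun g x => rfl)
    apply fix_of_affine p _ _ (hp'' _)
    subst hp2
    intro g _
    exact affine_two g
  obtain ⟨e, σ, hσG, ρ, hρG, he, heneg⟩ := setup p hα hp2 G P heven
  obtain ⟨ψ, hψ⟩ : ∃ ψ : Equiv.Perm α ≃* Equiv.Perm (ZMod p),
      ∀ (g : Equiv.Perm α) (x : ZMod p), ψ g x = e.symm (g (e x)) :=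
    ⟨e.symm.permCongrHom, fun g x => rfl⟩
  apply key e ψ hψ
  have hσx : ∀ x, ψ σ x = x + 1 := fun x => by rw [hψ, ← he, Equiv.symm_apply_apply]
  have hρx : ∀ x, ψ ρ x = -x := fun x => by rw [hψ, ← heneg, Equiv.symm_apply_apply]
  by_cases haff : ∀ g ∈ G.map ψ.toMonoidHom, ∀ x, g x = (g 1 - g 0) * x + g 0
  · apply fix_of_affine p _ _ (hp'' ψ)
    rintro _ ⟨_, ⟨h, hh, rfl⟩, rfl⟩
    exact haff _ ⟨(h : Equiv.Perm α), h.2, rfl⟩
  · have hp5 := five_le p hα G ψ haff
    apply fix_of_design p hp5 (G.map ψ.toMonoidHom) (ψ σ) ⟨σ, hσG, rfl⟩ hσx (ψ ρ) ⟨ρ, hρG, rfl⟩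
      hρx haff _ _ (hp'' ψ)
    rintro _ ⟨g, hg, rfl⟩
    have hσp : (⟨σ, hσG⟩ : G) ^ p = 1 := by
      apply Subtype.ext
      rw [Subgroup.coe_pow]
      show σ ^ p = 1
      apply ψ.injective
      rw [map_pow, map_one]
      ext x
      rw [tpow_apply p (ψ σ) hσx, CharP.cast_eq_zero, add_zero]; rfl
    have hσ1 : (⟨σ, hσG⟩ : G) ≠ 1 := by
      intro h1
      have h2 : σ = 1 := congrArg Subtype.val h1
      have h3 := hσx 0
      rw [h2, map_one] at h3
      simp at h3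
    obtain ⟨i, k, hk, hgk⟩ := fac_of_index p H hH (⟨σ, hσG⟩ : G) hσp hσ1 hp'H ⟨g, hg⟩
    refine ⟨i, ψ (k : Equiv.Perm α), ⟨(k : Equiv.Perm α), ⟨k, hk, rfl⟩, rfl⟩, ?_⟩
    have h1 : g = σ ^ i * (k : Equiv.Perm α) := by
      have := congrArg Subtype.val hgk
      simpa using this
    show ψ g = ψ σ ^ i * ψ (k : Equiv.Perm α)
    rw [h1, map_mul, map_pow]

end

end Cfsg.Agent.Lib.Helper6.Neu
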