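import Mathlib
import Cfsg.Agent.Lib.Helper6.Neu

set_option autoImplicit false

namespace Cfsg.Agent.Lib.Helper6.Deg7

open Cfsg.Agent.Lib.Helper6.Burn Cfsg.Agent.Lib.Helper6.Neu

/-- normal nontrivial subgroup of a 2-transitive group is transitive -/
theorem normal_trans {α : Type*} [Fintype α] [DecidableEq α] (G K : Subgroup (Equiv.Perm α))
    (h2t : ∀ a b c d : α, a ≠ b → c ≠ d → ∃ g ∈ G, g a = c ∧ g b = d)
    (hKn : ∀ g ∈ G, ∀ x ∈ K, g * x * g⁻¹ ∈ K) (hK : K ≠ ⊥) :
    ∀ a b : α, ∃ x ∈ K, x a = b := by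
  obtain ⟨x, hxK, hx1⟩ : ∃ x ∈ K, x ≠ 1 := by
    by_contra hcon
    push Not at hcon
    exact hK ((Subgroup.eq_bot_iff_forall K).mpr hcon)
  obtain ⟨a0, ha0⟩ : ∃ a0, x a0 ≠ a0 := by
    by_contra hcon
    push Not at hcon
    exact hx1 (Equiv.ext hcon)
  intro a b
  by_cases hab : a = b
  · exact ⟨1, K.one_mem, by rw [hab]; rfl⟩
  · obtain ⟨g, hg, hga, hgb⟩ := h2t a0 (x a0) a b (Ne.symm ha0) hab
    refine ⟨g * x * g⁻¹, hKn g hg x hxK, ?_⟩
    rw [Equiv.Perm.mul_apply, Equiv.Perm.mul_apply, ← hga,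
      show g⁻¹ (g a0) = a0 from g.symm_apply_apply a0, hgb]

theorem two_trans_iff {α : Type*} [Fintype α] [DecidableEq α] (G : Subgroup (Equiv.Perm α)) :
    MulAction.IsMultiplyPretransitive G α 2 ↔
      ∀ a b c d : α, a ≠ b → c ≠ d → ∃ g ∈ G, g a = c ∧ g b = d := by
  rw [MulAction.is_two_pretransitive_iff]
  constructor
  · intro h a b c d hab hcd
    obtain ⟨g, h1, h2⟩ := h hab hcd
    exact ⟨g, g.2, h1, h2⟩
  · intro h a b c d hab hcd
    obtain ⟨g, hg, h1, h2⟩ := h a b c d hab hcd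
    exact ⟨⟨g, hg⟩, h1, h2⟩

theorem dvd_of_multi {α : Type*} [Fintype α] [DecidableEq α] (G : Subgroup (Equiv.Perm α))
    (n : ℕ) (hn : n ≤ Fintype.card α) (h : MulAction.IsMultiplyPretransitive G α n) :
    (Fintype.card α).descFactorial n ∣ Nat.card G := by
  obtain ⟨x⟩ : Nonempty (Fin n ↪ α) :=
    Function.Embedding.nonempty_of_card_le (by simpa using hn)
  have h1 := @MulAction.index_stabilizer_of_transitive G (Fin n ↪ α) _ _ x h
  rw [Nat.card_eq_fintype_card, Fintype.card_embedding_eq, Fintype.card_fin] at h1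
  rw [← h1]; exact Subgroup.index_dvd_card _

section
variable (p : ℕ) [Fact p.Prime]

theorem sylow_model {α : Type*} [Fintype α] [DecidableEq α] (hα : Fintype.card α = p)
    (G : Subgroup (Equiv.Perm α)) [MulAction.IsPretransitive G α] (P : Sylow p G) :
    Nat.card (P : Subgroup G) = p ∧ ∃ (c : G) (e : ZMod p ≃ α), c ∈ (P : Subgroup G) ∧
      (∀ x ∈ (P : Subgroup G), ∃ n : ℕ, c ^ n = x) ∧
      (∀ i : ZMod p, e (i + 1) = (c : Equiv.Perm α) (e i)) ∧
      ∀ t : G, t ∈ Subgroup.normalizer ((P : Subgroup G) : Set G) →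
        ∀ i : ZMod p, (t : Equiv.Perm α) (e i) =
          e ((e.symm ((t : Equiv.Perm α) (e 1)) - e.symm ((t : Equiv.Perm α) (e 0))) * i +
            e.symm ((t : Equiv.Perm α) (e 0))) := by
  have hpp : p.Prime := Fact.out
  have hdvd : p ∣ Nat.card G := p_dvd_card p hα G
  have hsq := sq_not_dvd p hα G
  have hPcard : Nat.card (P : Subgroup G) = p := by
    obtain ⟨n, hn⟩ := IsPGroup.iff_card.mp P.isPGroup'
    have h1 : p ∣ Nat.card (P : Subgroup G) := P.dvd_card_of_dvd_card hdvd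
    have h2 : Nat.card (P : Subgroup G) ∣ Nat.card G := Subgroup.card_subgroup_dvd_card _
    rw [hn] at h1 h2 ⊢
    rcases n with _ | _ | n
    · rw [pow_zero] at h1
      exact absurd (Nat.le_of_dvd one_pos h1) (by have := hpp.two_le; omega)
    · rw [zero_add, pow_one]
    · exact absurd ((pow_dvd_pow p (by omega : 2 ≤ n + 1 + 1)).trans h2) hsq
  refine ⟨hPcard, ?_⟩
  obtain ⟨c, hcP, hc1⟩ : ∃ c : G, c ∈ (P : Subgroup G) ∧ c ≠ 1 := by
    by_contra hcon
    push Not at hcon
    have h1 : (P : Subgroup G) = ⊥ := (Subgroup.eq_bot_iff_forall _).mpr hcon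
    rw [h1, Subgroup.card_bot] at hPcard
    have := hpp.two_le
    omega
  have hco : orderOf c = p := by
    have h1 : orderOf c ∣ p := by
      have h0 := orderOf_dvd_natCard (⟨c, hcP⟩ : (P : Subgroup G))
      rw [hPcard, Subgroup.orderOf_mk] at h0
      exact h0
    rcases (Nat.dvd_prime hpp).mp h1 with h | h
    · exact absurd (orderOf_eq_one_iff.mp h) hc1
    · exact h
  have hzp : ∀ x ∈ (P : Subgroup G), ∃ n : ℕ, c ^ n = x := by
    have hle : Subgroup.zpowers c ≤ (P : Subgroup G) := (Subgroup.zpowers_le).mpr hcP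
    have heq : Subgroup.zpowers c = (P : Subgroup G) :=
      Subgroup.eq_of_le_of_card_ge hle (by rw [Nat.card_zpowers, hco, hPcard])
    intro x hx
    rw [← heq] at hx
    exact (Submonoid.mem_powers_iff x c).mp
      ((isOfFinOrder_of_finite c).mem_powers_iff_mem_zpowers.mpr hx)
  have hso : orderOf (c : Equiv.Perm α) = p := by rw [Subgroup.orderOf_coe]; exact hco
  obtain ⟨e, he⟩ := model_of_order p hα (c : Equiv.Perm α) hso
  refine ⟨c, e, hcP, hzp, he, ?_⟩
  intro τ hτn i
  have hconj : τ * c * τ⁻¹ ∈ (P : Subgroup G) :=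
    (Subgroup.mem_normalizer_iff.mp hτn c).mp hcP
  obtain ⟨n, hn⟩ := hzp _ hconj
  obtain ⟨s, hs⟩ : ∃ s : Equiv.Perm α, s = (c : Equiv.Perm α) := ⟨_, rfl⟩
  obtain ⟨t, ht⟩ : ∃ t : Equiv.Perm α, t = (τ : Equiv.Perm α) := ⟨_, rfl⟩
  rw [← hs] at he
  rw [← ht]
  have hrel : s ^ n = t * s * t⁻¹ := by
    rw [hs, ht]
    exact_mod_cast congrArg Subtype.val hn
  have hsn : ∀ (m : ℕ) (i : ZMod p), (s ^ m) (e i) = e (i + m) := by
    intro m
    induction m with
    | zero => intro i; simp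
    | succ m ih =>
      intro i
      rw [pow_succ', Equiv.Perm.mul_apply, ih, ← he]
      congr 1
      push_cast; ring
  obtain ⟨f, hf⟩ : ∃ f : ZMod p → ZMod p, ∀ i, f i = e.symm (t (e i)) := ⟨_, fun _ => rfl⟩
  have hfe : ∀ i, t (e i) = e (f i) := fun i => by rw [hf, Equiv.apply_symm_apply]
  have hf1 : ∀ i, f (i + 1) = f i + n := by
    intro i
    apply e.injective
    rw [← hfe, he, ← hsn, ← hfe]
    have h1 : t * s = s ^ n * t := by rw [hrel]; group
    have h2 := congrArg (fun g : Equiv.Perm α => g (e i)) h1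
    simpa only [Equiv.Perm.mul_apply] using h2
  have hflin : ∀ m : ℕ, f (m : ZMod p) = n * m + f 0 := by
    intro m
    induction m with
    | zero => simp
    | succ m ih => push_cast; rw [hf1, ih]; ring
  have hflin' : ∀ i : ZMod p, f i = n * i + f 0 := by
    intro i
    have h1 := hflin i.val
    rwa [ZMod.natCast_zmod_val] at h1
  rw [hfe, ← hf, ← hf, hflin' 1, hflin' i]
  congr 1
  ring

theorem card_normalizer {α : Type*} [Fintype α] [DecidableEq α] (hα : Fintype.card α = p)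
    (G : Subgroup (Equiv.Perm α)) [MulAction.IsPretransitive G α] (P : Sylow p G) :
    ∃ d, d ∣ p - 1 ∧ Nat.card (Subgroup.normalizer ((P : Subgroup G) : Set G)) = p * d := by
  classical
  have hpp : p.Prime := Fact.out
  obtain ⟨hPc, c, e, hcP, hzp, he, haff⟩ := sylow_model p hα G P
  obtain ⟨N, hN⟩ : ∃ N : Subgroup G, N = Subgroup.normalizer ((P : Subgroup G) : Set G) :=
    ⟨_, rfl⟩
  rw [← hN] at haff ⊢
  have hcN : c ∈ N := by rw [hN]; exact Subgroup.le_normalizer hcP
  have hsn : ∀ (m : ℕ) (i : ZMod p), ((c : Equiv.Perm α) ^ m) (e i) = e (i + m) := by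
    intro m
    induction m with
    | zero => intro i; simp
    | succ m ih =>
      intro i
      rw [pow_succ', Equiv.Perm.mul_apply, ih, ← he]
      congr 1
      push_cast; ring
  haveI : MulAction.IsPretransitive N α := by
    refine ⟨fun x y => ?_⟩
    obtain ⟨i, rfl⟩ := e.surjective x
    obtain ⟨j, rfl⟩ := e.surjective y
    refine ⟨⟨c ^ (j - i).val, N.pow_mem hcN _⟩, ?_⟩
    show ((c ^ (j - i).val : G) : Equiv.Perm α) (e i) = e j
    rw [Subgroup.coe_pow, hsn, ZMod.natCast_zmod_val]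
    congr 1; ring
  obtain ⟨a0, ha0⟩ : ∃ a0 : α, a0 = e 0 := ⟨_, rfl⟩
  have h1 := MulAction.index_stabilizer_of_transitive N a0
  rw [Nat.card_eq_fintype_card, hα] at h1
  refine ⟨Nat.card (MulAction.stabilizer N a0), ?_, ?_⟩
  · have hst : ∀ t : MulAction.stabilizer N a0,
        (((t : N) : G) : Equiv.Perm α) (e 0) = e 0 := fun t => by
      rw [← ha0]; exact MulAction.mem_stabilizer_iff.mp t.2
    have hkey : ∀ (t : MulAction.stabilizer N a0) (i : ZMod p),
        (((t : N) : G) : Equiv.Perm α) (e i) =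
          e (e.symm ((((t : N) : G) : Equiv.Perm α) (e 1)) * i) := by
      intro t i
      have h2 := haff ((t : N) : G) (t : N).2 i
      rw [hst t, Equiv.symm_apply_apply, sub_zero, add_zero] at h2
      exact h2
    have hne : ∀ t : MulAction.stabilizer N a0,
        e.symm ((((t : N) : G) : Equiv.Perm α) (e 1)) ≠ 0 := by
      intro t h0
      have h2 : (((t : N) : G) : Equiv.Perm α) (e 1) = e 0 := by
        have h4 := congrArg e h0
        rwa [Equiv.apply_symm_apply] at h4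
      have h3 : (((t : N) : G) : Equiv.Perm α) (e 1) = (((t : N) : G) : Equiv.Perm α) (e 0) := by
        rw [h2, hst t]
      have h5 := e.injective ((((t : N) : G) : Equiv.Perm α).injective h3)
      exact one_ne_zero h5
    obtain ⟨φ, hφ⟩ : ∃ φ : MulAction.stabilizer N a0 →* (ZMod p)ˣ, ∀ t,
        ((φ t : (ZMod p)ˣ) : ZMod p) = e.symm ((((t : N) : G) : Equiv.Perm α) (e 1)) :=
      ⟨MonoidHom.mk' (fun t => Units.mk0 _ (hne t)) (by
        intro t t'
        apply Units.ext
        show e.symm (((((t * t' : MulAction.stabilizer N a0) : N) : G) : Equiv.Perm α) (e 1)) =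
          e.symm ((((t : N) : G) : Equiv.Perm α) (e 1)) *
            e.symm ((((t' : N) : G) : Equiv.Perm α) (e 1))
        have h2 : ((((t * t' : MulAction.stabilizer N a0) : N) : G) : Equiv.Perm α) =
            (((t : N) : G) : Equiv.Perm α) * (((t' : N) : G) : Equiv.Perm α) := rfl
        have h4 : (((t' : N) : G) : Equiv.Perm α) (e 1) =
            e (e.symm ((((t' : N) : G) : Equiv.Perm α) (e 1))) :=
          (Equiv.apply_symm_apply e _).symm
        rw [h2, Equiv.Perm.mul_apply]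
        conv_lhs => rw [h4, hkey t, Equiv.symm_apply_apply]),
        fun t => rfl⟩
    have hinj : Function.Injective φ := by
      intro t t' htt
      have h2 : e.symm ((((t : N) : G) : Equiv.Perm α) (e 1)) =
          e.symm ((((t' : N) : G) : Equiv.Perm α) (e 1)) := by
        rw [← hφ, ← hφ, htt]
      apply Subtype.ext; apply Subtype.ext; apply Subtype.ext
      ext x
      obtain ⟨i, rfl⟩ := e.surjective x
      rw [hkey t i, hkey t' i, h2]
    have h3 := Subgroup.card_dvd_of_injective φ hinj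
    rwa [Nat.card_eq_fintype_card (α := (ZMod p)ˣ), ZMod.card_units] at h3
  · rw [← h1]; exact (Subgroup.index_mul_card _).symm

end

theorem sign_neg7 : Equiv.Perm.sign (Equiv.neg (ZMod 7)) = -1 := by decide

theorem odd_normalizer {α : Type*} [Fintype α] [DecidableEq α] (hα : Fintype.card α = 7)
    (G : Subgroup (Equiv.Perm α)) [MulAction.IsPretransitive G α]
    (hGA : G ≤ alternatingGroup α) (P : Sylow 7 G) :
    ¬ Even (Nat.card (Subgroup.normalizer ((P : Subgroup G) : Set G))) := by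
  haveI : Fact (Nat.Prime 7) := ⟨by norm_num⟩
  intro heven
  obtain ⟨e, σ, hσG, ρ, hρG, he, heneg⟩ := setup 7 hα (by norm_num) G P heven
  have h1 : Equiv.Perm.sign ρ = 1 := Equiv.Perm.mem_alternatingGroup.mp (hGA hρG)
  have h2 : e.symm.permCongr ρ = Equiv.neg (ZMod 7) := by
    ext x
    show e.symm (ρ (e x)) = -x
    rw [← heneg, Equiv.symm_apply_apply]
  have h3 := Equiv.Perm.sign_permCongr e.symm ρ
  rw [h2, sign_neg7, h1] at h3
  exact absurd h3 (by decide)

theorem arith7 (k n d : ℕ) (h1 : 6 * k = n * d) (hn : n % 7 = 1) (hk : k ∣ 60) (hk60 : k ≠ 60)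
    (hd : d = 1 ∨ d = 3) : (k = 4 ∧ d = 3) ∨ (d = 1 ∧ (k = 6 ∨ k = 20)) := by
  have hk' : k ≤ 60 := Nat.le_of_dvd (by norm_num) hk
  rcases hd with rfl | rfl <;> interval_cases k <;> omega

theorem card_alt7 {α : Type*} [Fintype α] [DecidableEq α] (hα : Fintype.card α = 7) :
    Nat.card (alternatingGroup α) = 2520 := by
  haveI : Nontrivial α := Fintype.one_lt_card_iff_nontrivial.mp (by rw [hα]; norm_num)
  have h1 := two_mul_nat_card_alternatingGroup (α := α)
  rw [Nat.card_perm, Nat.card_eq_fintype_card (α := α), hα] at h1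
  have h2 : Nat.factorial 7 = 5040 := by decide
  omega

theorem trans_of_two {α : Type*} [Fintype α] [DecidableEq α] (hα : 2 ≤ Fintype.card α)
    (G : Subgroup (Equiv.Perm α))
    (h2t : ∀ a b c d : α, a ≠ b → c ≠ d → ∃ g ∈ G, g a = c ∧ g b = d) :
    MulAction.IsPretransitive G α := by
  refine ⟨fun x y => ?_⟩
  obtain ⟨x', hx'⟩ := Fintype.exists_ne_of_one_lt_card (by omega) x
  obtain ⟨y', hy'⟩ := Fintype.exists_ne_of_one_lt_card (by omega) y
  obtain ⟨g, hg, h1, -⟩ := h2t x x' y y' (Ne.symm hx') (Ne.symm hy')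
  exact ⟨⟨g, hg⟩, h1⟩

theorem order168 {α : Type*} [Fintype α] [DecidableEq α] (hα : Fintype.card α = 7)
    (G : Subgroup (Equiv.Perm α)) (h2 : MulAction.IsMultiplyPretransitive G α 2)
    (hGA : G ≤ alternatingGroup α) (hne : G ≠ alternatingGroup α) : Nat.card G = 168 := by
  haveI : Fact (Nat.Prime 7) := ⟨by norm_num⟩
  have h2t := (two_trans_iff G).mp h2
  haveI : MulAction.IsPretransitive G α := trans_of_two (by omega) G h2t
  have h42 : 42 ∣ Nat.card G := by
    have h := dvd_of_multi G 2 (by omega) h2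
    rw [hα] at h
    exact h
  obtain ⟨k, hk⟩ := h42
  have hA := card_alt7 hα
  have h2520 : Nat.card G ∣ 2520 := by
    have h1 := Subgroup.card_dvd_of_le hGA
    rwa [hA] at h1
  have hne2520 : Nat.card G ≠ 2520 := by
    intro h
    exact hne (Subgroup.eq_of_le_of_card_ge hGA (by rw [hA, h]))
  obtain ⟨P⟩ : Nonempty (Sylow 7 G) := inferInstance
  obtain ⟨d, hd6, hNd⟩ := card_normalizer 7 hα G P
  have hodd := odd_normalizer hα G hGA P
  have hd13 : d = 1 ∨ d = 3 := by
    have hd : d ≤ 6 := Nat.le_of_dvd (by norm_num) hd6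
    rw [hNd] at hodd
    interval_cases d
    · omega
    · left; rfl
    · exact absurd (by decide : Even (7 * 2)) hodd
    · right; rfl
    · omega
    · omega
    · exact absurd (by decide : Even (7 * 6)) hodd
  have hn1 : Nat.card (Sylow 7 G) % 7 = 1 := card_sylow_modEq_one 7 G
  have hn2 : Nat.card (Sylow 7 G) = (Subgroup.normalizer ((P : Subgroup G) : Set G)).index :=
    Sylow.card_eq_index_normalizer P
  have hn3 := Subgroup.index_mul_card (Subgroup.normalizer ((P : Subgroup G) : Set G))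
  rw [← hn2, hNd, hk] at hn3
  obtain ⟨n, hn⟩ : ∃ n, n = Nat.card (Sylow 7 G) := ⟨_, rfl⟩
  rw [← hn] at hn1 hn3
  have h6 : 6 * k = n * d := by
    have e : n * (7 * d) = 7 * (n * d) := by ring
    linarith
  have hk60 : k ∣ 60 := by
    rw [hk] at h2520
    exact Nat.dvd_of_mul_dvd_mul_left (by norm_num : 0 < 42) (by simpa using h2520)
  have hkne : k ≠ 60 := by
    intro h; apply hne2520; rw [hk, h]
  rcases arith7 k n d h6 hn1 hk60 hkne hd13 with ⟨rfl, rfl⟩ | ⟨rfl, hk6⟩
  · rw [hk]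
  · exfalso
    obtain ⟨hPc, c, e, hcP, hzp, he, haff⟩ := sylow_model 7 hα G P
    have hNP : Subgroup.normalizer ((P : Subgroup G) : Set G) = (P : Subgroup G) := by
      symm
      apply Subgroup.eq_of_le_of_card_ge Subgroup.le_normalizer
      rw [hNd, hPc]
    have hP : Subgroup.normalizer ((P : Subgroup G) : Set G) ≤
        Subgroup.centralizer ((P : Subgroup G) : Set G) := by
      rw [hNP]
      intro a ha
      rw [Subgroup.mem_centralizer_iff]
      intro b hb
      obtain ⟨i, rfl⟩ := hzp a ha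
      obtain ⟨j, rfl⟩ := hzp b hb
      exact ((Commute.refl c).pow_pow j i).eq
    have hnd := MonoidHom.not_dvd_card_ker_transferSylow P hP
    have hcomp := MonoidHom.ker_transferSylow_isComplement' P hP
    obtain ⟨K, hK⟩ : ∃ K : Subgroup G, K = (MonoidHom.transferSylow P hP).ker := ⟨_, rfl⟩
    rw [← hK] at hnd hcomp
    have hKn : K.Normal := by rw [hK]; exact MonoidHom.normal_ker _
    have hKcard : Nat.card K * Nat.card (P : Subgroup G) = Nat.card G := hcomp.card_mul
    have hKne : K ≠ ⊥ := by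
      intro h
      rw [h, Subgroup.card_bot, hPc, hk] at hKcard
      omega
    apply hnd
    have hK'n : ∀ g ∈ G, ∀ x ∈ K.map G.subtype, g * x * g⁻¹ ∈ K.map G.subtype := by
      rintro g hg _ ⟨y, hy, rfl⟩
      exact ⟨⟨g, hg⟩ * y * ⟨g, hg⟩⁻¹, hKn.conj_mem y hy ⟨g, hg⟩, rfl⟩
    have hK'ne : K.map G.subtype ≠ ⊥ := by
      intro h
      exact hKne ((Subgroup.map_eq_bot_iff_of_injective K G.subtype_injective).mp h)
    have htr := normal_trans G (K.map G.subtype) h2t hK'n hK'ne
    haveI : MulAction.IsPretransitive (K.map G.subtype) α := ⟨fun x y => by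
      obtain ⟨g, hg, h⟩ := htr x y
      exact ⟨⟨g, hg⟩, h⟩⟩
    have h7 := p_dvd_card 7 hα (K.map G.subtype)
    rwa [← Nat.card_congr (K.equivMapOfInjective G.subtype G.subtype_injective).toEquiv] at h7

theorem le_alt {α : Type*} [Fintype α] [DecidableEq α] (hα : Fintype.card α = 7)
    (G : Subgroup (Equiv.Perm α)) [MulAction.IsPretransitive G α] (hG : ¬ Group.IsSolvable G)
    (hA : ¬ alternatingGroup α ≤ G) : G ≤ alternatingGroup α := by
  haveI : Fact (Nat.Prime 7) := ⟨by norm_num⟩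
  have hprime : (Fintype.card α).Prime := by rw [hα]; norm_num
  have h2 : MulAction.IsMultiplyPretransitive G α 2 := (burnside hprime G).resolve_left hG
  have h2t := (two_trans_iff G).mp h2
  by_contra hnot
  obtain ⟨f, hf⟩ : ∃ f : G →* ℤˣ, ∀ g : G, f g = Equiv.Perm.sign (g : Equiv.Perm α) :=
    ⟨Equiv.Perm.sign.comp G.subtype, fun _ => rfl⟩
  obtain ⟨K0, hK0⟩ : ∃ K0 : Subgroup G, K0 = f.ker := ⟨_, rfl⟩
  have hK0n : K0.Normal := by rw [hK0]; exact MonoidHom.normal_ker f
  have hK0mem : ∀ g : G, g ∈ K0 ↔ Equiv.Perm.sign (g : Equiv.Perm α) = 1 := by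
    intro g; rw [hK0, MonoidHom.mem_ker, hf]
  have hidx : K0.index = 2 := by
    have h1 : K0.index = Nat.card f.range := by rw [hK0]; exact Subgroup.index_ker f
    have h3 : Nat.card f.range ∣ 2 := by
      have h0 := Subgroup.card_subgroup_dvd_card f.range
      rwa [Nat.card_eq_fintype_card (α := ℤˣ), Fintype.card_units_int] at h0
    rw [← h1] at h3
    rcases (Nat.dvd_prime Nat.prime_two).mp h3 with h | h
    · exfalso
      apply hnot
      intro g hg
      have h4 : (⟨g, hg⟩ : G) ∈ K0 := by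
        rw [Subgroup.index_eq_one.mp h]; exact Subgroup.mem_top _
      exact Equiv.Perm.mem_alternatingGroup.mpr ((hK0mem _).mp h4)
    · exact h
  obtain ⟨H, hH⟩ : ∃ H : Subgroup (Equiv.Perm α), H = K0.map G.subtype := ⟨_, rfl⟩
  have hHG : H ≤ G := by rw [hH]; rintro _ ⟨y, -, rfl⟩; exact y.2
  have hHA : H ≤ alternatingGroup α := by
    rw [hH]; rintro _ ⟨y, hy, rfl⟩
    exact Equiv.Perm.mem_alternatingGroup.mpr ((hK0mem y).mp hy)
  have hHcard : Nat.card H = Nat.card K0 := by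
    rw [hH]
    exact (Nat.card_congr (K0.equivMapOfInjective G.subtype G.subtype_injective).toEquiv).symm
  have hHns : ¬ Group.IsSolvable H := by
    intro hs
    apply hG
    haveI : Group.IsSolvable K0 := by
      rw [hH] at hs
      exact Group.isSolvable_of_isSolvable_injective
        (f := (K0.equivMapOfInjective G.subtype G.subtype_injective).toMonoidHom)
        (MulEquiv.injective _)
    haveI : Group.IsSolvable ℤˣ := Group.isSolvable_of_comm (fun a b => mul_comm a b)
    exact Group.isSolvable_of_ker_le_range K0.subtype f (by rw [Subgroup.range_subtype, hK0])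
  have hHn : ∀ g ∈ G, ∀ x ∈ H, g * x * g⁻¹ ∈ H := by
    rw [hH]
    rintro g hg _ ⟨y, hy, rfl⟩
    exact ⟨⟨g, hg⟩ * y * ⟨g, hg⟩⁻¹, hK0n.conj_mem y hy ⟨g, hg⟩, rfl⟩
  have hHne : H ≠ ⊥ := by
    intro h
    apply hHns
    rw [h]
    exact Group.isSolvable_of_comm (fun a b => Subsingleton.elim _ _)
  have htr := normal_trans G H h2t hHn hHne
  haveI : MulAction.IsPretransitive H α := ⟨fun x y => by
    obtain ⟨g, hg, h⟩ := htr x y
    exact ⟨⟨g, hg⟩, h⟩⟩
  have hH2 : MulAction.IsMultiplyPretransitive H α 2 := (burnside hprime H).resolve_left hHns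
  have hHneA : H ≠ alternatingGroup α := by
    intro h; apply hA; rw [← h]; exact hHG
  have h168 := order168 hα H hH2 hHA hHneA
  have hGcard : Nat.card G = 336 := by
    have h0 := Subgroup.index_mul_card K0
    rw [hidx, ← hHcard, h168] at h0
    omega
  obtain ⟨P⟩ : Nonempty (Sylow 7 G) := inferInstance
  obtain ⟨d, hd6, hNd⟩ := card_normalizer 7 hα G P
  have hn1 : Nat.card (Sylow 7 G) % 7 = 1 := card_sylow_modEq_one 7 G
  have hn2 : Nat.card (Sylow 7 G) = (Subgroup.normalizer ((P : Subgroup G) : Set G)).index :=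
    Sylow.card_eq_index_normalizer P
  have hn3 := Subgroup.index_mul_card (Subgroup.normalizer ((P : Subgroup G) : Set G))
  rw [← hn2, hNd, hGcard] at hn3
  obtain ⟨n, hn⟩ : ∃ n, n = Nat.card (Sylow 7 G) := ⟨_, rfl⟩
  rw [← hn] at hn1 hn3
  have hd6' : d = 6 := by
    have hd : d ≤ 6 := Nat.le_of_dvd (by norm_num) hd6
    have e : n * (7 * d) = 7 * (n * d) := by ring
    have h48 : n * d = 48 := by linarith
    interval_cases d <;> omega
  have heven : Even (Nat.card (Subgroup.normalizer ((P : Subgroup G) : Set G))) := by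
    rw [hNd, hd6']; decide
  have h3 := neumann3 7 hα G hG P heven
  have h210 := dvd_of_multi G 3 (by omega) h3
  rw [hα, hGcard] at h210
  exact absurd h210 (by decide)

theorem deg7 {α : Type*} [Fintype α] [DecidableEq α] (hα : Fintype.card α = 7)
    (G : Subgroup (Equiv.Perm α)) [MulAction.IsPretransitive G α] (hG : ¬ Group.IsSolvable G)
    (hA : ¬ alternatingGroup α ≤ G) : Nat.card G = 168 ∧ IsSimpleGroup G := by
  haveI : Fact (Nat.Prime 7) := ⟨by norm_num⟩
  have hprime : (Fintype.card α).Prime := by rw [hα]; norm_num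
  have h2 : MulAction.IsMultiplyPretransitive G α 2 := (burnside hprime G).resolve_left hG
  have h2t := (two_trans_iff G).mp h2
  have hGA := le_alt hα G hG hA
  have hGne : G ≠ alternatingGroup α := fun h => hA (by rw [h])
  have h168 := order168 hα G h2 hGA hGne
  refine ⟨h168, ?_⟩
  haveI : Nontrivial G := by
    rw [← Finite.one_lt_card_iff_nontrivial, h168]; norm_num
  refine ⟨fun H hHn => ?_⟩
  by_cases hHbot : H = ⊥
  · left; exact hHbot
  right
  obtain ⟨H', hH'⟩ : ∃ H' : Subgroup (Equiv.Perm α), H' = H.map G.subtype := ⟨_, rfl⟩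
  have hH'G : H' ≤ G := by rw [hH']; rintro _ ⟨y, -, rfl⟩; exact y.2
  have hH'card : Nat.card H' = Nat.card H := by
    rw [hH']
    exact (Nat.card_congr (H.equivMapOfInjective G.subtype G.subtype_injective).toEquiv).symm
  have hH'n : ∀ g ∈ G, ∀ x ∈ H', g * x * g⁻¹ ∈ H' := by
    rw [hH']
    rintro g hg _ ⟨y, hy, rfl⟩
    exact ⟨⟨g, hg⟩ * y * ⟨g, hg⟩⁻¹, hHn.conj_mem y hy ⟨g, hg⟩, rfl⟩
  have hH'ne : H' ≠ ⊥ := by
    intro h
    rw [hH'] at h
    exact hHbot ((Subgroup.map_eq_bot_iff_of_injective H G.subtype_injective).mp h)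
  have htr := normal_trans G H' h2t hH'n hH'ne
  haveI : MulAction.IsPretransitive H' α := ⟨fun x y => by
    obtain ⟨g, hg, h⟩ := htr x y
    exact ⟨⟨g, hg⟩, h⟩⟩
  by_cases hH2 : MulAction.IsMultiplyPretransitive H' α 2
  · have h := order168 hα H' hH2 (hH'G.trans hGA) (fun h => hA (by rw [← h]; exact hH'G))
    apply Subgroup.eq_top_of_card_eq
    rw [← hH'card, h, h168]
  · exfalso
    obtain ⟨e, σ, hσH, he⟩ := exists_model 7 hα H'
    obtain ⟨ψ, hψ⟩ : ∃ ψ : Equiv.Perm α ≃* Equiv.Perm (ZMod 7),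
        ∀ (g : Equiv.Perm α) (x : ZMod 7), ψ g x = e.symm (g (e x)) :=
      ⟨e.symm.permCongrHom, fun g x => rfl⟩
    have hσx : ∀ x, ψ σ x = x + 1 := fun x => by rw [hψ, ← he, Equiv.symm_apply_apply]
    rw [two_trans_iff] at hH2
    push Not at hH2
    obtain ⟨a, b, c, d, hab, hcd, hnot⟩ := hH2
    have haffH : ∀ g ∈ H'.map ψ.toMonoidHom, ∀ x, g x = (g 1 - g 0) * x + g 0 := by
      apply burnside_zmod 7 (by norm_num) (H'.map ψ.toMonoidHom) (ψ σ) ⟨σ, hσH, rfl⟩ hσx
        (e.symm a) (e.symm b) (e.symm c) (e.symm d) (e.symm.injective.ne hab)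
        (e.symm.injective.ne hcd)
      rintro _ ⟨g, hg, rfl⟩ ⟨h1, h2⟩
      have h1' : ψ g (e.symm a) = e.symm c := h1
      have h2' : ψ g (e.symm b) = e.symm d := h2
      rw [hψ, Equiv.apply_symm_apply] at h1' h2'
      exact hnot g hg (e.symm.injective h1') (e.symm.injective h2')
    apply not_affine 7 G hG ψ
    rintro _ ⟨g, hg, rfl⟩ x
    obtain ⟨γ, hγ⟩ : ∃ γ : Equiv.Perm (ZMod 7), γ = ψ g := ⟨_, rfl⟩
    show (ψ g) x = ((ψ g) 1 - (ψ g) 0) * x + (ψ g) 0
    rw [← hγ]
    have hτmem : γ * ψ σ * γ⁻¹ ∈ H'.map ψ.toMonoidHom :=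
      ⟨g * σ * g⁻¹, hH'n g hg σ (hH'G hσH |> fun _ => hσH), by
        rw [hγ]
        show ψ (g * σ * g⁻¹) = ψ g * ψ σ * (ψ g)⁻¹
        rw [map_mul, map_mul, map_inv]⟩
    have hτaff := haffH _ hτmem
    have hτ : ∀ y, (γ * ψ σ * γ⁻¹) y = γ (γ⁻¹ y + 1) := fun y => by
      rw [Equiv.Perm.mul_apply, Equiv.Perm.mul_apply, hσx]
    obtain ⟨a', ha'⟩ : ∃ a' : ZMod 7, a' = (γ * ψ σ * γ⁻¹) 1 - (γ * ψ σ * γ⁻¹) 0 := ⟨_, rfl⟩
    obtain ⟨b', hb'⟩ : ∃ b' : ZMod 7, b' = (γ * ψ σ * γ⁻¹) 0 := ⟨_, rfl⟩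
    rw [← ha', ← hb'] at hτaff
    have ha1 : a' = 1 := by
      by_contra hne
      have h1a : (1 - a') ≠ 0 := sub_ne_zero.mpr (Ne.symm hne)
      have hfix : (γ * ψ σ * γ⁻¹) (b' / (1 - a')) = b' / (1 - a') := by
        rw [hτaff]; field_simp; ring
      rw [hτ] at hfix
      have h5 : γ⁻¹ (b' / (1 - a')) + 1 = γ⁻¹ (b' / (1 - a')) := by
        rw [Equiv.Perm.eq_inv_iff_eq]; exact hfix
      exact one_ne_zero (add_left_cancel (h5.trans (add_zero _).symm))
    have hτ' : ∀ y, γ (γ⁻¹ y + 1) = y + b' := fun y => by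
      rw [← hτ, hτaff, ha1]; ring
    have hstep : ∀ z, γ (z + 1) = γ z + b' := fun z => by
      have h0 := hτ' (γ z)
      rwa [show γ⁻¹ (γ z) = z from γ.symm_apply_apply z] at h0
    have hlin : ∀ m : ℕ, γ (m : ZMod 7) = m * b' + γ 0 := by
      intro m
      induction m with
      | zero => simp
      | succ m ih => push_cast; rw [hstep, ih]; ring
    have hlin' : ∀ z : ZMod 7, γ z = z * b' + γ 0 := fun z => by
      have h0 := hlin z.val
      rwa [ZMod.natCast_zmod_val] at h0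
    rw [hlin' x, hlin' 1]; ring

end Cfsg.Agent.Lib.Helper6.Deg7
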