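import Mathlib

set_option autoImplicit false

namespace Cfsg.Agent.Lib.Helper6.Dickson

/-- The geometric sum `1 + q + ... + q^(i-1)`. -/
def S (q i : ℕ) : ℕ := ∑ j ∈ Finset.range i, q ^ j

theorem S_zero (q : ℕ) : S q 0 = 0 := by simp [S]

theorem S_succ (q i : ℕ) : S q (i+1) = S q i + q^i := Finset.sum_range_succ _ _

theorem S_add (q a b : ℕ) : S q (a + b) = S q a + q^a * S q b := by
  induction b with
  | zero => simp [S_zero]
  | succ b ih => rw [← add_assoc, S_succ, ih, S_succ, mul_add, pow_add]; ring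

theorem pow_eq (q i : ℕ) (hq : 1 ≤ q) : q^i = (q - 1) * S q i + 1 := by
  obtain ⟨k, rfl⟩ : ∃ k, q = k + 1 := ⟨q - 1, by omega⟩
  simp only [Nat.add_sub_cancel]
  induction i with
  | zero => simp [S_zero]
  | succ i ih =>
    rw [S_succ, mul_add, pow_succ, ih]; ring

theorem S_ne_zero (q i : ℕ) (hq : 2 ≤ q) (hi : 0 < i) : S q i ≠ 0 := by
  intro h0
  have h1 := pow_eq q i (by omega)
  rw [h0, mul_zero, zero_add] at h1
  have h2 : 1 < q^i := Nat.one_lt_pow (by omega) (by omega)
  omega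

theorem modEq_iff (q n i : ℕ) (hq : 2 ≤ q) : q ^ i ≡ 1 [MOD n * (q - 1)] ↔ n ∣ S q i := by
  have h1 := pow_eq q i (by omega)
  rw [Nat.ModEq.comm, Nat.modEq_iff_dvd' (Nat.one_le_pow _ _ (by omega)), h1, Nat.add_sub_cancel,
    mul_comm n]
  exact Nat.mul_dvd_mul_iff_left (by omega)

theorem S_modEq (q r i : ℕ) (hq : 1 ≤ q) (hr : r ∣ q - 1) : S q i ≡ i [MOD r] := by
  have hq1 : q ≡ 1 [MOD r] := by
    rw [Nat.ModEq.comm, Nat.modEq_iff_dvd' hq]; exact hr
  induction i with
  | zero => rw [S_zero]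
  | succ i ih =>
    rw [S_succ]
    have h := hq1.pow i
    rw [one_pow] at h
    exact ih.add h

theorem padic_S (q r i : ℕ) (hq : 2 ≤ q) (hr : r.Prime) (hrq : r ∣ q - 1)
    (h2 : r = 2 → 4 ∣ q - 1) (hi : 0 < i) :
    padicValNat r (S q i) = padicValNat r i := by
  haveI : Fact r.Prime := ⟨hr⟩
  have hS0 : S q i ≠ 0 := S_ne_zero q i hq hi
  have hq0 : q - 1 ≠ 0 := by omega
  have hnq : ¬ r ∣ q := fun h => by
    have h1 : r ∣ 1 := by
      have h3 := Nat.dvd_sub h hrq
      rwa [show q - (q - 1) = 1 by omega] at h3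
    exact hr.one_lt.ne' (Nat.dvd_one.mp h1)
  have hmul : q^i - 1 = (q - 1) * S q i := by
    have h3 := pow_eq q i (by omega); omega
  have hv : padicValNat r (q^i - 1) = padicValNat r (q - 1) + padicValNat r (S q i) := by
    rw [hmul, padicValNat.mul hq0 hS0]
  rcases hr.eq_two_or_odd' with rfl | hodd
  · have h4 := h2 rfl
    rcases Nat.even_or_odd i with he | ho
    · have hL := padicValNat.pow_two_sub_pow (x := q) (y := 1) (by omega) hrq hnq (n := i)
        (by omega) he
      rw [one_pow, hv] at hL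
      have hq1 : padicValNat 2 (q + 1) = 1 := by
        obtain ⟨t, ht⟩ := h4
        have h5 : q + 1 = 2 * (2 * t + 1) := by omega
        rw [h5, padicValNat.mul (by norm_num) (by omega), padicValNat_self,
          padicValNat.eq_zero_of_not_dvd (by omega)]
      omega
    · have h1 : ¬ 2 ∣ i := by
        rw [Nat.odd_iff] at ho; omega
      have h3 : ¬ 2 ∣ S q i := by
        have h5 := S_modEq q 2 i (by omega) hrq
        unfold Nat.ModEq at h5
        omega
      rw [padicValNat.eq_zero_of_not_dvd h1, padicValNat.eq_zero_of_not_dvd h3]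
  · have hL := padicValNat.pow_sub_pow (x := q) (y := 1) hodd (by omega) hrq hnq (n := i)
      (by omega)
    rw [one_pow, hv] at hL
    omega

theorem dvd_S_iff (q n i : ℕ) (hq : 2 ≤ q)
    (h1 : ∀ r : ℕ, r.Prime → r ∣ n → r ∣ q - 1) (h2 : 4 ∣ n → 4 ∣ q - 1) (hi : 0 < i) :
    n ∣ S q i ↔ n ∣ i := by
  have hS0 : S q i ≠ 0 := S_ne_zero q i hq hi
  rw [Nat.dvd_iff_prime_pow_dvd_dvd (S q i) n, Nat.dvd_iff_prime_pow_dvd_dvd i n]
  refine forall_congr' fun p => forall_congr' fun k => forall_congr' fun hp =>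
    forall_congr' fun hpk => ?_
  haveI : Fact p.Prime := ⟨hp⟩
  rcases Nat.eq_zero_or_pos k with rfl | hk
  · simp
  have hpn : p ∣ n := (dvd_pow_self p hk.ne').trans hpk
  have hpq := h1 p hp hpn
  by_cases hc : p = 2 → 4 ∣ q - 1
  · rw [padicValNat_dvd_iff_le hS0, padicValNat_dvd_iff_le hi.ne', padic_S q p i hq hp hpq hc hi]
  · push Not at hc
    obtain ⟨rfl, hc4⟩ := hc
    have hk1 : k = 1 := by
      by_contra hne
      have hk2 : 2 ≤ k := by omega
      have h4 : (4:ℕ) ∣ 2^k := by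
        have h5 := pow_dvd_pow 2 hk2
        simpa using h5
      exact hc4 (h2 (h4.trans hpk))
    subst hk1
    rw [pow_one]
    have h5 := S_modEq q 2 i (by omega) hpq
    unfold Nat.ModEq at h5
    omega

theorem S_mod4 (q : ℕ) (h : q % 4 = 3) (i : ℕ) : S q i % 4 = 0 ∨ S q i % 4 = 1 := by
  induction i using Nat.twoStepInduction with
  | zero => left; rw [S_zero]
  | one => right; rw [S_succ, S_zero]; simp
  | more i ih _ =>
    have h1 : S q (i + 2) = S q i + q^i * (1 + q) := by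
      rw [S_succ, S_succ, pow_succ]; ring
    have h2 : (q^i * (1 + q)) % 4 = 0 := by
      rw [Nat.mul_mod]
      have h3 : (1 + q) % 4 = 0 := by omega
      rw [h3]; simp
    omega

theorem main (q n : ℕ) (hq : 2 ≤ q) (hn : 1 < n) :
    ((∀ r : ℕ, r.Prime → r ∣ n → r ∣ q - 1) ∧ (4 ∣ n → 4 ∣ q - 1)) ↔
    (n ∣ S q n ∧ ∀ i : ℕ, 0 < i → i < n → ¬ n ∣ S q i) := by
  constructor
  · rintro ⟨h1, h2⟩
    refine ⟨(dvd_S_iff q n n hq h1 h2 (by omega)).mpr dvd_rfl, fun i hi hin h => ?_⟩
    exact Nat.not_dvd_of_pos_of_lt hi hin ((dvd_S_iff q n i hq h1 h2 hi).mp h)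
  · rintro ⟨hA, hB⟩
    haveI : NeZero n := ⟨by omega⟩
    have hcop : Nat.Coprime q n := by
      apply Nat.coprime_of_dvd
      intro k hk hkq hkn
      have h1 : S q n = 1 + q * S q (n - 1) := by
        have h2 := S_add q 1 (n - 1)
        rw [show 1 + (n - 1) = n by omega, S_succ, S_zero, pow_zero, pow_one, zero_add] at h2
        exact h2
      have h3 : k ∣ 1 + q * S q (n - 1) := by rw [← h1]; exact hkn.trans hA
      have h4 : k ∣ 1 := (Nat.dvd_add_left (hkq.mul_right _)).mp h3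
      exact hk.one_lt.ne' (Nat.dvd_one.mp h4)
    have hinj : ∀ j i : ℕ, j < i → i < n → ¬ (S q i ≡ S q j [MOD n]) := by
      intro j i hji hin hmod
      have h1 : S q i = S q j + q^j * S q (i - j) := by
        rw [← S_add, show j + (i - j) = i by omega]
      rw [h1] at hmod
      have h2 : q^j * S q (i - j) ≡ 0 [MOD n] :=
        Nat.ModEq.add_left_cancel' (S q j) (by simpa using hmod)
      have h3 : n ∣ q^j * S q (i - j) := (Nat.modEq_zero_iff_dvd).mp h2
      have h4 : n ∣ S q (i - j) :=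
        (Nat.Coprime.dvd_mul_left (Nat.Coprime.pow_right j hcop.symm)).mp h3
      exact hB (i - j) (by omega) (by omega) h4
    have hsurj : ∀ c : ℕ, ∃ i : ℕ, S q i ≡ c [MOD n] := by
      intro c
      let f : Fin n → ZMod n := fun i => (S q i : ZMod n)
      have hfinj : Function.Injective f := by
        intro a b hab
        have hab' : S q a ≡ S q b [MOD n] := (ZMod.natCast_eq_natCast_iff _ _ _).mp hab
        by_contra hne
        rcases lt_or_gt_of_ne (fun h => hne (Fin.ext h)) with h | h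
        · exact hinj a b h b.2 hab'.symm
        · exact hinj b a h a.2 hab'
      have hfbij : Function.Bijective f :=
        (Fintype.bijective_iff_injective_and_card f).mpr ⟨hfinj, by simp [ZMod.card]⟩
      obtain ⟨i, hi⟩ := hfbij.2 (c : ZMod n)
      exact ⟨i, (ZMod.natCast_eq_natCast_iff _ _ _).mp hi⟩
    constructor
    · intro r hr hrn
      haveI : Fact r.Prime := ⟨hr⟩
      by_contra hrq
      have ha : ((q - 1 : ℕ) : ZMod r) ≠ 0 := fun h => hrq ((ZMod.natCast_eq_zero_iff _ _).mp h)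
      obtain ⟨i, hi⟩ := hsurj (-(((q - 1 : ℕ) : ZMod r)⁻¹)).val
      have hi' : (S q i : ZMod r) = -(((q - 1 : ℕ) : ZMod r)⁻¹) := by
        have h1 := (ZMod.natCast_eq_natCast_iff _ _ _).mpr (hi.of_dvd hrn)
        rw [h1, ZMod.natCast_zmod_val]
      have h2 := pow_eq q i (by omega)
      have h3 : ((q^i : ℕ) : ZMod r) = 0 := by
        rw [h2]; push_cast
        rw [hi']
        have h4 : ((q - 1 : ℕ) : ZMod r) * -(((q - 1 : ℕ) : ZMod r)⁻¹) = -1 := by
          rw [mul_neg, mul_inv_cancel₀ ha]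
        push_cast at h4
        rw [h4]; ring
      have h5 : r ∣ q^i := (ZMod.natCast_eq_zero_iff _ _).mp h3
      have h6 : r ∣ q := hr.dvd_of_dvd_pow h5
      have h7 : r ∣ Nat.gcd q n := Nat.dvd_gcd h6 hrn
      rw [hcop] at h7
      exact hr.one_lt.ne' (Nat.dvd_one.mp h7)
    · intro h4
      have hodd : q % 2 = 1 := by
        by_contra h
        have h6 : 2 ∣ q := by omega
        have h7 : 2 ∣ Nat.gcd q n := Nat.dvd_gcd h6 ((by norm_num : 2 ∣ 4).trans h4)
        rw [hcop] at h7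
        omega
      by_contra h41
      have hq3 : q % 4 = 3 := by omega
      obtain ⟨i, hi⟩ := hsurj 2
      have h5 := hi.of_dvd h4
      unfold Nat.ModEq at h5
      have h6 := S_mod4 q hq3 i
      omega

end Cfsg.Agent.Lib.Helper6.Dickson
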