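import Mathlib

set_option autoImplicit false

namespace Cfsg.Agent.Lib.Helper6.FFAdd

section
variable {F : Type*} [Field F] [Fintype F] [Algebra (ZMod 2) F]

theorem linInd : LinearIndependent F (fun σ : F ≃+* F => ((σ : F →+* F) : F → F)) := by
  have h := linearIndependent_monoidHom F F
  have hinj : Function.Injective (fun σ : F ≃+* F => ((σ : F →+* F) : F →* F)) := by
    intro σ τ hστ
    ext x
    exact DFunLike.congr_fun hστ x
  exact h.comp _ hinj

theorem finite_aut : Finite (F ≃+* F) :=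
  Finite.of_injective (fun σ : F ≃+* F => (σ : F → F)) (fun σ τ h => RingEquiv.ext (congrFun h))

theorem card_aut_ge : Module.finrank (ZMod 2) F ≤ Nat.card (F ≃+* F) := by
  haveI := finite_aut (F := F)
  rw [← IsGalois.card_aut_eq_finrank (ZMod 2) F]
  exact Nat.card_le_card_of_injective (fun σ : F ≃ₐ[ZMod 2] F => (σ : F ≃+* F))
    (fun σ τ h => by ext x; exact DFunLike.congr_fun h x)

theorem span_add (f : F →+ F) : (f : F → F) ∈
    Submodule.span F (Set.range (fun σ : F ≃+* F => ((σ : F →+* F) : F → F))) := by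
  classical
  haveI := finite_aut (F := F)
  letI : Fintype (F ≃+* F) := Fintype.ofFinite _
  obtain ⟨Φ, hΦ⟩ : ∃ Φ : (F →ₗ[ZMod 2] F) →ₗ[F] (F → F), ∀ g, Φ g = ⇑g :=
    ⟨{ toFun := fun g => ⇑g, map_add' := fun _ _ => rfl, map_smul' := fun _ _ => rfl },
      fun _ => rfl⟩
  have hW : Submodule.span F (Set.range (fun σ : F ≃+* F => ((σ : F →+* F) : F → F))) ≤
      LinearMap.range Φ := by
    rw [Submodule.span_le]
    rintro _ ⟨σ, rfl⟩
    exact ⟨AddMonoidHom.toZModLinearMap 2 (σ : F →+ F), by rw [hΦ]; rfl⟩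
  have hfr1 : Module.finrank F (Submodule.span F
      (Set.range (fun σ : F ≃+* F => ((σ : F →+* F) : F → F)))) = Nat.card (F ≃+* F) := by
    rw [finrank_span_eq_card linInd, Nat.card_eq_fintype_card]
  have hfr2 : Module.finrank F (LinearMap.range Φ) ≤ Module.finrank (ZMod 2) F :=
    (LinearMap.finrank_range_le Φ).trans (by rw [Module.finrank_linearMap_self])
  have heq := Submodule.eq_of_le_of_finrank_le hW (by rw [hfr1]; exact hfr2.trans card_aut_ge)
  rw [heq]
  exact ⟨AddMonoidHom.toZModLinearMap 2 f, by rw [hΦ]; rfl⟩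

theorem linInd2 : LinearIndependent F
    (fun p : (F ≃+* F) × (F ≃+* F) => fun xy : F × F => p.1 xy.1 * p.2 xy.2) := by
  have h := linearIndependent_monoidHom (F × F) F
  have hinj : Function.Injective (fun p : (F ≃+* F) × (F ≃+* F) =>
      (((p.1 : F →+* F) : F →* F).comp (MonoidHom.fst F F) *
        ((p.2 : F →+* F) : F →* F).comp (MonoidHom.snd F F) : F × F →* F)) := by
    intro p q hpq
    apply Prod.ext
    · ext x
      have h1 := DFunLike.congr_fun hpq (x, 1)
      simpa using h1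
    · ext y
      have h1 := DFunLike.congr_fun hpq (1, y)
      simpa using h1
  have h2 := h.comp _ hinj
  have heq : (fun p : (F ≃+* F) × (F ≃+* F) => fun xy : F × F => p.1 xy.1 * p.2 xy.2) =
      (fun f : F × F →* F => (f : F × F → F)) ∘ (fun p : (F ≃+* F) × (F ≃+* F) =>
      (((p.1 : F →+* F) : F →* F).comp (MonoidHom.fst F F) *
        ((p.2 : F →+* F) : F →* F).comp (MonoidHom.snd F F) : F × F →* F)) := by
    funext p xy
    rfl
  rw [heq]
  exact h2

theorem span_lin2 (g : F →ₗ[ZMod 2] F →ₗ[ZMod 2] F) : (fun xy : F × F => g xy.1 xy.2) ∈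
    Submodule.span F (Set.range (fun p : (F ≃+* F) × (F ≃+* F) =>
      fun xy : F × F => p.1 xy.1 * p.2 xy.2)) := by
  classical
  haveI := finite_aut (F := F)
  letI : Fintype (F ≃+* F) := Fintype.ofFinite _
  obtain ⟨Φ, hΦ⟩ : ∃ Φ : (F →ₗ[ZMod 2] F →ₗ[ZMod 2] F) →ₗ[F] (F × F → F),
      ∀ g, Φ g = fun xy : F × F => g xy.1 xy.2 :=
    ⟨{ toFun := fun g xy => g xy.1 xy.2, map_add' := fun _ _ => rfl,
       map_smul' := fun _ _ => rfl }, fun _ => rfl⟩
  have hW : Submodule.span F (Set.range (fun p : (F ≃+* F) × (F ≃+* F) =>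
      fun xy : F × F => p.1 xy.1 * p.2 xy.2)) ≤ LinearMap.range Φ := by
    rw [Submodule.span_le]
    rintro _ ⟨p, rfl⟩
    refine ⟨LinearMap.mk₂ (ZMod 2) (fun x y => p.1 x * p.2 y)
      (fun a b c => by rw [map_add, add_mul])
      (fun c a b => by
        rw [show p.1 (c • a) = c • p.1 a from
          (AddMonoidHom.toZModLinearMap 2 (p.1 : F →+ F)).map_smul c a, smul_mul_assoc])
      (fun a b c => by rw [map_add, mul_add])
      (fun c a b => by
        rw [show p.2 (c • b) = c • p.2 b from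
          (AddMonoidHom.toZModLinearMap 2 (p.2 : F →+ F)).map_smul c b, mul_smul_comm]), ?_⟩
    rw [hΦ]; rfl
  have hfr1 : Module.finrank F (Submodule.span F (Set.range
      (fun p : (F ≃+* F) × (F ≃+* F) => fun xy : F × F => p.1 xy.1 * p.2 xy.2))) =
      Nat.card (F ≃+* F) * Nat.card (F ≃+* F) := by
    rw [finrank_span_eq_card linInd2, Fintype.card_prod, Nat.card_eq_fintype_card]
  haveI : Finite (F →ₗ[ZMod 2] F →ₗ[ZMod 2] F) :=
    Finite.of_injective (fun g : F →ₗ[ZMod 2] F →ₗ[ZMod 2] F => fun x y => g x y)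
      (fun g1 g2 h => by
        ext x y
        exact congrFun (congrFun h x) y)
  haveI : Module.Finite F (F →ₗ[ZMod 2] F →ₗ[ZMod 2] F) := Module.Finite.of_finite
  have hfr2 : Module.finrank F (LinearMap.range Φ) ≤
      Module.finrank (ZMod 2) F * Module.finrank (ZMod 2) F :=
    (LinearMap.finrank_range_le Φ).trans (by
      rw [Module.finrank_linearMap, Module.finrank_linearMap_self])
  have heq := Submodule.eq_of_le_of_finrank_le hW (by
    rw [hfr1]; exact hfr2.trans (Nat.mul_le_mul card_aut_ge card_aut_ge))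
  rw [heq]
  exact ⟨g, by rw [hΦ]⟩

theorem span_bil (B : F →+ F →+ F) : (fun xy : F × F => B xy.1 xy.2) ∈
    Submodule.span F (Set.range (fun p : (F ≃+* F) × (F ≃+* F) =>
      fun xy : F × F => p.1 xy.1 * p.2 xy.2)) :=
  span_lin2 (LinearMap.mk₂ (ZMod 2) (fun x y => B x y)
    (fun a b c => by rw [map_add]; rfl)
    (fun c a b => (AddMonoidHom.toZModLinearMap 2 (B.flip b)).map_smul c a)
    (fun a b c => by rw [map_add])
    (fun c a b => (AddMonoidHom.toZModLinearMap 2 (B a)).map_smul c b))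

theorem exists_add (f : F →+ F) : ∃ (s : Finset (F ≃+* F)) (c : (F ≃+* F) → F),
    ∀ x : F, f x = ∑ σ ∈ s, c σ * σ x := by
  have h := span_add f
  rw [Finsupp.mem_span_range_iff_exists_finsupp] at h
  obtain ⟨c, hc⟩ := h
  refine ⟨c.support, ⇑c, fun x => ?_⟩
  have h1 := congrFun hc x
  rw [← h1, Finsupp.sum, Finset.sum_apply]
  rfl

theorem exists_lin2 (g : F →ₗ[ZMod 2] F →ₗ[ZMod 2] F) :
    ∃ (s : Finset ((F ≃+* F) × (F ≃+* F))) (c : (F ≃+* F) × (F ≃+* F) → F),
      ∀ x y : F, g x y = ∑ p ∈ s, c p * (p.1 x * p.2 y) := by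
  have h := span_lin2 g
  rw [Finsupp.mem_span_range_iff_exists_finsupp] at h
  obtain ⟨c, hc⟩ := h
  refine ⟨c.support, ⇑c, fun x y => ?_⟩
  have h1 := congrFun hc (x, y)
  simp only at h1
  rw [← h1, Finsupp.sum, Finset.sum_apply]
  rfl

theorem exists_bil (B : F →+ F →+ F) :
    ∃ (s : Finset ((F ≃+* F) × (F ≃+* F))) (c : (F ≃+* F) × (F ≃+* F) → F),
      ∀ x y : F, B x y = ∑ p ∈ s, c p * (p.1 x * p.2 y) := by
  have h := span_bil B
  rw [Finsupp.mem_span_range_iff_exists_finsupp] at h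
  obtain ⟨c, hc⟩ := h
  refine ⟨c.support, ⇑c, fun x y => ?_⟩
  have h1 := congrFun hc (x, y)
  simp only at h1
  rw [← h1, Finsupp.sum, Finset.sum_apply]
  rfl

theorem quad [CharP F 2] (q : F → F)
    (hq : ∀ x y z : F, q (x + y + z) + q (x + y) + q (x + z) + q (y + z) + q x + q y + q z = 0) :
    ∃ (s : Finset ((F ≃+* F) × (F ≃+* F))) (c : (F ≃+* F) × (F ≃+* F) → F),
      ∀ x : F, q x = ∑ p ∈ s, c p * (p.1 x * p.2 x) := by
  classical
  have h2 : ∀ a : F, a + a = 0 := fun a => CharTwo.add_self_eq_zero a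
  have hq0 : q 0 = 0 := by
    have h1 := hq 0 0 0
    simp only [add_zero] at h1
    have h3 := h2 (q 0)
    linear_combination h1 - 3 * h3
  obtain ⟨B, hB⟩ : ∃ B : F → F → F, ∀ x y, B x y = q (x + y) + q x + q y := ⟨_, fun _ _ => rfl⟩
  have hBsymm : ∀ x y, B x y = B y x := by
    intro x y
    rw [hB, hB, add_comm x y]; ring
  have hBadd : ∀ x y z, B (x + y) z = B x z + B y z := by
    intro x y z
    rw [hB, hB, hB]
    have h1 := hq x y z
    have h3 := h2 (q (x + z) + q x + q (y + z) + q y + q z)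
    linear_combination h1 - h3
  have hBadd' : ∀ x y z, B x (y + z) = B x y + B x z := by
    intro x y z
    rw [hBsymm x (y + z), hBadd, hBsymm y x, hBsymm z x]
  have hBself : ∀ x, B x x = 0 := by
    intro x
    rw [hB, h2 x, hq0, zero_add, h2]
  obtain ⟨Badd, hBaddapp⟩ : ∃ Badd : F →+ F →+ F, ∀ x y, Badd x y = B x y :=
    ⟨AddMonoidHom.mk' (fun x => AddMonoidHom.mk' (fun y => B x y) (hBadd' x))
      (fun x y => by ext z; exact hBadd x y z), fun _ _ => rfl⟩
  obtain ⟨Bl, hBl⟩ : ∃ Bl : F →ₗ[ZMod 2] F →ₗ[ZMod 2] F, ∀ x y, Bl x y = B x y :=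
    ⟨LinearMap.mk₂ (ZMod 2) (fun x y => Badd x y)
      (fun a b c => by rw [map_add]; rfl)
      (fun c a b => (AddMonoidHom.toZModLinearMap 2 (Badd.flip b)).map_smul c a)
      (fun a b c => by rw [map_add])
      (fun c a b => (AddMonoidHom.toZModLinearMap 2 (Badd a)).map_smul c b),
      fun x y => hBaddapp x y⟩
  haveI : Module.Finite (ZMod 2) F := Module.Finite.of_finite
  obtain ⟨ι, _, _, ⟨b⟩⟩ : ∃ (ι : Type) (_ : Fintype ι) (_ : LinearOrder ι),
      Nonempty (Module.Basis ι (ZMod 2) F) :=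
    ⟨Fin (Module.finrank (ZMod 2) F), inferInstance, inferInstance,
      ⟨Module.finBasis (ZMod 2) F⟩⟩
  obtain ⟨c, hc⟩ : ∃ c : ι → ι → F, ∀ i j,
      c i j = if i < j then B (b i) (b j) else if i = j then q (b i) else 0 :=
    ⟨_, fun _ _ => rfl⟩
  obtain ⟨Cl, hCl⟩ : ∃ Cl : F →ₗ[ZMod 2] F →ₗ[ZMod 2] F, ∀ i j, Cl (b i) (b j) = c i j :=
    ⟨b.constr (ZMod 2) (fun i => b.constr (ZMod 2) (fun j => c i j)), fun i j => by
      rw [Module.Basis.constr_basis, Module.Basis.constr_basis]⟩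
  have hBC : Bl = Cl + Cl.flip := by
    apply b.ext
    intro i
    apply b.ext
    intro j
    rw [LinearMap.add_apply, LinearMap.add_apply, LinearMap.flip_apply, hBl, hCl, hCl, hc, hc]
    rcases lt_trichotomy i j with h | h | h
    · rw [if_pos h, if_neg (not_lt_of_gt h), if_neg (ne_of_gt h), add_zero]
    · subst h
      rw [if_neg (lt_irrefl i), if_pos rfl, hBself, h2]
    · rw [if_neg (not_lt_of_gt h), if_neg (ne_of_gt h), if_pos h, zero_add, hBsymm]
  have hBC' : ∀ x y, B x y = Cl x y + Cl y x := by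
    intro x y
    rw [← hBl, hBC]; rfl
  obtain ⟨Dadd, hD⟩ : ∃ Dadd : F →+ F, ∀ x, Dadd x = q x + Cl x x :=
    ⟨AddMonoidHom.mk' (fun x => q x + Cl x x) (fun x y => by
      have h1 := hBC' x y
      rw [hB] at h1
      have h3 := h2 (q x + q y)
      have h4 := h2 (Cl x y + Cl y x)
      simp only [map_add, LinearMap.add_apply]
      linear_combination h1 - h3 + h4), fun _ => rfl⟩
  have hD0 : AddMonoidHom.toZModLinearMap 2 Dadd = 0 := by
    apply b.ext
    intro i
    show Dadd (b i) = 0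
    rw [hD, hCl, hc, if_neg (lt_irrefl i), if_pos rfl, h2]
  have hqC : ∀ x, q x = Cl x x := by
    intro x
    have h1 : Dadd x = 0 := by
      have h3 := congrArg (fun L : F →ₗ[ZMod 2] F => L x) hD0
      exact h3
    rw [hD] at h1
    exact CharTwo.add_eq_zero.mp h1
  obtain ⟨s, cf, h⟩ := exists_lin2 Cl
  exact ⟨s, cf, fun x => by rw [hqC x, h x x]⟩

end

end Cfsg.Agent.Lib.Helper6.FFAdd
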