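import Mathlib
import Cfsg.Agent.S1003
import Cfsg.Agent.Lib.Helper1.Inv
import Cfsg.Agent.Lib.Helper6.SylowConj

set_option autoImplicit false

namespace Cfsg.Agent.Lib.Helper6.G168

open Subgroup Cfsg.Agent.S1003

variable {G : Type*} [Group G] [Finite G] [IsSimpleGroup G]

theorem f7 : Fact (Nat.Prime 7) := ⟨by norm_num⟩

theorem mem_cent_iff (z g : G) : g ∈ centralizer ({z} : Set G) ↔ g * z = z * g :=
  Subgroup.mem_centralizer_singleton_iff

theorem c7 (h : Nat.card G = 168) (P : Sylow 7 G) : Nat.card (P : Subgroup G) = 7 := by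
  haveI := f7
  exact syl_card_gen P 7 24 (by rw [h]) ⟨1, by norm_num⟩ (by norm_num)

theorem c3 (h : Nat.card G = 168) (P : Sylow 3 G) : Nat.card (P : Subgroup G) = 3 :=
  syl_card_gen P 3 56 (by rw [h]) ⟨1, by norm_num⟩ (by norm_num)

theorem c2 (h : Nat.card G = 168) (P : Sylow 2 G) : Nat.card (P : Subgroup G) = 8 :=
  syl_card_gen P 8 21 (by rw [h]) ⟨3, by norm_num⟩ (by norm_num)

theorem N7 (h : Nat.card G = 168) (P : Sylow 7 G) :
    Nat.card (normalizer ((P : Subgroup G) : Set G)) = 7 * 3 := by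
  haveI := f7
  have n7 := (Cfsg.Agent.S1003.result h).2.2
  have := card_norm P
  rw [n7, h] at this
  omega

theorem C7 (h : Nat.card G = 168) (P : Sylow 7 G) :
    centralizer ((P : Subgroup G) : Set G) = (P : Subgroup G) := by
  haveI := f7
  exact cent_eq P (c7 h P) (by rw [h]; norm_num) 3 (by norm_num) (N7 h P)

theorem C3 (h : Nat.card G = 168) (P : Sylow 3 G) :
    centralizer ((P : Subgroup G) : Set G) = (P : Subgroup G) := by
  have n3 := (Cfsg.Agent.S1003.result h).2.1
  have hN : Nat.card (normalizer ((P : Subgroup G) : Set G)) = 3 * 2 := by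
    have := card_norm P
    rw [n3, h] at this
    omega
  exact cent_eq P (c3 h P) (by rw [h]; norm_num) 2 (by norm_num) hN

theorem o7 (h : Nat.card G = 168) (g : G) (hg : 7 ∣ orderOf g) : orderOf g = 7 := by
  haveI := f7
  exact ord_of_dvd (c7 h) (C7 h) g hg

theorem o3 (h : Nat.card G = 168) (g : G) (hg : 3 ∣ orderOf g) : orderOf g = 3 :=
  ord_of_dvd (c3 h) (C3 h) g hg

theorem N2 (h : Nat.card G = 168) (T : Sylow 2 G) :
    normalizer ((T : Subgroup G) : Set G) = (T : Subgroup G) := by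
  have n2 := (Cfsg.Agent.S1003.result h).1
  have hN := card_norm T
  rw [n2, h] at hN
  symm
  apply Subgroup.eq_of_le_of_card_ge Subgroup.le_normalizer
  rw [c2 h T]; omega

theorem nonab (h : Nat.card G = 168) (T : Sylow 2 G) :
    ¬ (∀ a ∈ (T : Subgroup G), ∀ b ∈ (T : Subgroup G), a * b = b * a) := by
  intro hab
  apply burn T (by rw [c2 h T]; norm_num) (by rw [c2 h T, h]; norm_num)
  rw [N2 h T]
  intro a ha
  rw [Subgroup.mem_centralizer_iff]
  intro b hb
  exact hab b hb a ha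

theorem orders (h : Nat.card G = 168) (g : G) :
    orderOf g = 1 ∨ orderOf g = 2 ∨ orderOf g = 3 ∨ orderOf g = 4 ∨ orderOf g = 7 := by
  by_cases h7 : 7 ∣ orderOf g
  · right; right; right; right; exact o7 h g h7
  by_cases h3 : 3 ∣ orderOf g
  · right; right; left; exact o3 h g h3
  have hd : orderOf g ∣ 168 := h ▸ orderOf_dvd_natCard g
  have hc7 : Nat.Coprime (orderOf g) 7 :=
    (Nat.Coprime.symm ((Nat.Prime.coprime_iff_not_dvd (by norm_num)).mpr h7))
  have hc3 : Nat.Coprime (orderOf g) 3 :=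
    (Nat.Coprime.symm ((Nat.Prime.coprime_iff_not_dvd (by norm_num)).mpr h3))
  have hc21 : Nat.Coprime (orderOf g) 21 := Nat.Coprime.mul_right hc7 hc3
  have hd8 : orderOf g ∣ 2 ^ 3 := hc21.dvd_of_dvd_mul_right (by simpa using hd)
  obtain ⟨k, hk3, hk⟩ := (Nat.dvd_prime_pow Nat.prime_two).mp hd8
  interval_cases k
  · left; simpa using hk
  · right; left; simpa using hk
  · right; right; right; left; simpa using hk
  · exfalso
    have hpg : IsPGroup 2 (zpowers g) := IsPGroup.of_card (n := 3) (by rw [Nat.card_zpowers, hk])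
    obtain ⟨T, hT⟩ := hpg.exists_le_sylow
    have hTe : zpowers g = (T : Subgroup G) := by
      apply Subgroup.eq_of_le_of_card_ge hT
      rw [Nat.card_zpowers, hk, c2 h T]; norm_num
    apply nonab h T
    intro a ha b hb
    rw [← hTe] at ha hb
    obtain ⟨i, rfl⟩ := Subgroup.mem_zpowers_iff.mp ha
    obtain ⟨j, rfl⟩ := Subgroup.mem_zpowers_iff.mp hb
    exact ((Commute.refl g).zpow_zpow i j).eq

theorem ord_T (h : Nat.card G = 168) (T : Sylow 2 G) (w : G) (hw : w ∈ (T : Subgroup G)) :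
    orderOf w = 1 ∨ orderOf w = 2 ∨ orderOf w = 4 := by
  have h1 : (⟨w, hw⟩ : (T : Subgroup G)) ^ Nat.card (T : Subgroup G) = 1 := pow_card_eq_one'
  rw [c2 h T] at h1
  have h2 : w ^ 8 = 1 := by simpa using congrArg Subtype.val h1
  have hd := orderOf_dvd_of_pow_eq_one h2
  rcases orders h w with h1 | h1 | h1 | h1 | h1
  · left; exact h1
  · right; left; exact h1
  · rw [h1] at hd; omega
  · right; right; exact h1
  · rw [h1] at hd; omega

theorem exact_cnt {p : ℕ} [Fact p.Prime] (c : ℕ)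
    (hP : ∀ P : Sylow p G, Nat.card (P : Subgroup G) = c)
    (hTI : ∀ Q Q' : Sylow p G, ∀ g : G, g ≠ 1 → g ∈ (Q : Subgroup G) →
      g ∈ (Q' : Subgroup G) → Q = Q') :
    (S G p).ncard = Nat.card (Sylow p G) * (c - 1) := by
  classical
  haveI := Fintype.ofFinite G
  haveI := Fintype.ofFinite (Sylow p G)
  have hS : S G p = ((Finset.univ : Finset (Sylow p G)).biUnion
      (fun Q => (Finset.univ.filter (fun x : G => x ∈ (Q : Subgroup G))).erase 1) : Finset G) := by
    ext g
    simp only [Finset.coe_biUnion, Finset.coe_univ, Set.mem_univ, Set.iUnion_true, Set.mem_iUnion,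
      Finset.mem_coe, Finset.mem_erase, Finset.mem_filter, Finset.mem_univ, true_and]
    constructor
    · rintro ⟨hg1, Q, hQ⟩
      exact ⟨Q, hg1, hQ⟩
    · rintro ⟨Q, hg1, hQ⟩
      exact ⟨hg1, Q, hQ⟩
  rw [hS, Set.ncard_coe_finset, Finset.card_biUnion]
  · rw [Finset.sum_const_nat (m := c - 1)]
    · rw [Finset.card_univ, Nat.card_eq_fintype_card]
    · intro Q _
      rw [Finset.card_erase_of_mem (by simp [one_mem])]
      have : (Finset.univ.filter (fun x : G => x ∈ (Q : Subgroup G))).card = c := by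
        rw [← hP Q, Nat.card_eq_fintype_card, Fintype.card_subtype]
      rw [this]
  · intro Q _ Q' _ hne
    rw [Function.onFun, Finset.disjoint_left]
    intro g hg hg'
    simp only [Finset.mem_erase, Finset.mem_filter, Finset.mem_univ, true_and] at hg hg'
    exact hne (hTI Q Q' g hg.1 hg.2 hg'.2)

theorem ord_prime {p : ℕ} [Fact p.Prime] (hP : ∀ P : Sylow p G, Nat.card (P : Subgroup G) = p)
    (Q : Sylow p G) (g : G) (hg1 : g ≠ 1) (hg : g ∈ (Q : Subgroup G)) : orderOf g = p := by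
  have hp := (Fact.out : p.Prime)
  have h1 : (⟨g, hg⟩ : (Q : Subgroup G)) ^ Nat.card (Q : Subgroup G) = 1 := pow_card_eq_one'
  rw [hP Q] at h1
  have h2 : g ^ p = 1 := by simpa using congrArg Subtype.val h1
  rcases (Nat.dvd_prime hp).mp (orderOf_dvd_of_pow_eq_one h2) with h3 | h3
  · exact absurd (orderOf_eq_one_iff.mp h3) hg1
  · exact h3

theorem TI_prime {p : ℕ} [Fact p.Prime] (hP : ∀ P : Sylow p G, Nat.card (P : Subgroup G) = p)
    (Q Q' : Sylow p G) (g : G) (hg1 : g ≠ 1) (hg : g ∈ (Q : Subgroup G))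
    (hg' : g ∈ (Q' : Subgroup G)) : Q = Q' := by
  have ho : orderOf g = p := ord_prime hP Q g hg1 hg
  have e1 : zpowers g = (Q : Subgroup G) :=
    Subgroup.eq_of_le_of_card_ge (Subgroup.zpowers_le.mpr hg) (by rw [Nat.card_zpowers, ho, hP Q])
  have e2 : zpowers g = (Q' : Subgroup G) :=
    Subgroup.eq_of_le_of_card_ge (Subgroup.zpowers_le.mpr hg') (by rw [Nat.card_zpowers, ho, hP Q'])
  exact Sylow.ext (e1.symm.trans e2)

theorem S_eq {p : ℕ} [Fact p.Prime] (hP : ∀ P : Sylow p G, Nat.card (P : Subgroup G) = p) :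
    S G p = {g : G | orderOf g = p} := by
  have hp := (Fact.out : p.Prime)
  ext g
  constructor
  · rintro ⟨hg1, Q, hg⟩
    exact ord_prime hP Q g hg1 hg
  · intro ho
    have ho' : orderOf g = p := ho
    have hg1 : g ≠ 1 := by
      rintro rfl
      rw [orderOf_one] at ho'
      exact hp.one_lt.ne ho'
    exact mem_S g hg1 1 (by rw [ho', pow_one])

theorem cnt7 (h : Nat.card G = 168) : Nat.card {g : G // orderOf g = 7} = 48 := by
  haveI := f7
  have h1 := exact_cnt 7 (c7 h) (TI_prime (c7 h))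
  rw [S_eq (c7 h), (Cfsg.Agent.S1003.result h).2.2] at h1
  exact (Nat.card_coe_set_eq {g : G | orderOf g = 7}).trans h1

theorem cnt3 (h : Nat.card G = 168) : Nat.card {g : G // orderOf g = 3} = 56 := by
  have h1 := exact_cnt 3 (c3 h) (TI_prime (c3 h))
  rw [S_eq (c3 h), (Cfsg.Agent.S1003.result h).2.1] at h1
  exact (Nat.card_coe_set_eq {g : G | orderOf g = 3}).trans h1

theorem cnt1 : Nat.card {g : G // orderOf g = 1} = 1 := by
  haveI : Unique {g : G // orderOf g = 1} :=
    ⟨⟨⟨1, orderOf_one⟩⟩, fun ⟨g, hg⟩ => Subtype.ext (orderOf_eq_one_iff.mp hg)⟩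
  exact Nat.card_unique

theorem cnt24 (h : Nat.card G = 168) :
    Nat.card {g : G // orderOf g = 2} + Nat.card {g : G // orderOf g = 4} = 63 := by
  classical
  haveI := Fintype.ofFinite G
  have hsum := Finset.card_eq_sum_card_fiberwise (f := fun g : G => orderOf g)
    (s := Finset.univ) (t := ({1, 2, 3, 4, 7} : Finset ℕ)) (fun g _ => by
      rcases orders h g with h1 | h1 | h1 | h1 | h1 <;> simp [h1])
  rw [Finset.card_univ, ← Nat.card_eq_fintype_card, h] at hsum
  have e : ∀ n : ℕ, (Finset.univ.filter (fun g : G => orderOf g = n)).card =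
      Nat.card {g : G // orderOf g = n} := by
    intro n
    rw [Nat.card_eq_fintype_card, Fintype.card_subtype]
  rw [Finset.sum_insert (by decide), Finset.sum_insert (by decide), Finset.sum_insert (by decide),
    Finset.sum_insert (by decide), Finset.sum_singleton] at hsum
  simp only [e] at hsum
  rw [cnt1, cnt3 h, cnt7 h] at hsum
  omega

theorem cent2 (h : Nat.card G = 168) (z : G) (hz : orderOf z = 2 ∨ orderOf z = 4) :
    ∃ k, k ≤ 3 ∧ Nat.card (centralizer ({z} : Set G)) = 2 ^ k := by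
  have hpg : IsPGroup 2 (centralizer ({z} : Set G)) := by
    rintro ⟨g, hg⟩
    have hcomm : Commute g z := (mem_cent_iff z g).mp hg
    have key : ∀ q : ℕ, orderOf g = q → Nat.Coprime q (orderOf z) → (q = 3 ∨ q = 7) → False := by
      intro q hq hco hq37
      have ho : orderOf (g * z) = orderOf g * orderOf z :=
        hcomm.orderOf_mul_eq_mul_orderOf_of_coprime (hq ▸ hco)
      have := orders h (g * z)
      rw [ho, hq] at this
      rcases hz with hz | hz <;> rcases hq37 with rfl | rfl <;> rw [hz] at this <;> omega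
    have hk : ∃ k : ℕ, orderOf g = 2 ^ k := by
      rcases orders h g with h1 | h1 | h1 | h1 | h1
      · exact ⟨0, by rw [h1]; norm_num⟩
      · exact ⟨1, by rw [h1]; norm_num⟩
      · exfalso
        exact key 3 h1 (by rcases hz with hz | hz <;> rw [hz] <;> decide) (Or.inl rfl)
      · exact ⟨2, by rw [h1]; norm_num⟩
      · exfalso
        exact key 7 h1 (by rcases hz with hz | hz <;> rw [hz] <;> decide) (Or.inr rfl)
    obtain ⟨k, hk⟩ := hk
    refine ⟨k, Subtype.ext ?_⟩
    simp only [Subgroup.coe_pow, Subgroup.coe_one]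
    rw [← hk]
    exact pow_orderOf_eq_one g
  obtain ⟨k, hk⟩ := IsPGroup.iff_card.mp hpg
  refine ⟨k, ?_, hk⟩
  by_contra hk3
  push_neg at hk3
  have hd : Nat.card (centralizer ({z} : Set G)) ∣ 168 := h ▸ Subgroup.card_subgroup_dvd_card _
  rw [hk] at hd
  have h16 : 2 ^ 4 ∣ 2 ^ k := pow_dvd_pow 2 hk3
  have : (2 : ℕ) ^ 4 ∣ 168 := h16.trans hd
  revert this
  decide

theorem cen_sylow (h : Nat.card G = 168) (z : G)
    (hc : Nat.card (centralizer ({z} : Set G)) = 8) :
    ∃ T : Sylow 2 G, centralizer ({z} : Set G) = (T : Subgroup G) := by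
  have hpg : IsPGroup 2 (centralizer ({z} : Set G)) :=
    IsPGroup.of_card (n := 3) (by rw [hc]; norm_num)
  obtain ⟨T, hT⟩ := hpg.exists_le_sylow
  exact ⟨T, Subgroup.eq_of_le_of_card_ge hT (by rw [hc, c2 h T])⟩

theorem cen_unique (h : Nat.card G = 168) (T : Sylow 2 G) (z z' : G)
    (hz : z ∈ (T : Subgroup G)) (hz' : z' ∈ (T : Subgroup G)) (hz1 : z ≠ 1) (hz1' : z' ≠ 1)
    (hcz : ∀ t ∈ (T : Subgroup G), t * z = z * t)
    (hcz' : ∀ t ∈ (T : Subgroup G), t * z' = z' * t) : z = z' := by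
  obtain ⟨Z, hZ⟩ : ∃ Z : Subgroup (T : Subgroup G), Z = Subgroup.center (T : Subgroup G) :=
    ⟨_, rfl⟩
  have hcard : Nat.card Z * Z.index = 8 := by rw [Subgroup.card_mul_index, c2 h T]
  haveI : Z.Normal := by rw [hZ]; infer_instance
  have hidx : Nat.card ((T : Subgroup G) ⧸ Z) = Z.index := rfl
  have hnc : ¬ IsCyclic ((T : Subgroup G) ⧸ Z) := by
    intro hcyc
    apply nonab h T
    intro a ha b hb
    have := commutative_of_cyclic_center_quotient (QuotientGroup.mk' Z)
      (by rw [QuotientGroup.ker_mk', hZ]) ⟨a, ha⟩ ⟨b, hb⟩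
    exact congrArg Subtype.val this
  have hi1 : Z.index ≠ 1 := by
    intro h1
    apply hnc
    haveI : Subsingleton ((T : Subgroup G) ⧸ Z) :=
      (Nat.card_eq_one_iff_unique.mp (hidx.trans h1)).1
    exact isCyclic_of_subsingleton
  have hi2 : Z.index ≠ 2 := by
    intro h2
    apply hnc
    exact isCyclic_of_prime_card (p := 2) (hidx.trans h2)
  have hZ2 : Nat.card Z = 2 ∨ Nat.card Z = 1 := by
    have hdvd : Z.index ∣ 8 := ⟨Nat.card Z, by rw [← hcard, mul_comm]⟩
    have hle : Z.index ≤ 8 := Nat.le_of_dvd (by norm_num) hdvd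
    interval_cases hZi : Z.index <;> omega
  have hzZ : (⟨z, hz⟩ : (T : Subgroup G)) ∈ Z := by
    rw [hZ, Subgroup.mem_center_iff]
    rintro ⟨t, ht⟩
    exact Subtype.ext (hcz t ht)
  have hzZ' : (⟨z', hz'⟩ : (T : Subgroup G)) ∈ Z := by
    rw [hZ, Subgroup.mem_center_iff]
    rintro ⟨t, ht⟩
    exact Subtype.ext (hcz' t ht)
  rcases hZ2 with h2 | h1
  · obtain ⟨y, hy1, hy2⟩ := (Nat.card_eq_two_iff' (1 : Z)).mp h2
    have e1 : (⟨⟨z, hz⟩, hzZ⟩ : Z) = y := hy2 _ (fun hh => hz1 (by
      simpa using congrArg (fun w : Z => ((w : (T : Subgroup G)) : G)) hh))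
    have e2 : (⟨⟨z', hz'⟩, hzZ'⟩ : Z) = y := hy2 _ (fun hh => hz1' (by
      simpa using congrArg (fun w : Z => ((w : (T : Subgroup G)) : G)) hh))
    have := e1.trans e2.symm
    simpa using congrArg (fun w : Z => ((w : (T : Subgroup G)) : G)) this
  · exfalso
    haveI : Subsingleton Z := (Nat.card_eq_one_iff_unique.mp h1).1
    have : (⟨⟨z, hz⟩, hzZ⟩ : Z) = 1 := Subsingleton.elim _ _
    exact hz1 (by simpa using congrArg (fun w : Z => ((w : (T : Subgroup G)) : G)) this)

theorem cent_of_central (h : Nat.card G = 168) (T : Sylow 2 G) (z : G)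
    (ho : orderOf z = 2 ∨ orderOf z = 4) (hzc : ∀ t ∈ (T : Subgroup G), t * z = z * t) :
    centralizer ({z} : Set G) = (T : Subgroup G) := by
  obtain ⟨k, hk3, hk⟩ := cent2 h z ho
  have hle : (T : Subgroup G) ≤ centralizer ({z} : Set G) := fun t ht =>
    (mem_cent_iff z t).mpr (hzc t ht)
  symm
  apply Subgroup.eq_of_le_of_card_ge hle
  rw [hk, c2 h T]
  calc 2 ^ k ≤ 2 ^ 3 := Nat.pow_le_pow_right (by norm_num) hk3
    _ = 8 := by norm_num

theorem exists_cen (h : Nat.card G = 168) (T : Sylow 2 G) :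
    ∃ z ∈ (T : Subgroup G), orderOf z = 2 ∧ centralizer ({z} : Set G) = (T : Subgroup G) := by
  haveI : Nontrivial (T : Subgroup G) := by
    apply (Finite.one_lt_card_iff_nontrivial).mp
    rw [c2 h T]; norm_num
  haveI := IsPGroup.center_nontrivial T.2
  obtain ⟨⟨⟨w, hwT⟩, hwZ⟩, hw1⟩ := exists_ne (1 : Subgroup.center (T : Subgroup G))
  have hw1' : w ≠ 1 := fun hh => hw1 (Subtype.ext (Subtype.ext hh))
  have hwc : ∀ t ∈ (T : Subgroup G), t * w = w * t := fun t ht =>
    congrArg Subtype.val (Subgroup.mem_center_iff.mp hwZ ⟨t, ht⟩)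
  rcases ord_T h T w hwT with h1 | h1 | h1
  · exact absurd (orderOf_eq_one_iff.mp h1) hw1'
  · exact ⟨w, hwT, h1, cent_of_central h T w (Or.inl h1) hwc⟩
  · have ho2 : orderOf (w ^ 2) = 2 := by
      rw [orderOf_pow_of_dvd (by norm_num) (by rw [h1]; norm_num), h1]
    exact ⟨w ^ 2, Subgroup.pow_mem _ hwT 2, ho2, cent_of_central h T (w ^ 2) (Or.inl ho2)
      (fun t ht => ((show Commute t w from hwc t ht).pow_right 2).eq)⟩

/-- "central" involutions: those whose centralizer is a Sylow 2-subgroup -/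
def Cen (z : G) : Prop := orderOf z = 2 ∧ Nat.card (centralizer ({z} : Set G)) = 8

theorem orderOf_conj (c x : G) : orderOf (c * x * c⁻¹) = orderOf x := by
  have := (MulAut.conj c).orderOf_eq x
  rwa [MulAut.conj_apply] at this

theorem card_cent_conj (x y : G) (hxy : IsConj x y) :
    Nat.card (centralizer ({y} : Set G)) = Nat.card (centralizer ({x} : Set G)) := by
  have h1 := Cfsg.Agent.Lib.Helper1.card_eq_card_conj_mul_card_centralizer x
  have h2 := Cfsg.Agent.Lib.Helper1.card_eq_card_conj_mul_card_centralizer y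
  have e : Nat.card {u : G // IsConj x u} = Nat.card {u : G // IsConj y u} :=
    Nat.card_congr (Equiv.subtypeEquivRight (fun u =>
      ⟨fun hu => hxy.symm.trans hu, fun hu => hxy.trans hu⟩))
  rw [e] at h1
  have hpos : 0 < Nat.card {u : G // IsConj y u} :=
    Nat.card_pos_iff.mpr ⟨⟨⟨y, IsConj.refl y⟩⟩, inferInstance⟩
  exact Nat.eq_of_mul_eq_mul_left hpos (h2.symm.trans h1)

theorem cen_of_conj (z u : G) (hz : Cen z) (hzu : IsConj z u) : Cen u := by
  refine ⟨?_, ?_⟩
  · obtain ⟨c, rfl⟩ := isConj_iff.mp hzu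
    rw [orderOf_conj]; exact hz.1
  · rw [card_cent_conj z _ hzu]; exact hz.2

theorem ne_one_of_order {x : G} {n : ℕ} (hx : orderOf x = n) (hn : 2 ≤ n) : x ≠ 1 := by
  rintro rfl
  rw [orderOf_one] at hx
  omega

theorem cen_conj (h : Nat.card G = 168) (z z' : G) (hz : Cen z) (hz' : Cen z') :
    IsConj z z' := by
  obtain ⟨T, hT⟩ := cen_sylow h z hz.2
  obtain ⟨T', hT'⟩ := cen_sylow h z' hz'.2
  obtain ⟨g, hg⟩ := MulAction.exists_smul_eq G T T'
  have hmem : ∀ y : G, y ∈ (T' : Subgroup G) ↔ g⁻¹ * y * g ∈ (T : Subgroup G) := by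
    intro y; rw [← hg]; exact SylowConj.mem_smul_sylow T g y
  have hzT : z ∈ (T : Subgroup G) := by rw [← hT, mem_cent_iff]
  have hzT' : z' ∈ (T' : Subgroup G) := by rw [← hT', mem_cent_iff]
  have hcz : ∀ t ∈ (T : Subgroup G), t * z = z * t := fun t ht =>
    (mem_cent_iff z t).mp (by rw [hT]; exact ht)
  have hcz' : ∀ t ∈ (T' : Subgroup G), t * z' = z' * t := fun t ht =>
    (mem_cent_iff z' t).mp (by rw [hT']; exact ht)
  have h1 : g * z * g⁻¹ ∈ (T' : Subgroup G) := by
    rw [hmem]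
    have : g⁻¹ * (g * z * g⁻¹) * g = z := by group
    rw [this]; exact hzT
  have h2 : ∀ t ∈ (T' : Subgroup G), t * (g * z * g⁻¹) = (g * z * g⁻¹) * t := by
    intro t ht
    have := hcz _ ((hmem t).mp ht)
    calc t * (g * z * g⁻¹) = g * ((g⁻¹ * t * g) * z) * g⁻¹ := by group
      _ = g * (z * (g⁻¹ * t * g)) * g⁻¹ := by rw [this]
      _ = (g * z * g⁻¹) * t := by group
  have hz1 : z ≠ 1 := ne_one_of_order hz.1 (by norm_num)
  have hz1' : z' ≠ 1 := ne_one_of_order hz'.1 (by norm_num)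
  have h3 : g * z * g⁻¹ ≠ 1 := by
    apply ne_one_of_order (n := 2) _ (by norm_num)
    rw [orderOf_conj]; exact hz.1
  have := cen_unique h T' (g * z * g⁻¹) z' h1 hzT' h3 hz1' h2 hcz'
  exact isConj_iff.mpr ⟨g, this⟩

theorem cen_card (h : Nat.card G = 168) (z : G) (hz : Cen z) :
    Nat.card {u : G // IsConj z u} = 21 := by
  have h1 := Cfsg.Agent.Lib.Helper1.card_eq_card_conj_mul_card_centralizer z
  rw [h, hz.2] at h1
  omega

theorem cls42 (h : Nat.card G = 168) (x : G) (k : ℕ) (hk2 : k ≤ 2)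
    (hk : Nat.card (centralizer ({x} : Set G)) = 2 ^ k) :
    42 ≤ Nat.card {u : G // IsConj x u} := by
  have hcl := Cfsg.Agent.Lib.Helper1.card_eq_card_conj_mul_card_centralizer x
  rw [h, hk] at hcl
  have h4 : 2 ^ k ≤ 4 := by
    calc 2 ^ k ≤ 2 ^ 2 := Nat.pow_le_pow_right (by norm_num) hk2
      _ = 4 := by norm_num
  by_contra hlt
  push_neg at hlt
  have h41 : Nat.card {u : G // IsConj x u} ≤ 41 := by omega
  have := Nat.mul_le_mul h41 h4
  rw [← hcl] at this
  omega

theorem inv_cen (h : Nat.card G = 168) (t : G) (ht : orderOf t = 2) : Cen t := by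
  by_contra hnc
  obtain ⟨T⟩ : Nonempty (Sylow 2 G) := inferInstance
  obtain ⟨z, hzT, hz2, hzC⟩ := exists_cen h T
  have hz : Cen z := ⟨hz2, by rw [hzC, c2 h T]⟩
  obtain ⟨k, hk3, hk⟩ := cent2 h t (Or.inl ht)
  have hk2 : k ≤ 2 := by
    by_contra hh
    have : k = 3 := by omega
    subst this
    exact hnc ⟨ht, by rw [hk]; norm_num⟩
  have hcl42 := cls42 h t k hk2 hk
  have hz21 := cen_card h z hz
  have hcount : 63 ≤ Nat.card {g : G // orderOf g = 2} := by
    have hdisj : Disjoint {u : G | IsConj z u} {u : G | IsConj t u} := by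
      rw [Set.disjoint_left]
      intro u hu1 hu2
      exact hnc (cen_of_conj z t hz (IsConj.trans hu1 (IsConj.symm hu2)))
    have hsub : {u : G | IsConj z u} ∪ {u : G | IsConj t u} ⊆ {g : G | orderOf g = 2} := by
      rintro u (hu | hu)
      · exact (cen_of_conj z u hz hu).1
      · obtain ⟨c, rfl⟩ := isConj_iff.mp hu
        exact (orderOf_conj c t).trans ht
    have h1 := Set.ncard_le_ncard hsub (Set.toFinite _)
    rw [Set.ncard_union_eq hdisj (Set.toFinite _) (Set.toFinite _)] at h1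
    have e1 : ({u : G | IsConj z u}).ncard = 21 := (Nat.card_coe_set_eq _).symm.trans hz21
    have e2 : ({u : G | IsConj t u}).ncard = Nat.card {u : G // IsConj t u} :=
      (Nat.card_coe_set_eq _).symm
    have e3 : ({g : G | orderOf g = 2}).ncard = Nat.card {g : G // orderOf g = 2} :=
      (Nat.card_coe_set_eq _).symm
    omega
  have h24 := cnt24 h
  have h4 : Nat.card {g : G // orderOf g = 4} = 0 := by omega
  apply nonab h T
  have hexp : ∀ a ∈ (T : Subgroup G), a * a = 1 := by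
    intro a ha
    rcases ord_T h T a ha with h1 | h1 | h1
    · rw [orderOf_eq_one_iff.mp h1, one_mul]
    · rw [← pow_two, ← h1]; exact pow_orderOf_eq_one a
    · exfalso
      haveI : Nonempty {g : G // orderOf g = 4} := ⟨⟨a, h1⟩⟩
      have := Nat.card_pos (α := {g : G // orderOf g = 4})
      omega
  intro a ha b hb
  have h1 := hexp a ha
  have h2 := hexp b hb
  have h3 := hexp (a * b) (Subgroup.mul_mem _ ha hb)
  have ha' : a⁻¹ = a := inv_eq_of_mul_eq_one_right h1
  have hb' : b⁻¹ = b := inv_eq_of_mul_eq_one_right h2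
  have hab' : (a * b)⁻¹ = a * b := inv_eq_of_mul_eq_one_right h3
  rw [mul_inv_rev, ha', hb'] at hab'
  exact hab'.symm

theorem exists_cen' (h : Nat.card G = 168) : ∃ z : G, Cen z := by
  obtain ⟨T⟩ : Nonempty (Sylow 2 G) := inferInstance
  obtain ⟨z, hzT, hz2, hzC⟩ := exists_cen h T
  exact ⟨z, hz2, by rw [hzC, c2 h T]⟩

theorem inv_count (h : Nat.card G = 168) : Nat.card {g : G // orderOf g = 2} = 21 := by
  obtain ⟨z, hz⟩ := exists_cen' h
  rw [← cen_card h z hz]
  apply Nat.card_congr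
  exact Equiv.subtypeEquivRight (fun u =>
    ⟨fun hu => cen_conj h z u hz (inv_cen h u hu), fun hu => (cen_of_conj z u hz hu).1⟩)

theorem inv_conj (h : Nat.card G = 168) (s t : G) (hs : orderOf s = 2) (ht : orderOf t = 2) :
    IsConj s t :=
  cen_conj h s t (inv_cen h s hs) (inv_cen h t ht)

theorem four_count (h : Nat.card G = 168) : Nat.card {g : G // orderOf g = 4} = 42 := by
  have := cnt24 h
  have := inv_count h
  omega

theorem four_cent (h : Nat.card G = 168) (x : G) (hx : orderOf x = 4) :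
    ∃ k, k ≤ 2 ∧ Nat.card (centralizer ({x} : Set G)) = 2 ^ k := by
  obtain ⟨k, hk3, hk⟩ := cent2 h x (Or.inr hx)
  refine ⟨k, ?_, hk⟩
  by_contra hh
  have : k = 3 := by omega
  subst this
  obtain ⟨T, hT⟩ := cen_sylow h x (by rw [hk]; norm_num)
  have hxT : x ∈ (T : Subgroup G) := by rw [← hT, mem_cent_iff]
  have hcx : ∀ t ∈ (T : Subgroup G), t * x = x * t := fun t ht =>
    (mem_cent_iff x t).mp (by rw [hT]; exact ht)
  have hx1 : x ≠ 1 := ne_one_of_order hx (by norm_num)
  have hx21 : x ^ 2 ≠ 1 := fun hh => by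
    have := orderOf_dvd_of_pow_eq_one hh
    rw [hx] at this
    omega
  have := cen_unique h T x (x ^ 2) hxT (Subgroup.pow_mem _ hxT 2) hx1 hx21 hcx
    (fun t ht => ((show Commute t x from hcx t ht).pow_right 2).eq)
  apply hx1
  have h2 : x * 1 = x * x := by rw [mul_one, ← pow_two]; exact this
  exact (mul_left_cancel h2).symm

theorem four_conj (h : Nat.card G = 168) (x y : G) (hx : orderOf x = 4) (hy : orderOf y = 4) :
    IsConj x y := by
  obtain ⟨k, hk2, hk⟩ := four_cent h x hx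
  have hcl42 := cls42 h x k hk2 hk
  have h4 := four_count h
  have hsub : {u : G | IsConj x u} ⊆ {g : G | orderOf g = 4} := by
    intro u hu
    obtain ⟨c, rfl⟩ := isConj_iff.mp hu
    exact (orderOf_conj c x).trans hx
  have e1 : ({g : G | orderOf g = 4}).ncard = 42 := (Nat.card_coe_set_eq _).symm.trans h4
  have e2 : ({u : G | IsConj x u}).ncard = Nat.card {u : G // IsConj x u} :=
    (Nat.card_coe_set_eq _).symm
  have heq := Set.eq_of_subset_of_ncard_le hsub (by omega) (Set.toFinite _)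
  have : y ∈ {u : G | IsConj x u} := by rw [heq]; exact hy
  exact this

theorem zp3 (y w : G) (hy : orderOf y = 3) (hw : w ∈ zpowers y) :
    w = 1 ∨ w = y ∨ w = y⁻¹ := by
  obtain ⟨k, hk⟩ := Subgroup.mem_zpowers_iff.mp hw
  have h3 : y ^ (3 : ℤ) = 1 := by
    have := pow_orderOf_eq_one y
    rw [hy] at this
    exact_mod_cast this
  have hk' : y ^ k = y ^ (k % 3) := by
    conv_lhs => rw [← Int.emod_add_mul_ediv k 3]
    rw [zpow_add, zpow_mul, h3, one_zpow, mul_one]
  have h0 : 0 ≤ k % 3 := Int.emod_nonneg k (by norm_num)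
  have h3' : k % 3 < 3 := Int.emod_lt_of_pos k (by norm_num)
  rw [hk'] at hk
  interval_cases hr : k % 3
  · left; rw [← hk]; simp
  · right; left; rw [← hk]; simp
  · right; right; rw [← hk]
    have : y ^ (2 : ℤ) * y = 1 := by
      have e : y ^ (2 : ℤ) * y = y ^ (3 : ℤ) := by
        rw [show (3 : ℤ) = 2 + 1 from rfl, zpow_add_one]
      rw [e, h3]
    exact eq_inv_of_mul_eq_one_left this

theorem three_inv (h : Nat.card G = 168) (x : G) (hx : orderOf x = 3) : IsConj x x⁻¹ := by
  have hpx : IsPGroup 3 (zpowers x) :=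
    IsPGroup.of_card (n := 1) (by rw [Nat.card_zpowers, hx, pow_one])
  obtain ⟨P, hP⟩ := hpx.exists_le_sylow
  have hPe : zpowers x = (P : Subgroup G) :=
    Subgroup.eq_of_le_of_card_ge hP (by rw [Nat.card_zpowers, hx, c3 h P])
  have hnot : ¬ (normalizer ((P : Subgroup G) : Set G) ≤ centralizer ((P : Subgroup G) : Set G)) :=
    burn P (by rw [c3 h P]; norm_num) (by rw [c3 h P, h]; norm_num)
  rw [SetLike.not_le_iff_exists] at hnot
  obtain ⟨n, hnN, hnC⟩ := hnot
  have h1 : n * x * n⁻¹ ∈ zpowers x := by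
    rw [hPe]
    exact (Subgroup.mem_normalizer_iff.mp hnN x).mp (by rw [← hPe]; exact Subgroup.mem_zpowers x)
  rcases zp3 x _ hx h1 with h2 | h2 | h2
  · exfalso
    have hx1 : x ≠ 1 := ne_one_of_order hx (by norm_num)
    apply hx1
    have : x = n⁻¹ * (n * x * n⁻¹) * n := by group
    rw [this, h2]; group
  · exfalso
    apply hnC
    rw [Subgroup.mem_centralizer_iff]
    intro b hb
    rw [SetLike.mem_coe, ← hPe] at hb
    obtain ⟨j, rfl⟩ := Subgroup.mem_zpowers_iff.mp hb
    have hc : Commute n x := by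
      show n * x = x * n
      calc n * x = (n * x * n⁻¹) * n := by group
        _ = x * n := by rw [h2]
    exact (hc.zpow_right j).eq.symm
  · exact isConj_iff.mpr ⟨n, h2⟩

theorem three_conj (h : Nat.card G = 168) (x y : G) (hx : orderOf x = 3) (hy : orderOf y = 3) :
    IsConj x y := by
  have hpx : IsPGroup 3 (zpowers x) :=
    IsPGroup.of_card (n := 1) (by rw [Nat.card_zpowers, hx, pow_one])
  have hpy : IsPGroup 3 (zpowers y) :=
    IsPGroup.of_card (n := 1) (by rw [Nat.card_zpowers, hy, pow_one])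
  obtain ⟨P, hP⟩ := hpx.exists_le_sylow
  obtain ⟨Q, hQ⟩ := hpy.exists_le_sylow
  have hPe : zpowers x = (P : Subgroup G) :=
    Subgroup.eq_of_le_of_card_ge hP (by rw [Nat.card_zpowers, hx, c3 h P])
  have hQe : zpowers y = (Q : Subgroup G) :=
    Subgroup.eq_of_le_of_card_ge hQ (by rw [Nat.card_zpowers, hy, c3 h Q])
  obtain ⟨g, hg⟩ := MulAction.exists_smul_eq G P Q
  have hmem : ∀ w : G, w ∈ (Q : Subgroup G) ↔ g⁻¹ * w * g ∈ (P : Subgroup G) := by
    intro w; rw [← hg]; exact SylowConj.mem_smul_sylow P g w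
  have h1 : g * x * g⁻¹ ∈ zpowers y := by
    rw [hQe, hmem]
    have : g⁻¹ * (g * x * g⁻¹) * g = x := by group
    rw [this, ← hPe]; exact Subgroup.mem_zpowers x
  rcases zp3 y _ hy h1 with h2 | h2 | h2
  · exfalso
    have h3 : g * x * g⁻¹ ≠ 1 := by
      apply ne_one_of_order (n := 3) _ (by norm_num)
      rw [orderOf_conj]; exact hx
    exact h3 h2
  · exact isConj_iff.mpr ⟨g, h2⟩
  · exact (isConj_iff.mpr ⟨g, h2⟩ : IsConj x y⁻¹).trans (three_inv h y hy).symm

theorem cent7 (h : Nat.card G = 168) (x : G) (hx : orderOf x = 7) :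
    ∃ P : Sylow 7 G, zpowers x = (P : Subgroup G) ∧ centralizer ({x} : Set G) = zpowers x := by
  haveI := f7
  have hpx : IsPGroup 7 (zpowers x) :=
    IsPGroup.of_card (n := 1) (by rw [Nat.card_zpowers, hx, pow_one])
  obtain ⟨P, hP⟩ := hpx.exists_le_sylow
  have hPe : zpowers x = (P : Subgroup G) :=
    Subgroup.eq_of_le_of_card_ge hP (by rw [Nat.card_zpowers, hx, c7 h P])
  refine ⟨P, hPe, ?_⟩
  rw [hPe, ← C7 h P]
  ext g
  rw [mem_cent_iff, Subgroup.mem_centralizer_iff]
  constructor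
  · intro hg b hb
    rw [SetLike.mem_coe, ← hPe] at hb
    obtain ⟨j, rfl⟩ := Subgroup.mem_zpowers_iff.mp hb
    exact ((show Commute g x from hg).zpow_right j).eq.symm
  · intro hg
    exact (hg x (by rw [SetLike.mem_coe, ← hPe]; exact Subgroup.mem_zpowers x)).symm

theorem seven_class (h : Nat.card G = 168) (x : G) (hx : orderOf x = 7) :
    Nat.card {g : G // IsConj x g} = 24 ∧ ¬ IsConj x x⁻¹ := by
  haveI := f7
  obtain ⟨P, hPe, hC⟩ := cent7 h x hx
  constructor
  · have h1 := Cfsg.Agent.Lib.Helper1.card_eq_card_conj_mul_card_centralizer x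
    rw [h, hC, Nat.card_zpowers, hx] at h1
    omega
  · intro hconj
    obtain ⟨g, hg⟩ := isConj_iff.mp hconj
    have e1 : g * x = x⁻¹ * g := by rw [← hg]; group
    have e2 : g * x⁻¹ = x * g := by
      have e3 : g * x⁻¹ * g⁻¹ = x := by
        have : g * x⁻¹ * g⁻¹ = (g * x * g⁻¹)⁻¹ := by group
        rw [this, hg, inv_inv]
      calc g * x⁻¹ = (g * x⁻¹ * g⁻¹) * g := by group
        _ = x * g := by rw [e3]
    have h2 : g ^ 2 * x = x * g ^ 2 := by
      calc g ^ 2 * x = g * (g * x) := by rw [pow_two, mul_assoc]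
        _ = g * (x⁻¹ * g) := by rw [e1]
        _ = (g * x⁻¹) * g := by rw [mul_assoc]
        _ = x * g * g := by rw [e2]
        _ = x * g ^ 2 := by rw [pow_two, mul_assoc]
    have hg2 : g ^ 2 ∈ zpowers x := by rw [← hC, mem_cent_iff]; exact h2
    have h14 : g ^ 14 = 1 := by
      have : (g ^ 2) ^ 7 = 1 := by
        obtain ⟨j, hj⟩ := Subgroup.mem_zpowers_iff.mp hg2
        rw [← hj, ← zpow_natCast, ← zpow_mul, mul_comm, zpow_mul, zpow_natCast, ← hx,
          pow_orderOf_eq_one, one_zpow]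
      rwa [← pow_mul] at this
    -- g normalises P
    have hle : ((g • P : Sylow 7 G) : Subgroup G) ≤ (P : Subgroup G) := by
      intro w hw
      rw [SylowConj.mem_smul_sylow, ← hPe] at hw
      obtain ⟨j, hj⟩ := Subgroup.mem_zpowers_iff.mp hw
      have : w = (g * x * g⁻¹) ^ j := by
        have e : (g * x * g⁻¹) ^ j = g * x ^ j * g⁻¹ := by
          have := map_zpow (MulAut.conj g) x j
          simpa [MulAut.conj_apply] using this.symm
        rw [e, hj]; group
      rw [this, hg, ← hPe]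
      exact Subgroup.zpow_mem _ (Subgroup.inv_mem _ (Subgroup.mem_zpowers x)) j
    have hgP : g • P = P :=
      Sylow.ext (Subgroup.eq_of_le_of_card_ge hle (by rw [c7 h P, c7 h (g • P)]))
    have hgN : g ∈ normalizer ((P : Subgroup G) : Set G) := Sylow.smul_eq_iff_mem_normalizer.mp hgP
    have h21 : g ^ 21 = 1 := by
      have h1 : (⟨g, hgN⟩ : normalizer ((P : Subgroup G) : Set G)) ^
          Nat.card (normalizer ((P : Subgroup G) : Set G)) = 1 := pow_card_eq_one'
      rw [N7 h P] at h1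
      simpa using congrArg Subtype.val h1
    have h7 : g ^ 7 = 1 := by
      have hd := Nat.dvd_gcd (orderOf_dvd_of_pow_eq_one h14) (orderOf_dvd_of_pow_eq_one h21)
      have e : Nat.gcd 14 21 = 7 := by decide
      rw [e] at hd
      exact orderOf_dvd_iff_pow_eq_one.mp hd
    have hgz : g ∈ zpowers x := by
      have : g = (g ^ 2) ^ 4 := by
        rw [← pow_mul]
        calc g = g ^ 7 * g := by rw [h7, one_mul]
          _ = g ^ (2 * 4) := by rw [← pow_succ]
      rw [this]
      exact Subgroup.pow_mem _ hg2 4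
    rw [← hC, mem_cent_iff] at hgz
    have hxx : x = x⁻¹ := by
      rw [← hg, hgz]; group
    have hx2 : x ^ 2 = 1 := by
      rw [pow_two]
      calc x * x = x * x⁻¹ := by rw [← hxx]
        _ = 1 := mul_inv_cancel x
    have := orderOf_dvd_of_pow_eq_one hx2
    rw [hx] at this
    omega

end Cfsg.Agent.Lib.Helper6.G168
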