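import Mathlib
import Cfsg.Agent.Lib.Helper6.G168
import Cfsg.Agent.S1004

set_option autoImplicit false

namespace Cfsg.Agent.Lib.Helper6.G168b

open Subgroup Cfsg.Agent.S1003 Cfsg.Agent.Lib.Helper6.G168 Cfsg.Agent.S1004

theorem idx2 {G : Type*} [Group G] [Finite G] (K H : Subgroup G) (hKH : K ≤ H)
    (hcard : Nat.card H = 2 * Nat.card K) :
    (∀ h ∈ H, ∀ k ∈ K, h * k * h⁻¹ ∈ K) ∧
      (∀ x ∈ H, ∀ y ∈ H, (x * y ∈ K ↔ (x ∈ K ↔ y ∈ K))) := by
  have hidx : (K.subgroupOf H).index = 2 := by
    have h1 := Subgroup.card_mul_index (K.subgroupOf H)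
    rw [Nat.card_congr (Subgroup.subgroupOfEquivOfLe hKH).toEquiv, hcard] at h1
    have hpos : 0 < Nat.card K := Nat.card_pos
    exact Nat.eq_of_mul_eq_mul_left hpos (by rw [h1, mul_comm])
  have hN : (K.subgroupOf H).Normal := Subgroup.normal_of_index_eq_two hidx
  constructor
  · intro h hh k hk
    have := hN.conj_mem ⟨k, hKH hk⟩ (Subgroup.mem_subgroupOf.mpr hk) ⟨h, hh⟩
    exact Subgroup.mem_subgroupOf.mp this
  · intro x hx y hy
    have := Subgroup.mul_mem_iff_of_index_two hidx (a := ⟨x, hx⟩) (b := ⟨y, hy⟩)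
    simpa [Subgroup.mem_subgroupOf] using this

theorem mem_norm_of {G : Type*} [Group G] (U : Subgroup G) (x : G)
    (h1 : ∀ u ∈ U, x * u * x⁻¹ ∈ U) (h2 : ∀ u ∈ U, x⁻¹ * u * x ∈ U) :
    x ∈ normalizer (U : Set G) := by
  rw [Subgroup.mem_normalizer_iff]
  intro w
  constructor
  · exact h1 w
  · intro hw
    have := h2 _ hw
    have e : x⁻¹ * (x * w * x⁻¹) * x = w := by group
    rwa [e] at this

theorem kf_card {G : Type*} [Group G] (U : Subgroup G) [IsKleinFour U] : Nat.card U = 4 :=
  IsKleinFour.card_four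

theorem kf_sq {G : Type*} [Group G] (U : Subgroup G) [IsKleinFour U] (u : G) (hu : u ∈ U) :
    u * u = 1 := by
  have h1 : (⟨u, hu⟩ : U) ^ Monoid.exponent U = 1 := Monoid.pow_exponent_eq_one _
  rw [IsKleinFour.exponent_two, pow_two] at h1
  exact congrArg Subtype.val h1

theorem comm_of_sq {G : Type*} [Group G] (a b : G) (h1 : a * a = 1) (h2 : b * b = 1)
    (h3 : (a * b) * (a * b) = 1) : a * b = b * a := by
  have ha' : a⁻¹ = a := inv_eq_of_mul_eq_one_right h1
  have hb' : b⁻¹ = b := inv_eq_of_mul_eq_one_right h2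
  have hab' : (a * b)⁻¹ = a * b := inv_eq_of_mul_eq_one_right h3
  rw [mul_inv_rev, ha', hb'] at hab'
  exact hab'.symm

theorem kf_comm {G : Type*} [Group G] (U : Subgroup G) [IsKleinFour U] (u v : G) (hu : u ∈ U)
    (hv : v ∈ U) : u * v = v * u :=
  comm_of_sq u v (kf_sq U u hu) (kf_sq U v hv) (kf_sq U _ (Subgroup.mul_mem _ hu hv))

theorem kf_of {G : Type*} [Group G] [Finite G] (U : Subgroup G) (hcard : Nat.card U = 4)
    (hexp : ∀ u ∈ U, u * u = 1) : IsKleinFour U := by
  refine ⟨hcard, ?_⟩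
  have hd : Monoid.exponent U ∣ 2 := Monoid.exponent_dvd_of_forall_pow_eq_one
    (fun ⟨u, hu⟩ => Subtype.ext (by simp [pow_two, hexp u hu]))
  rcases (Nat.dvd_prime Nat.prime_two).mp hd with h1 | h2
  · exfalso
    haveI := Monoid.exp_eq_one_iff.mp h1
    have : Nat.card U ≤ 1 := Finite.card_le_one_iff_subsingleton.mpr inferInstance
    omega
  · exact h2

/-- third element argument: a subgroup with more than two elements has an element outside
any given pair -/
theorem exists_third {G : Type*} [Group G] [Finite G] (U : Subgroup G) (hcard : 3 ≤ Nat.card U)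
    (x : G) : ∃ t ∈ U, t ≠ 1 ∧ t ≠ x := by
  by_contra hno
  push_neg at hno
  have hsub : (U : Set G) ⊆ {1, x} := by
    intro t ht
    by_cases h1 : t = 1
    · left; exact h1
    · right; exact hno t ht h1
  have h1 := Set.ncard_le_ncard hsub (Set.toFinite _)
  have h2 := Set.ncard_insert_le (1 : G) {x}
  rw [Set.ncard_singleton] at h2
  have h3 : (U : Set G).ncard = Nat.card U := (Nat.card_coe_set_eq _).symm
  omega

/-- the four-group generated by two commuting involutions -/
def V4 {G : Type*} [Group G] (z t : G) (hz : z * z = 1) (ht : t * t = 1) (hc : z * t = t * z) :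
    Subgroup G where
  carrier := {1, z, t, z * t}
  mul_mem' := by
    have hz' : ∀ x : G, z * (z * x) = x := fun x => by rw [← mul_assoc, hz, one_mul]
    have ht' : ∀ x : G, t * (t * x) = x := fun x => by rw [← mul_assoc, ht, one_mul]
    have hc' : ∀ x : G, t * (z * x) = z * (t * x) := fun x => by
      rw [← mul_assoc, ← hc, mul_assoc]
    intro x y hx hy
    simp only [Set.mem_insert_iff, Set.mem_singleton_iff] at hx hy ⊢
    rcases hx with rfl | rfl | rfl | rfl <;> rcases hy with rfl | rfl | rfl | rfl <;>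
      simp [mul_assoc, hz, ht, hz', ht', hc', ← hc]
  one_mem' := by simp
  inv_mem' := by
    intro x hx
    simp only [Set.mem_insert_iff, Set.mem_singleton_iff] at hx ⊢
    have hzi : z⁻¹ = z := inv_eq_of_mul_eq_one_right hz
    have hti : t⁻¹ = t := inv_eq_of_mul_eq_one_right ht
    rcases hx with rfl | rfl | rfl | rfl
    · simp
    · simp [hzi]
    · simp [hti]
    · right; right; right; rw [mul_inv_rev, hzi, hti, hc]

theorem V4_mem {G : Type*} [Group G] (z t : G) (hz : z * z = 1) (ht : t * t = 1)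
    (hc : z * t = t * z) (x : G) :
    x ∈ V4 z t hz ht hc ↔ x = 1 ∨ x = z ∨ x = t ∨ x = z * t := Iff.rfl

theorem V4_le {G : Type*} [Group G] (z t : G) (hz : z * z = 1) (ht : t * t = 1)
    (hc : z * t = t * z) (K : Subgroup G) (hzK : z ∈ K) (htK : t ∈ K) : V4 z t hz ht hc ≤ K := by
  intro x hx
  rcases (V4_mem z t hz ht hc x).mp hx with rfl | rfl | rfl | rfl
  · exact one_mem K
  · exact hzK
  · exact htK
  · exact mul_mem hzK htK

theorem V4_sq {G : Type*} [Group G] (z t : G) (hz : z * z = 1) (ht : t * t = 1)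
    (hc : z * t = t * z) (x : G) (hx : x ∈ V4 z t hz ht hc) : x * x = 1 := by
  rcases (V4_mem z t hz ht hc x).mp hx with rfl | rfl | rfl | rfl
  · simp
  · exact hz
  · exact ht
  · calc z * t * (z * t) = z * (t * z) * t := by group
      _ = z * (z * t) * t := by rw [hc]
      _ = (z * z) * (t * t) := by group
      _ = 1 := by rw [hz, ht, one_mul]

theorem V4_card {G : Type*} [Group G] (z t : G) (hz : z * z = 1) (ht : t * t = 1)
    (hc : z * t = t * z) (hz1 : z ≠ 1) (ht1 : t ≠ 1) (hzt : z ≠ t) :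
    Nat.card (V4 z t hz ht hc) = 4 := by
  have e : Nat.card (V4 z t hz ht hc) = ({1, z, t, z * t} : Set G).ncard := Nat.card_coe_set_eq _
  have hti : t⁻¹ = t := inv_eq_of_mul_eq_one_right ht
  have h1 : (1 : G) ∉ ({z, t, z * t} : Set G) := by
    simp only [Set.mem_insert_iff, Set.mem_singleton_iff, not_or]
    refine ⟨Ne.symm hz1, Ne.symm ht1, ?_⟩
    intro hh
    apply hzt
    have : z = t⁻¹ := eq_inv_of_mul_eq_one_left hh.symm
    rw [this, hti]
  have h2 : z ∉ ({t, z * t} : Set G) := by
    simp only [Set.mem_insert_iff, Set.mem_singleton_iff, not_or]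
    refine ⟨hzt, ?_⟩
    intro hh
    apply ht1
    have : z * 1 = z * t := by rw [mul_one]; exact hh
    exact (mul_left_cancel this).symm
  have h3 : t ≠ z * t := by
    intro hh
    apply hz1
    have : 1 * t = z * t := by rw [one_mul]; exact hh
    exact (mul_right_cancel this).symm
  rw [e, Set.ncard_insert_of_notMem h1 (Set.toFinite _),
    Set.ncard_insert_of_notMem h2 (Set.toFinite _), Set.ncard_pair h3]

theorem S4rec {N : Type*} [Group N] [Finite N] (hN : Nat.card N = 24) (V : Subgroup N)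
    [hVn : V.Normal] (hV : Nat.card V = 4) (hC : ∀ n : N, (∀ v ∈ V, n * v = v * n) → n ∈ V)
    (hcent : ∀ u : N, u ≠ 1 → ¬ (∀ n : N, n * u = u * n)) :
    Nonempty (N ≃* Equiv.Perm (Fin 4)) := by
  have c3 : ∀ P : Sylow 3 N, Nat.card (P : Subgroup N) = 3 := fun P =>
    syl_card_gen P 3 8 (by rw [hN]) ⟨1, by norm_num⟩ (by norm_num)
  have hn3 : Nat.card (Sylow 3 N) = 1 ∨ Nat.card (Sylow 3 N) = 4 := by
    obtain ⟨P⟩ : Nonempty (Sylow 3 N) := inferInstance
    have h1 : Nat.card (Sylow 3 N) % 3 = 1 := card_sylow_modEq_one 3 N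
    obtain ⟨h2, h3⟩ := card_idx P
    rw [c3 P, hN] at h3
    have h4 : (P : Subgroup N).index = 8 := by omega
    rw [h4] at h2
    have := Nat.le_of_dvd (by norm_num) h2
    obtain ⟨c, hc⟩ := h2
    interval_cases hn : Nat.card (Sylow 3 N) <;> omega
  have hn3' : Nat.card (Sylow 3 N) = 4 := by
    rcases hn3 with h1 | h4
    · exfalso
      obtain ⟨P⟩ : Nonempty (Sylow 3 N) := inferInstance
      haveI : Subsingleton (Sylow 3 N) := (Nat.card_eq_one_iff_unique.mp h1).1
      have hPn : (P : Subgroup N).Normal := by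
        apply Subgroup.normalizer_eq_top_iff.mp
        rw [eq_top_iff]
        intro x _
        exact Sylow.smul_eq_iff_mem_normalizer.mp (Subsingleton.elim _ _)
      have hdis : Disjoint (P : Subgroup N) V := by
        rw [disjoint_iff]
        apply Subgroup.inf_eq_bot_of_coprime
        rw [c3 P, hV]; decide
      have hPV : (P : Subgroup N) ≤ V := by
        intro x hx
        apply hC
        intro v hv
        exact (Subgroup.commute_of_normal_of_disjoint _ _ hPn hVn hdis x v hx hv).eq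
      have := Subgroup.card_dvd_of_le hPV
      rw [c3 P, hV] at this
      omega
    · exact h4
  obtain ⟨K, hK⟩ : ∃ K : Subgroup N, K = (MulAction.toPermHom N (Sylow 3 N)).ker := ⟨_, rfl⟩
  have hKn : K.Normal := by rw [hK]; exact MonoidHom.normal_ker _
  obtain ⟨P⟩ : Nonempty (Sylow 3 N) := inferInstance
  have hKP : K ≤ normalizer ((P : Subgroup N) : Set N) := by
    intro x hx
    rw [hK, MonoidHom.mem_ker] at hx
    exact Sylow.smul_eq_iff_mem_normalizer.mp (congrArg (fun f => f P) hx)
  have hNP : Nat.card (normalizer ((P : Subgroup N) : Set N)) = 6 := by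
    have := card_norm P
    rw [hn3', hN] at this
    omega
  have hK6 : Nat.card K ∣ 6 := hNP ▸ Subgroup.card_dvd_of_le hKP
  have hKV2 : Nat.card (K ⊓ V : Subgroup N) ∣ 2 := by
    have h1 : Nat.card (K ⊓ V : Subgroup N) ∣ 6 := (Subgroup.card_dvd_of_le inf_le_left).trans hK6
    have h2 : Nat.card (K ⊓ V : Subgroup N) ∣ 4 := hV ▸ Subgroup.card_dvd_of_le inf_le_right
    have := Nat.dvd_gcd h1 h2
    have e : Nat.gcd 6 4 = 2 := by decide
    rwa [e] at this
  have hKVbot : K ⊓ V = ⊥ := by
    rcases (Nat.dvd_prime Nat.prime_two).mp hKV2 with h1 | h2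
    · exact Subgroup.card_eq_one.mp h1
    · exfalso
      obtain ⟨y, hy1, hy2⟩ := (Nat.card_eq_two_iff' (1 : (K ⊓ V : Subgroup N))).mp h2
      have hKVn : (K ⊓ V).Normal := Subgroup.normal_inf_normal K V
      apply hcent (y : N) (fun hh => hy1 (Subtype.ext hh))
      intro n
      have hconj : n * (y : N) * n⁻¹ ∈ K ⊓ V := hKVn.conj_mem _ y.2 n
      have hne : (⟨n * (y : N) * n⁻¹, hconj⟩ : (K ⊓ V : Subgroup N)) ≠ 1 := by
        intro hh
        have h1 : n * (y : N) * n⁻¹ = 1 := congrArg Subtype.val hh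
        apply hy1
        apply Subtype.ext
        have : (y : N) = n⁻¹ * (n * (y : N) * n⁻¹) * n := by group
        rw [this, h1]; simp
      have := hy2 _ hne
      have h3 : n * (y : N) * n⁻¹ = (y : N) := congrArg Subtype.val this
      calc n * (y : N) = (n * (y : N) * n⁻¹) * n := by group
        _ = (y : N) * n := by rw [h3]
  have hKbot : K = ⊥ := by
    have hKV : K ≤ V := by
      intro x hx
      apply hC
      intro v hv
      exact (Subgroup.commute_of_normal_of_disjoint _ _ hKn hVn (disjoint_iff.mpr hKVbot)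
        x v hx hv).eq
    rw [← hKVbot]
    exact (inf_eq_left.mpr hKV).symm
  have hinj : Function.Injective (MulAction.toPermHom N (Sylow 3 N)) := by
    rw [← MonoidHom.ker_eq_bot_iff, ← hK]; exact hKbot
  have hbij : Function.Bijective (MulAction.toPermHom N (Sylow 3 N)) := by
    apply Function.Injective.bijective_of_nat_card_le hinj
    rw [Nat.card_perm, hn3', hN]; decide
  have e1 : N ≃* Equiv.Perm (Sylow 3 N) := MulEquiv.ofBijective _ hbij
  have e2 : Sylow 3 N ≃ Fin 4 := Finite.equivFinOfCardEq hn3'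
  exact ⟨e1.trans (Equiv.permCongrHom e2)⟩

end Cfsg.Agent.Lib.Helper6.G168b
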