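import Mathlib
import Cfsg.Prelude.Def_KGroupFacts

set_option autoImplicit false
set_option linter.dupNamespace false

namespace Cfsg.Agent.Lib.Helper6.Heis

open scoped commutatorElement

@[ext]
structure Heis (m n : ℕ) (h : n ∣ m) where
  a : ZMod m
  b : ZMod n
  c : ZMod n

variable {m n : ℕ} {h : n ∣ m}

instance instMulHeis : Mul (Heis m n h) :=
  ⟨fun p q => ⟨p.a + q.a, p.b + q.b, p.c + q.c + ZMod.castHom h (ZMod n) p.a * q.b⟩⟩

instance instOneHeis : One (Heis m n h) := ⟨⟨0, 0, 0⟩⟩

instance instInvHeis : Inv (Heis m n h) :=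
  ⟨fun p => ⟨-p.a, -p.b, -p.c + ZMod.castHom h (ZMod n) p.a * p.b⟩⟩

theorem mul_a (p q : Heis m n h) : (p * q).a = p.a + q.a := rfl
theorem mul_b (p q : Heis m n h) : (p * q).b = p.b + q.b := rfl
theorem mul_c (p q : Heis m n h) :
    (p * q).c = p.c + q.c + ZMod.castHom h (ZMod n) p.a * q.b := rfl
theorem one_a : (1 : Heis m n h).a = 0 := rfl
theorem one_b : (1 : Heis m n h).b = 0 := rfl
theorem one_c : (1 : Heis m n h).c = 0 := rfl
theorem inv_a (p : Heis m n h) : (p⁻¹).a = -p.a := rfl
theorem inv_b (p : Heis m n h) : (p⁻¹).b = -p.b := rfl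
theorem inv_c (p : Heis m n h) : (p⁻¹).c = -p.c + ZMod.castHom h (ZMod n) p.a * p.b := rfl

instance instGroupHeis : Group (Heis m n h) :=
  Group.ofLeftAxioms
    (by
      intro p q r
      ext
      · simp only [mul_a]; ring
      · simp only [mul_b]; ring
      · simp only [mul_c, mul_a, mul_b, map_add]; ring)
    (by
      intro p
      ext
      · simp only [mul_a, one_a]; ring
      · simp only [mul_b, one_b]; ring
      · simp only [mul_c, one_a, one_c, map_zero]; ring)
    (by
      intro p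
      ext
      · simp only [mul_a, inv_a, one_a]; ring
      · simp only [mul_b, inv_b, one_b]; ring
      · simp only [mul_c, inv_a, inv_c, one_c, map_neg]; ring)

instance instFiniteHeis [NeZero m] [NeZero n] : Finite (Heis m n h) :=
  Finite.of_injective (fun p : Heis m n h => (p.a, p.b, p.c)) (by
    intro p q hpq
    simp only [Prod.mk.injEq] at hpq
    ext
    · exact hpq.1
    · exact hpq.2.1
    · exact hpq.2.2)

def proj (m n : ℕ) (h : n ∣ m) : Heis m n h →* Multiplicative (ZMod m × ZMod n) where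
  toFun p := Multiplicative.ofAdd (p.a, p.b)
  map_one' := rfl
  map_mul' _ _ := rfl

theorem proj_apply (p : Heis m n h) : proj m n h p = Multiplicative.ofAdd (p.a, p.b) := rfl

theorem mem_ker (p : Heis m n h) : p ∈ (proj m n h).ker ↔ p.a = 0 ∧ p.b = 0 := by
  rw [MonoidHom.mem_ker, proj_apply]
  constructor
  · intro hp
    have : (p.a, p.b) = (0, 0) := hp
    simpa using this
  · rintro ⟨h1, h2⟩
    rw [h1, h2]
    rfl

theorem proj_stem (m n : ℕ) (h : n ∣ m) : Cfsg.IsStemExtension (proj m n h) := by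
  refine ⟨?_, ?_, ?_⟩
  · intro g
    exact ⟨⟨g.toAdd.1, g.toAdd.2, 0⟩, rfl⟩
  · intro p hp
    rw [mem_ker] at hp
    rw [Subgroup.mem_center_iff]
    intro q
    ext
    · simp only [mul_a, hp.1]; ring
    · simp only [mul_b, hp.2]; ring
    · simp only [mul_c, hp.1, hp.2, map_zero]; ring
  · intro p hp
    rw [mem_ker] at hp
    have e : p = ⁅(⟨1, 0, 0⟩ : Heis m n h), (⟨0, p.c, 0⟩ : Heis m n h)⁆ := by
      rw [commutatorElement_def]
      ext
      · simp only [mul_a, inv_a, hp.1]; ring
      · simp only [mul_b, inv_b, hp.2]; ring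
      · simp only [mul_c, mul_a, inv_a, inv_b, inv_c, map_add, map_neg, map_one, map_zero]
        ring
    rw [e, commutator_def]
    exact Subgroup.commutator_mem_commutator (Subgroup.mem_top _) (Subgroup.mem_top _)

def kerEquiv (m n : ℕ) (h : n ∣ m) : (proj m n h).ker ≃* Multiplicative (ZMod n) where
  toFun z := Multiplicative.ofAdd z.1.c
  invFun t := ⟨⟨0, 0, t.toAdd⟩, (mem_ker _).2 ⟨rfl, rfl⟩⟩
  left_inv := by
    intro z
    have hz := (mem_ker _).1 z.2
    apply Subtype.ext
    ext
    · exact hz.1.symm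
    · exact hz.2.symm
    · rfl
  right_inv := by
    intro t
    rfl
  map_mul' := by
    intro z z'
    have hz' := (mem_ker _).1 z'.2
    change Multiplicative.ofAdd ((z.1 * z'.1).c) = Multiplicative.ofAdd z.1.c * Multiplicative.ofAdd z'.1.c
    rw [mul_c, hz'.2, mul_zero, add_zero]
    rfl

end Cfsg.Agent.Lib.Helper6.Heis
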