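import Mathlib
import Cfsg.Agent.Lib.Helper6.Heis

set_option autoImplicit false

namespace Cfsg.Agent.Lib.Helper6.Heis2

open Cfsg.Agent.Lib.Helper6
open scoped commutatorElement

variable {m n : ℕ} {h : n ∣ m}

theorem ker_central (p : Heis.Heis m n h) (hp : p ∈ (Heis.proj m n h).ker) (q : Heis.Heis m n h) :
    p * q = q * p := by
  have := (Heis.proj_stem m n h).2.1 hp
  exact (Subgroup.mem_center_iff.1 this q).symm

theorem ker_comm (p : Heis.Heis m n h) (hp : p ∈ (Heis.proj m n h).ker) :
    p = ⁅(⟨1, 0, 0⟩ : Heis.Heis m n h), (⟨0, p.c, 0⟩ : Heis.Heis m n h)⁆ := by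
  rw [Heis.mem_ker] at hp
  rw [commutatorElement_def]
  ext
  · simp only [Heis.mul_a, Heis.inv_a, hp.1]; ring
  · simp only [Heis.mul_b, Heis.inv_b, hp.2]; ring
  · simp only [Heis.mul_c, Heis.mul_a, Heis.inv_a, Heis.inv_b, Heis.inv_c, map_add, map_neg,
      map_one, map_zero]
    ring

theorem exists_surj_of_not_cyclic {G : Type*} [CommGroup G] [Finite G] (hG : ¬ IsCyclic G) :
    ∃ (p : ℕ) (_ : p.Prime) (θ : G →* Multiplicative (ZMod p × ZMod p)), Function.Surjective θ := by
  classical
  obtain ⟨ι, _, p, hp, e, ⟨f⟩⟩ := AddCommGroup.equiv_directSum_zmod_of_finite (Additive G)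
  let F : Additive G ≃+ (∀ i, ZMod (p i ^ e i)) := f.trans (DirectSum.addEquivProd _)
  by_cases hpair : ∃ i j, i ≠ j ∧ p i = p j ∧ e i ≠ 0 ∧ e j ≠ 0
  · obtain ⟨i, j, hij, hpij, hei, hej⟩ := hpair
    have di : p i ∣ p i ^ e i := dvd_pow_self _ hei
    have dj : p i ∣ p j ^ e j := hpij ▸ dvd_pow_self _ hej
    let θ₀ : Additive G →+ ZMod (p i) × ZMod (p i) :=
      (((ZMod.castHom di (ZMod (p i))).toAddMonoidHom.comp
          (Pi.evalAddMonoidHom (fun k => ZMod (p k ^ e k)) i)).prod
        ((ZMod.castHom dj (ZMod (p i))).toAddMonoidHom.comp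
          (Pi.evalAddMonoidHom (fun k => ZMod (p k ^ e k)) j))).comp F.toAddMonoidHom
    refine ⟨p i, hp i, AddMonoidHom.toMultiplicativeRight θ₀, ?_⟩
    intro y
    obtain ⟨a', ha'⟩ := ZMod.castHom_surjective di (Multiplicative.toAdd y).1
    obtain ⟨b', hb'⟩ := ZMod.castHom_surjective dj (Multiplicative.toAdd y).2
    refine ⟨Additive.toMul (F.symm (Pi.single i a' + Pi.single j b')), ?_⟩
    apply Multiplicative.toAdd.injective
    change θ₀ (F.symm (Pi.single i a' + Pi.single j b')) = Multiplicative.toAdd y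
    have e1 : F (F.symm (Pi.single i a' + Pi.single j b')) = Pi.single i a' + Pi.single j b' :=
      F.apply_symm_apply _
    ext
    · change (ZMod.castHom di (ZMod (p i))) (F (F.symm (Pi.single i a' + Pi.single j b')) i) = _
      rw [e1, Pi.add_apply, Pi.single_eq_same, Pi.single_eq_of_ne hij, add_zero, ha']
    · change (ZMod.castHom dj (ZMod (p i))) (F (F.symm (Pi.single i a' + Pi.single j b')) j) = _
      rw [e1, Pi.add_apply, Pi.single_eq_same, Pi.single_eq_of_ne hij.symm, zero_add, hb']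
  · exfalso
    apply hG
    have hcop : Pairwise (Function.onFun Nat.Coprime fun i => p i ^ e i) := by
      intro i j hij
      change Nat.Coprime (p i ^ e i) (p j ^ e j)
      by_cases hei : e i = 0
      · rw [hei, pow_zero]
        exact Nat.coprime_one_left _
      by_cases hej : e j = 0
      · rw [hej, pow_zero]
        exact Nat.coprime_one_right _
      have hne : p i ≠ p j := fun hh => hpair ⟨i, j, hij, hh, hei, hej⟩
      exact Nat.Coprime.pow _ _ ((Nat.coprime_primes (hp i) (hp j)).2 hne)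
    let E : ZMod (∏ i, p i ^ e i) ≃+ Additive G :=
      (ZMod.prodEquivPi _ hcop).toAddEquiv.trans F.symm
    have hc : IsAddCyclic (Additive G) :=
      isAddCyclic_of_surjective E.toAddMonoidHom E.surjective
    exact isAddCyclic_additive_iff.1 hc

end Cfsg.Agent.Lib.Helper6.Heis2
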