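import Mathlib
import Cfsg.Agent.Lib.Helper2.HomoCyc2

set_option autoImplicit false

namespace Cfsg.Agent.Lib.Helper6.HomoCycN

open Cfsg.Agent.Lib.Helper2

variable {G : Type*} [Group G]

/-- The involutions of a subgroup. -/
def Invs (P : Subgroup G) : Type _ := {t : G // t ∈ P ∧ t * t = 1 ∧ t ≠ 1}

instance invsAction (P : Subgroup G) :
    MulAction ↥(Subgroup.normalizer (P : Set G)) (Invs P) where
  smul n t := ⟨(n : G) * t.1 * (n : G)⁻¹, (Subgroup.mem_normalizer_iff.1 n.2 t.1).1 t.2.1,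
    HomoCyc.conj_sq_one t.2.2.1 _, HomoCyc.conj_ne_one t.2.2.2 _⟩
  one_smul t := by
    apply Subtype.ext
    show ((1 : ↥(Subgroup.normalizer (P : Set G))) : G) * t.1 *
      ((1 : ↥(Subgroup.normalizer (P : Set G))) : G)⁻¹ = t.1
    simp
  mul_smul a b t := by
    apply Subtype.ext
    show ((a * b : ↥(Subgroup.normalizer (P : Set G))) : G) * t.1 *
      ((a * b : ↥(Subgroup.normalizer (P : Set G))) : G)⁻¹ =
        (a : G) * ((b : G) * t.1 * (b : G)⁻¹) * (a : G)⁻¹
    simp [mul_assoc]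

theorem smul_val (P : Subgroup G) (n : ↥(Subgroup.normalizer (P : Set G))) (t : Invs P) :
    (n • t).1 = (n : G) * t.1 * (n : G)⁻¹ := rfl

/-- An element of the normalizer fixing all involutions of a homocyclic Sylow 2-subgroup
centralizes it. -/
theorem mem_centralizer_of_fix [Finite G] (P : Sylow 2 G) (m : ℕ)
    (e : (P : Subgroup G) ≃* Multiplicative (ZMod (2 ^ m) × ZMod (2 ^ m)))
    (g : G) (hg : g ∈ Subgroup.normalizer ((P : Subgroup G) : Set G))
    (hfix : ∀ t ∈ (P : Subgroup G), t * t = 1 → g * t * g⁻¹ = t) :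
    g ∈ Subgroup.centralizer ((P : Subgroup G) : Set G) := by
  classical
  have hab : ∀ a ∈ (P : Subgroup G), ∀ b ∈ (P : Subgroup G), a * b = b * a := by
    intro a ha b hb
    have h1 : e ⟨a, ha⟩ * e ⟨b, hb⟩ = e ⟨b, hb⟩ * e ⟨a, ha⟩ := mul_comm _ _
    rw [← map_mul, ← map_mul] at h1
    exact congrArg Subtype.val (e.injective h1)
  have h2 : ∀ x ∈ (P : Subgroup G), ∃ k : ℕ, x ^ (2 ^ k) = 1 := by
    intro x hx
    obtain ⟨k, hk⟩ := P.isPGroup' ⟨x, hx⟩
    exact ⟨k, by simpa using congrArg Subtype.val hk⟩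
  have hnorm : ∀ h ∈ Subgroup.normalizer ((P : Subgroup G) : Set G), ∀ x ∈ (P : Subgroup G),
      h * x * h⁻¹ ∈ (P : Subgroup G) := fun h hh x hx => (Subgroup.mem_normalizer_iff.1 hh x).1 hx
  obtain ⟨a, b, hb, hn⟩ := Nat.exists_eq_two_pow_mul_odd (orderOf_pos g).ne'
  have hgb1 : (g ^ b) ^ (2 ^ a) = 1 := by
    rw [← pow_mul, mul_comm, ← hn, pow_orderOf_eq_one]
  have hPG : IsPGroup 2 (Subgroup.zpowers (g ^ b)) := by
    have hd : orderOf (g ^ b) ∣ 2 ^ a := orderOf_dvd_of_pow_eq_one hgb1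
    obtain ⟨k, -, hk⟩ := (Nat.dvd_prime_pow Nat.prime_two).1 hd
    exact IsPGroup.of_card (n := k) (by rw [Nat.card_zpowers, hk])
  have hgbP : g ^ b ∈ (P : Subgroup G) := by
    have h3 : g ^ b ∈ Subgroup.zpowers (g ^ b) ⊓
        Subgroup.normalizer ((P : Subgroup G) : Set G) :=
      ⟨Subgroup.mem_zpowers _, Subgroup.pow_mem _ hg b⟩
    have h4 := hPG.inf_normalizer_sylow P
    have h5 : g ^ b ∈ Subgroup.zpowers (g ^ b) ⊓ (P : Subgroup G) := by
      rw [← h4]
      exact h3
    exact h5.2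
  have hg2odd : Odd (orderOf (g ^ (2 ^ a))) := by
    have hd : orderOf (g ^ (2 ^ a)) ∣ b := by
      apply orderOf_dvd_of_pow_eq_one
      rw [← pow_mul, ← hn, pow_orderOf_eq_one]
    exact Odd.of_dvd_nat hb hd
  have hg2N : g ^ (2 ^ a) ∈ Subgroup.normalizer ((P : Subgroup G) : Set G) :=
    Subgroup.pow_mem _ hg _
  have hfixpow : ∀ k : ℕ, ∀ t ∈ (P : Subgroup G), t * t = 1 → g ^ k * t * (g ^ k)⁻¹ = t := by
    intro k
    induction k with
    | zero => intro t _ _; simp
    | succ k ih =>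
      intro t ht htt
      have e1 : g ^ (k + 1) * t * (g ^ (k + 1))⁻¹ = g * (g ^ k * t * (g ^ k)⁻¹) * g⁻¹ := by
        rw [pow_succ']
        group
      rw [e1, ih t ht htt, hfix t ht htt]
  have hcent2 := HomoCyc.centralizes_of_omega (P : Subgroup G) hab h2 (g ^ (2 ^ a)) hg2odd
    (hnorm _ hg2N) (hfixpow _)
  have hc1 : g ^ b ∈ Subgroup.centralizer ((P : Subgroup G) : Set G) := by
    apply Subgroup.mem_centralizer_iff.2
    intro x hx
    exact hab x hx _ hgbP
  have hc2 : g ^ (2 ^ a) ∈ Subgroup.centralizer ((P : Subgroup G) : Set G) := by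
    apply Subgroup.mem_centralizer_iff.2
    intro x hx
    have h4 := hcent2 x hx
    have h5 : g ^ (2 ^ a) * x = x * g ^ (2 ^ a) := by
      calc g ^ (2 ^ a) * x = g ^ (2 ^ a) * x * (g ^ (2 ^ a))⁻¹ * g ^ (2 ^ a) := by group
        _ = x * g ^ (2 ^ a) := by rw [h4]
    exact h5.symm
  have hcop : Nat.Coprime b (2 ^ a) := by
    apply Nat.Coprime.pow_right
    exact Nat.coprime_two_right.2 hb
  have hbez := Int.gcd_eq_gcd_ab (b : ℤ) ((2 ^ a : ℕ) : ℤ)
  have hgcd : Int.gcd (b : ℤ) ((2 ^ a : ℕ) : ℤ) = 1 := by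
    rw [Int.gcd_natCast_natCast]
    exact hcop
  rw [hgcd] at hbez
  have hgz : g = (g ^ b) ^ (Int.gcdA (b : ℤ) ((2 ^ a : ℕ) : ℤ)) *
      (g ^ (2 ^ a)) ^ (Int.gcdB (b : ℤ) ((2 ^ a : ℕ) : ℤ)) := by
    rw [← zpow_natCast g b, ← zpow_natCast g (2 ^ a), ← zpow_mul, ← zpow_mul, ← zpow_add,
      ← hbez]
    simp
  rw [hgz]
  exact Subgroup.mul_mem _ (Subgroup.zpow_mem _ hc1 _) (Subgroup.zpow_mem _ hc2 _)

theorem card_invs_le [Finite G] (P : Subgroup G) (m : ℕ) (hm : 1 ≤ m)
    (e : ↥P ≃* Multiplicative (ZMod (2 ^ m) × ZMod (2 ^ m))) : Nat.card (Invs P) ≤ 3 := by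
  classical
  haveI : Finite (Invs P) := by unfold Invs; infer_instance
  haveI := Fintype.ofFinite (Invs P)
  rw [Nat.card_eq_fintype_card, ← Finset.card_univ]
  by_contra hc
  have h2 : 2 < (Finset.univ : Finset (Invs P)).card := by omega
  obtain ⟨a, b, c, -, -, -, hab, hac, hbc⟩ := Finset.two_lt_card_iff.1 h2
  have hsub : (Finset.univ : Finset (Invs P)) ⊆ {a, b, c} := by
    intro t _
    have hcase := HomoCyc.inv_count P m hm e a.1 b.1 c.1 t.1 a.2.1 b.2.1 c.2.1 t.2.1
      a.2.2.1 b.2.2.1 c.2.2.1 t.2.2.1 a.2.2.2 b.2.2.2 c.2.2.2 t.2.2.2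
      (fun h => hab (Subtype.ext h)) (fun h => hac (Subtype.ext h)) (fun h => hbc (Subtype.ext h))
    simp only [Finset.mem_insert, Finset.mem_singleton]
    rcases hcase with h | h | h
    · exact Or.inl (Subtype.ext h)
    · exact Or.inr (Or.inl (Subtype.ext h))
    · exact Or.inr (Or.inr (Subtype.ext h))
  have h3 := Finset.card_le_card hsub
  have h4 : ({a, b, c} : Finset (Invs P)).card ≤ 3 := Finset.card_le_three
  omega

/-- The relative index of the centralizer in the normalizer is 1 or 3. -/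
theorem relIndex_one_or_three [Finite G] (P : Sylow 2 G) (m : ℕ) (hm : 1 ≤ m)
    (e : (P : Subgroup G) ≃* Multiplicative (ZMod (2 ^ m) × ZMod (2 ^ m))) :
    (Subgroup.centralizer ((P : Subgroup G) : Set G)).relIndex
        (Subgroup.normalizer ((P : Subgroup G) : Set G)) = 1 ∨
      (Subgroup.centralizer ((P : Subgroup G) : Set G)).relIndex
        (Subgroup.normalizer ((P : Subgroup G) : Set G)) = 3 := by
  classical
  haveI : Fact (Nat.Prime 2) := ⟨Nat.prime_two⟩
  have hab : ∀ a ∈ (P : Subgroup G), ∀ b ∈ (P : Subgroup G), a * b = b * a := by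
    intro a ha b hb
    have h1 : e ⟨a, ha⟩ * e ⟨b, hb⟩ = e ⟨b, hb⟩ * e ⟨a, ha⟩ := mul_comm _ _
    rw [← map_mul, ← map_mul] at h1
    exact congrArg Subtype.val (e.injective h1)
  have hPC : (P : Subgroup G) ≤ Subgroup.centralizer ((P : Subgroup G) : Set G) := by
    intro x hx
    apply Subgroup.mem_centralizer_iff.2
    intro y hy
    exact hab y hy x hx
  have hPN : (P : Subgroup G) ≤ Subgroup.normalizer ((P : Subgroup G) : Set G) :=
    Subgroup.le_normalizer
  set φ := MulAction.toPermHom ↥(Subgroup.normalizer ((P : Subgroup G) : Set G))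
    (Invs (P : Subgroup G)) with hφ
  have hker : φ.ker = (Subgroup.centralizer ((P : Subgroup G) : Set G)).subgroupOf
      (Subgroup.normalizer ((P : Subgroup G) : Set G)) := by
    ext n
    rw [MonoidHom.mem_ker, Subgroup.mem_subgroupOf]
    constructor
    · intro h
      apply mem_centralizer_of_fix P m e n n.2
      intro t ht htt
      by_cases ht1 : t = 1
      · rw [ht1]; group
      have h1 : φ n ⟨t, ht, htt, ht1⟩ = ⟨t, ht, htt, ht1⟩ := by rw [h]; rfl
      exact congrArg Subtype.val h1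
    · intro h
      ext t
      rw [Equiv.Perm.coe_one, id]
      apply Subtype.ext
      show (n • t).1 = t.1
      rw [smul_val]
      have h1 := Subgroup.mem_centralizer_iff.1 h t.1 t.2.1
      rw [← h1]
      group
  have h1 : (Subgroup.centralizer ((P : Subgroup G) : Set G)).relIndex
      (Subgroup.normalizer ((P : Subgroup G) : Set G)) = Nat.card φ.range := by
    rw [Subgroup.relIndex, ← hker, Subgroup.index_ker]
  haveI : Finite (Invs (P : Subgroup G)) := by unfold Invs; infer_instance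
  have h2 : Nat.card φ.range ∣ Nat.card (Equiv.Perm (Invs (P : Subgroup G))) :=
    Subgroup.card_subgroup_dvd_card _
  have h3 : Nat.card (Equiv.Perm (Invs (P : Subgroup G))) ∣ 6 := by
    rw [Nat.card_perm]
    have := Nat.factorial_dvd_factorial (card_invs_le (P : Subgroup G) m hm e)
    simpa [Nat.factorial] using this
  have h4 : (Subgroup.centralizer ((P : Subgroup G) : Set G)).relIndex
      (Subgroup.normalizer ((P : Subgroup G) : Set G)) ∣ 6 := by
    rw [h1]; exact h2.trans h3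
  have h5 : ¬ 2 ∣ (Subgroup.centralizer ((P : Subgroup G) : Set G)).relIndex
      (Subgroup.normalizer ((P : Subgroup G) : Set G)) := by
    intro hd
    have h6 : (Subgroup.centralizer ((P : Subgroup G) : Set G)).relIndex
        (Subgroup.normalizer ((P : Subgroup G) : Set G)) ∣
        (P : Subgroup G).relIndex (Subgroup.normalizer ((P : Subgroup G) : Set G)) :=
      Subgroup.relIndex_dvd_of_le_left _ hPC
    have h7 : (P : Subgroup G).relIndex (Subgroup.normalizer ((P : Subgroup G) : Set G)) ∣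
        (P : Subgroup G).index := Dvd.intro _ (Subgroup.relIndex_mul_index hPN)
    exact P.not_dvd_index (hd.trans (h6.trans h7))
  have h6 := Nat.le_of_dvd (by norm_num) h4
  generalize (Subgroup.centralizer ((P : Subgroup G) : Set G)).relIndex
      (Subgroup.normalizer ((P : Subgroup G) : Set G)) = r at h4 h5 h6
  interval_cases r <;> simp_all

end Cfsg.Agent.Lib.Helper6.HomoCycN
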