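import Mathlib
import Cfsg.Prelude.Def_Characters
import Cfsg.Agent.Lib.Helper3.CharProj
import Cfsg.Agent.S0138
import Cfsg.Agent.S0158

set_option autoImplicit false

namespace Cfsg.Agent.Lib.Helper6.InvCount2

open scoped ComplexConjugate
open Cfsg.Agent.Lib.Helper3.Char Cfsg.Agent.Lib.Helper3.CharCore Cfsg.Agent.Lib.Helper3.CharInt
  Cfsg.Agent.Lib.Helper3.CharArith Cfsg.Agent.Lib.Helper3.CharProj

universe v

theorem sum_normSq {G : Type v} [Group G] [Fintype G] {χ : G → ℂ}
    (hχ : Cfsg.IsIrrCharacter G χ) : ∑ g : G, Complex.normSq (χ g) = (Nat.card G : ℝ) := by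
  have hne : (Nat.card G : ℂ) ≠ 0 := by exact_mod_cast Nat.card_pos.ne'
  have h1 := irr_inner_self hχ
  unfold Cfsg.classInner at h1
  rw [inv_mul_eq_iff_eq_mul₀ hne, mul_one] at h1
  apply Complex.ofReal_injective
  rw [Complex.ofReal_sum]
  simp only [← Complex.mul_conj]
  rw [h1]
  simp

/-- the centre has order at most `|G| / χ(1)^2`. -/
theorem center_card_mul_sq_le {G : Type v} [Group G] [Fintype G] {n : ℕ}
    (ρ : Representation ℂ G (Fin n → ℂ)) [hirr : ρ.IsIrreducible] :
    Nat.card (Subgroup.center G) * n ^ 2 ≤ Nat.card G := by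
  classical
  have hχ : Cfsg.IsIrrCharacter G ρ.character := ⟨n, ρ, hirr, rfl⟩
  have hsum := sum_normSq hχ
  have hfr : Module.finrank ℂ (Fin n → ℂ) = n := by simp
  have hZ : ∀ g ∈ Subgroup.center G, Complex.normSq (ρ.character g) = (n : ℝ) ^ 2 := by
    intro g hg
    have h1 := (Cfsg.Agent.S0138.result ρ g).mpr (central_scalar ρ g hg)
    rw [hfr] at h1
    rw [Complex.normSq_eq_norm_sq, h1]
  have h2 : ∑ g ∈ Finset.univ.filter (fun g => g ∈ Subgroup.center G),
      Complex.normSq (ρ.character g) = (Nat.card (Subgroup.center G) : ℝ) * (n : ℝ) ^ 2 := by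
    rw [Finset.sum_congr rfl (fun g hg => hZ g (Finset.mem_filter.mp hg).2), Finset.sum_const,
      nsmul_eq_mul]
    congr 2
    exact (Nat.subtype_card (Finset.univ.filter (fun g => g ∈ Subgroup.center G)) (by simp)).symm
  have h3 : (Nat.card (Subgroup.center G) : ℝ) * (n : ℝ) ^ 2 ≤ (Nat.card G : ℝ) := by
    rw [← h2, ← hsum]
    exact Finset.sum_le_sum_of_subset_of_nonneg (Finset.filter_subset _ _)
      (fun _ _ _ => Complex.normSq_nonneg _)
  exact_mod_cast h3

/-- a central involution `z` with `G / ⟨z⟩` abelian acts as `-1` in every nonlinear irreducible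
representation. -/
theorem central_inv_char {G : Type v} [Group G] [Fintype G] {n : ℕ}
    (ρ : Representation ℂ G (Fin n → ℂ)) [hirr : ρ.IsIrreducible]
    (z : G) (hz : z ∈ Subgroup.center G) (hzz : z * z = 1)
    (hcomm : ∀ g h : G, g * h * g⁻¹ * h⁻¹ = 1 ∨ g * h * g⁻¹ * h⁻¹ = z) (hn : n ≠ 1) :
    ρ.character z = -(n : ℂ) := by
  classical
  obtain ⟨a, ha⟩ := central_scalar ρ z hz
  have hfr : Module.finrank ℂ (Fin n → ℂ) = n := by simp
  have hn0 : (n : ℂ) ≠ 0 := by
    have := finrank_ne_zero_of_irr ρ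
    rwa [hfr] at this
  have hchar : ρ.character z = a * n := by
    show LinearMap.trace ℂ _ (ρ z) = _
    rw [ha, map_smul, LinearMap.trace_id, hfr, smul_eq_mul]
  have ha2 : a * a = 1 := by
    have h1 : ρ z * ρ z = 1 := by rw [← map_mul, hzz, map_one]
    rw [ha] at h1
    have h3 := congrArg (LinearMap.trace ℂ (Fin n → ℂ)) h1
    rw [smul_mul_smul_comm, map_smul] at h3
    have h4 : (LinearMap.id : (Fin n → ℂ) →ₗ[ℂ] (Fin n → ℂ)) * LinearMap.id = LinearMap.id := rfl
    have h5 : (1 : Module.End ℂ (Fin n → ℂ)) = LinearMap.id := rfl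
    rw [h4, h5, LinearMap.trace_id, hfr, smul_eq_mul] at h3
    exact mul_right_cancel₀ hn0 (h3.trans (one_mul _).symm)
  rcases mul_self_eq_one_iff.mp ha2 with h | h
  · exfalso
    have hz1 : ρ z = 1 := by rw [ha, h, one_smul]; rfl
    have hsc : ∀ g : G, ∃ b : ℂ, ρ g = b • LinearMap.id := by
      intro g
      apply commute_scalar ρ (ρ g)
      intro h'
      have h4 : ρ (g * h' * g⁻¹ * h'⁻¹) = 1 := by
        rcases hcomm g h' with h5 | h5
        · rw [h5, map_one]
        · rw [h5, hz1]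
      have h6 : g * h' = (g * h' * g⁻¹ * h'⁻¹) * (h' * g) := by group
      have h7 : ρ g * ρ h' = ρ h' * ρ g := by
        rw [← map_mul, ← map_mul, h6, map_mul, h4, one_mul]
      exact h7
    have hχ : Cfsg.IsIrrCharacter G ρ.character := ⟨n, ρ, hirr, rfl⟩
    have hsum := sum_normSq hχ
    have h7 : ∀ g : G, Complex.normSq (ρ.character g) = (n : ℝ) ^ 2 := by
      intro g
      have h8 := (Cfsg.Agent.S0138.result ρ g).mpr (hsc g)
      rw [hfr] at h8
      rw [Complex.normSq_eq_norm_sq, h8]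
    rw [Finset.sum_congr rfl (fun g _ => h7 g), Finset.sum_const, nsmul_eq_mul, Finset.card_univ,
      ← Nat.card_eq_fintype_card] at hsum
    have hG0 : (0 : ℝ) < Nat.card G := by exact_mod_cast Nat.card_pos
    have h9 : (n : ℝ) ^ 2 = 1 := mul_left_cancel₀ hG0.ne' (hsum.trans (mul_one _).symm)
    have h10 : n ^ 2 = 1 := by exact_mod_cast h9
    exact hn ((Nat.pow_eq_one.mp h10).resolve_right (by norm_num))
  · rw [hchar, h]; ring

/-- the sum of `χ (s * s)` when all squares are `1` or `z`. -/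
theorem indicator_eq {G : Type v} [Group G] [Fintype G] (χ : G → ℂ) (z : G) (n : ℕ)
    (h1 : χ 1 = n) (hz : χ z = -(n : ℂ)) (hsq : ∀ s : G, s * s = 1 ∨ s * s = z) :
    ∑ s : G, χ (s * s) =
      (n : ℂ) * (2 * (Nat.card {s : G // s * s = 1} : ℂ) - (Nat.card G : ℂ)) := by
  classical
  have h2 : ∀ s : G, χ (s * s) = -(n : ℂ) + 2 * (n : ℂ) * (if s * s = 1 then 1 else 0) := by
    intro s
    by_cases hs : s * s = 1
    · rw [if_pos hs, hs, h1]; ring
    · rcases hsq s with h | h
      · exact absurd h hs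
      · rw [if_neg hs, h, hz]; ring
  rw [Finset.sum_congr rfl (fun s _ => h2 s), Finset.sum_add_distrib, Finset.sum_const,
    ← Finset.mul_sum, Finset.sum_boole, Finset.card_univ,
    Nat.subtype_card (Finset.univ.filter (fun s : G => s * s = 1)) (by simp),
    Nat.card_eq_fintype_card]
  simp only [nsmul_eq_mul]
  ring

end Cfsg.Agent.Lib.Helper6.InvCount2
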