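import Mathlib
import Cfsg.Agent.Lib.Helper2.PComp
import Cfsg.Agent.Lib.Helper2.Comp
import Cfsg.Agent.Lib.Helper2.Quasi
import Cfsg.Agent.Lib.Helper2.Sub
import Cfsg.Agent.Lib.Helper2.Fit
import Cfsg.Agent.Lib.Helper6.ASMax

namespace Cfsg.Agent.Lib.Helper6.MinNormal

open Cfsg.Agent.Lib.Helper2 Cfsg.Agent.Lib.Helper6

variable {G : Type*} [Group G]

theorem map_conj_map_conj (H : Subgroup G) (a b : G) :
    (H.map (MulAut.conj a).toMonoidHom).map (MulAut.conj b).toMonoidHom =
      H.map (MulAut.conj (b * a)).toMonoidHom := by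
  ext x
  simp only [ASMax.mem_map_conj]
  have e : a⁻¹ * (b⁻¹ * x * b) * a = (b * a)⁻¹ * x * (b * a) := by group
  rw [e]

/-- The normal closure of a component with trivial centre is a minimal normal subgroup. -/
theorem normalClosure_minimal [Finite G] (K : Subgroup G) (hK : Cfsg.IsComponent K)
    (hZ : Subgroup.center ↥K = ⊥) :
    Subgroup.normalClosure (K : Set G) ≠ ⊥ ∧ ∀ N : Subgroup G, N.Normal →
      N ≤ Subgroup.normalClosure (K : Set G) → N = ⊥ ∨ N = Subgroup.normalClosure (K : Set G) := by
  classical
  refine ⟨?_, ?_⟩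
  · intro h
    apply PComp.quasisimple_ne_bot hK.2
    rw [eq_bot_iff, ← h]
    exact Subgroup.le_normalClosure
  · intro N hN hNle
    rcases Sub.comp_sn ((Sub.relSN_top_iff K).2 hK.1) hK.2
      ((Sub.relSN_top_iff N).2 hN.isSubnormal) with h | h
    · right
      apply le_antisymm hNle
      haveI := hN
      exact Subgroup.normalClosure_le_normal h
    · left
      rw [Subgroup.commutator_eq_bot_iff_le_centralizer] at h
      rw [eq_bot_iff]
      intro z hz
      rw [Subgroup.mem_bot]
      have hcomp : ∀ i : {L : Subgroup G // ∃ g : G, L = K.map (MulAut.conj g).toMonoidHom},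
          Cfsg.IsComponent (i : Subgroup G) := by
        rintro ⟨L, g, rfl⟩; exact Comp.component_conj hK g
      have hcomm : Pairwise fun i j : {L : Subgroup G // ∃ g : G,
          L = K.map (MulAut.conj g).toMonoidHom} =>
          ∀ x y : G, x ∈ (i : Subgroup G) → y ∈ (j : Subgroup G) → Commute x y := by
        intro i j hij x y hx hy
        have h1 := Comp.components_comm (hcomp i) (hcomp j) (fun h => hij (Subtype.ext h))
        rw [Subgroup.commutator_eq_bot_iff_le_centralizer] at h1
        exact ((Subgroup.mem_centralizer_iff.mp (h1 hx)) y hy).symm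
      have hnc : Subgroup.normalClosure (K : Set G) ≤
          ⨆ i : {L : Subgroup G // ∃ g : G, L = K.map (MulAut.conj g).toMonoidHom},
            (i : Subgroup G) := by
        haveI : (⨆ i : {L : Subgroup G // ∃ g : G, L = K.map (MulAut.conj g).toMonoidHom},
            (i : Subgroup G)).Normal := by
          constructor
          intro x hx g
          have h1 : (⨆ i : {L : Subgroup G // ∃ g : G, L = K.map (MulAut.conj g).toMonoidHom},
              (i : Subgroup G)).map (MulAut.conj g).toMonoidHom ≤
              ⨆ i : {L : Subgroup G // ∃ g : G, L = K.map (MulAut.conj g).toMonoidHom},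
                (i : Subgroup G) := by
            rw [Subgroup.map_iSup]
            apply iSup_le
            rintro ⟨L, a, rfl⟩
            rw [map_conj_map_conj]
            exact le_iSup (fun i : {L : Subgroup G // ∃ g : G,
              L = K.map (MulAut.conj g).toMonoidHom} => (i : Subgroup G)) ⟨_, g * a, rfl⟩
          exact h1 ⟨x, hx, rfl⟩
        apply Subgroup.normalClosure_le_normal
        have hK1 : K = K.map (MulAut.conj (1 : G)).toMonoidHom := by
          ext x; rw [ASMax.mem_map_conj]; simp
        exact le_iSup (fun i : {L : Subgroup G // ∃ g : G,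
          L = K.map (MulAut.conj g).toMonoidHom} => (i : Subgroup G)) ⟨K, 1, hK1⟩
      have hzc : ∀ i : {L : Subgroup G // ∃ g : G, L = K.map (MulAut.conj g).toMonoidHom},
          ∀ y ∈ (i : Subgroup G), y * z = z * y := by
        rintro ⟨L, g, rfl⟩ y hy
        rw [ASMax.mem_map_conj] at hy
        have hn : g⁻¹ * z * g ∈ N := by
          have := hN.conj_mem z hz g⁻¹
          simpa using this
        have h1 := Subgroup.mem_centralizer_iff.mp (h hy) (g⁻¹ * z * g) hn
        have e1 : y * z = g * ((g⁻¹ * y * g) * (g⁻¹ * z * g)) * g⁻¹ := by group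
        have e2 : z * y = g * ((g⁻¹ * z * g) * (g⁻¹ * y * g)) * g⁻¹ := by group
        rw [e1, e2, h1]
      have h2 := Comp.center_sup_commuting (fun i : {L : Subgroup G // ∃ g : G,
        L = K.map (MulAut.conj g).toMonoidHom} => (i : Subgroup G)) hcomm z (hnc (hNle hz)) hzc
      have h3 : (⨆ i : {L : Subgroup G // ∃ g : G, L = K.map (MulAut.conj g).toMonoidHom},
          (Subgroup.center ↥(i : Subgroup G)).map (i : Subgroup G).subtype) = ⊥ := by
        rw [iSup_eq_bot]
        rintro ⟨L, g, rfl⟩
        have h4 := Quasi.map_center_of_equiv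
          (K.equivMapOfInjective (MulAut.conj g).toMonoidHom (MulAut.conj g).injective)
        rw [hZ, Subgroup.map_bot] at h4
        rw [← h4, Subgroup.map_bot]
      rw [h3] at h2
      exact Subgroup.mem_bot.mp h2

/-- If `F(G) = 1`, the layer is generated by the minimal normal subgroups. -/
theorem layer_eq_sSup_minimal [Finite G] (hF : Cfsg.fittingSubgroup G = ⊥) :
    sSup {N : Subgroup G | N ≠ ⊥ ∧ N.Normal ∧
      ∀ N' : Subgroup G, N'.Normal → N' ≤ N → N' = ⊥ ∨ N' = N} = Cfsg.layer G := by
  classical
  haveI hLn := Comp.layer_normal (G := G)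
  have hnil : ∀ H : Subgroup G, H.IsSubnormal → Group.IsNilpotent ↥H → H = ⊥ := by
    intro H h1 h2
    rw [eq_bot_iff, ← hF]; exact Fit.sn_nilpotent_le_fitting h1 h2
  apply le_antisymm
  · apply sSup_le
    rintro N ⟨hN1, hNn, hNmin⟩
    have hex' : ∃ n, ∃ L : Subgroup G, L ≠ ⊥ ∧ L.IsSubnormal ∧ L ≤ N ∧ Nat.card L = n :=
      ⟨_, N, hN1, hNn.isSubnormal, le_rfl, rfl⟩
    obtain ⟨L, hL1, hLsn, hLN, hLc⟩ := Nat.find_spec hex'
    have hLmin : ∀ L' : Subgroup G, L' ≠ ⊥ → L'.IsSubnormal → L' ≤ L → L' = L := by
      intro L' h1 h2 h3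
      have h4 := Nat.find_min' hex' ⟨L', h1, h2, h3.trans hLN, rfl⟩
      rw [← hLc] at h4
      exact Subgroup.eq_of_le_of_card_ge h3 h4
    have hLsimple : ∀ X : Subgroup G, X ≤ L → L ≤ Subgroup.normalizer (X : Set G) →
        X = ⊥ ∨ X = L := by
      intro X hX hXn
      by_cases hX1 : X = ⊥
      · exact Or.inl hX1
      · exact Or.inr (hLmin X hX1 ((Sub.RelSN.of_normal hX hXn).isSubnormal hLsn) hX)
    have hperf : ⁅L, L⁆ = L := by
      rcases hLsimple ⁅L, L⁆ (Sub.commutator_self_le L) (Sub.le_normalizer_commutator_self L)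
        with h | h
      · exfalso
        apply hL1
        apply hnil L hLsn
        exact Comp.nilpotent_of_commutator_central L (by rw [h]; exact Subgroup.commutator_bot_left _)
      · exact h
    have hq : Cfsg.IsQuasisimple ↥L := by
      apply Comp.quasisimple_of_normal_central L hperf hL1
      intro N' hN' hne
      rcases hLsimple (N'.map L.subtype) (Subgroup.map_subtype_le N')
        (Sub.map_subtype_normalizer N' hN') with h | h
      · have hb : N' = ⊥ := by
          rw [eq_bot_iff]; intro x hx
          have hx' : (x : G) ∈ N'.map L.subtype := ⟨x, hx, rfl⟩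
          rw [h, Subgroup.mem_bot] at hx'
          rw [Subgroup.mem_bot]
          exact Subtype.ext hx'
        rw [hb]; exact bot_le
      · exact absurd ((Sub.map_subtype_eq_self_iff N').mp h) hne
    have hcomp : Cfsg.IsComponent L := ⟨hLsn, hq⟩
    have h1 : Subgroup.normalClosure (L : Set G) ≤ N := by
      haveI := hNn; exact Subgroup.normalClosure_le_normal hLN
    have h2 : Subgroup.normalClosure (L : Set G) ≠ ⊥ := fun h =>
      hL1 (by rw [eq_bot_iff, ← h]; exact Subgroup.le_normalClosure)
    rcases hNmin _ Subgroup.normalClosure_normal h1 with h | h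
    · exact absurd h h2
    · rw [← h]
      exact Subgroup.normalClosure_le_normal (Comp.le_layer hcomp)
  · apply sSup_le
    intro K hK
    have hZ : Subgroup.center ↥K = ⊥ := by
      have h1 : ((Subgroup.center ↥K).map K.subtype).IsSubnormal :=
        (Sub.RelSN.of_normal (Subgroup.map_subtype_le _)
          (Sub.map_subtype_normalizer _ inferInstance)).isSubnormal hK.1
      have hab : ⁅(Subgroup.center ↥K).map K.subtype, (Subgroup.center ↥K).map K.subtype⁆ = ⊥ := by
        rw [Subgroup.commutator_eq_bot_iff_le_centralizer]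
        rintro _ ⟨a, ha, rfl⟩
        rw [Subgroup.mem_centralizer_iff]
        rintro _ ⟨b, hb, rfl⟩
        have := Subgroup.mem_center_iff.mp ha b
        exact congrArg Subtype.val this
      have h2 : Group.IsNilpotent ↥((Subgroup.center ↥K).map K.subtype) :=
        Comp.nilpotent_of_commutator_central _ (by rw [hab]; exact Subgroup.commutator_bot_left _)
      have h3 := hnil _ h1 h2
      rw [eq_bot_iff]; intro x hx
      have hx' : (x : G) ∈ (Subgroup.center ↥K).map K.subtype := ⟨x, hx, rfl⟩
      rw [h3, Subgroup.mem_bot] at hx'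
      rw [Subgroup.mem_bot]
      exact Subtype.ext hx'
    obtain ⟨h1, h2⟩ := normalClosure_minimal K hK hZ
    exact le_trans Subgroup.le_normalClosure (le_sSup ⟨h1, Subgroup.normalClosure_normal, h2⟩)

end Cfsg.Agent.Lib.Helper6.MinNormal
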