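import Mathlib

set_option autoImplicit false

namespace Cfsg.Agent.Lib.Helper6.Q8S4
open QuaternionGroup

def tbl : Fin 4 → Fin 4 → Fin 4 → QuaternionGroup 2 × QuaternionGroup 2
  | 0, 1, 2 => (a 1, xa 0)
  | 0, 1, 3 => (xa 2, a 3)
  | 0, 2, 1 => (a 3, xa 1)
  | 0, 2, 3 => (xa 3, a 1)
  | 0, 3, 1 => (xa 0, xa 3)
  | 0, 3, 2 => (xa 1, xa 2)
  | 1, 0, 2 => (xa 0, a 1)
  | 1, 0, 3 => (a 3, xa 2)
  | 1, 2, 0 => (xa 2, xa 3)
  | 1, 2, 3 => (xa 1, xa 0)
  | 1, 3, 0 => (a 1, xa 1)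
  | 1, 3, 2 => (xa 3, a 3)
  | 2, 0, 1 => (xa 1, a 3)
  | 2, 0, 3 => (a 1, xa 3)
  | 2, 1, 0 => (xa 3, xa 2)
  | 2, 1, 3 => (xa 0, xa 1)
  | 2, 3, 0 => (a 3, xa 0)
  | 2, 3, 1 => (xa 2, a 1)
  | 3, 0, 1 => (xa 3, xa 0)
  | 3, 0, 2 => (xa 2, xa 1)
  | 3, 1, 0 => (xa 1, a 1)
  | 3, 1, 2 => (a 3, xa 3)
  | 3, 2, 0 => (xa 0, a 3)
  | 3, 2, 1 => (a 1, xa 2)
  | _, _, _ => (a 1, xa 0)

def ev (p : QuaternionGroup 2 × QuaternionGroup 2) : QuaternionGroup 2 → QuaternionGroup 2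
  | a k => p.1 ^ k.val
  | xa k => p.2 * p.1 ^ k.val

def F (σ : Equiv.Perm (Fin 4)) (x : QuaternionGroup 2) : QuaternionGroup 2 :=
  ev (tbl (σ 0) (σ 1) (σ 2)) x

set_option maxRecDepth 100000 in
theorem F_one : ∀ x : QuaternionGroup 2, F 1 x = x := by decide

set_option maxRecDepth 100000 in
theorem F_mul : ∀ σ : Equiv.Perm (Fin 4), ∀ x y : QuaternionGroup 2,
    F σ (x * y) = F σ x * F σ y := by decide

set_option maxRecDepth 100000 in
theorem F_comp : ∀ σ τ : Equiv.Perm (Fin 4), ∀ x : QuaternionGroup 2,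
    F (σ * τ) x = F σ (F τ x) := by decide

set_option maxRecDepth 100000 in
theorem F_inj : ∀ σ : Equiv.Perm (Fin 4), (∀ x : QuaternionGroup 2, F σ x = x) → σ = 1 := by
  decide

set_option maxRecDepth 100000 in
theorem F_surj : ∀ u v : QuaternionGroup 2, u * u ≠ 1 → v * v ≠ 1 → v ≠ u → v ≠ u⁻¹ →
    ∃ σ : Equiv.Perm (Fin 4), tbl (σ 0) (σ 1) (σ 2) = (u, v) := by decide

def toAut (σ : Equiv.Perm (Fin 4)) : MulAut (QuaternionGroup 2) :=
  { toFun := F σ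
    invFun := F σ⁻¹
    left_inv := fun x => by rw [← F_comp, inv_mul_cancel, F_one]
    right_inv := fun x => by rw [← F_comp, mul_inv_cancel, F_one]
    map_mul' := F_mul σ }

def hom : Equiv.Perm (Fin 4) →* MulAut (QuaternionGroup 2) where
  toFun := toAut
  map_one' := by
    ext x
    exact F_one x
  map_mul' σ τ := by
    ext x
    exact F_comp σ τ x

theorem hom_inj : Function.Injective hom := by
  rw [injective_iff_map_eq_one]
  intro σ h
  apply F_inj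
  intro x
  exact congrArg (fun f : MulAut (QuaternionGroup 2) => f x) h

theorem a_pow : ∀ k : ZMod (2 * 2), (a 1 : QuaternionGroup 2) ^ k.val = a k := by decide

theorem xa_pow : ∀ k : ZMod (2 * 2), (xa 0 : QuaternionGroup 2) * a 1 ^ k.val = xa k := by decide

theorem hom_surj : Function.Surjective hom := by
  intro τ
  have h1 : τ (a 1) * τ (a 1) ≠ 1 := by
    rw [← map_mul]
    intro h
    have h5 := τ.injective (h.trans (map_one τ).symm)
    exact absurd h5 (by decide)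
  have h2 : τ (xa 0) * τ (xa 0) ≠ 1 := by
    rw [← map_mul]
    intro h
    have h5 := τ.injective (h.trans (map_one τ).symm)
    exact absurd h5 (by decide)
  have h3 : τ (xa 0) ≠ τ (a 1) := fun h => absurd (τ.injective h) (by decide)
  have h4 : τ (xa 0) ≠ (τ (a 1))⁻¹ := by
    rw [← map_inv]
    exact fun h => absurd (τ.injective h) (by decide)
  obtain ⟨σ, hσ⟩ := F_surj _ _ h1 h2 h3 h4
  refine ⟨σ, ?_⟩
  ext x
  show F σ x = τ x
  unfold F
  rw [hσ]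
  cases x with
  | a k =>
    show τ (a 1) ^ k.val = τ (a k)
    rw [← map_pow, a_pow]
  | xa k =>
    show τ (xa 0) * τ (a 1) ^ k.val = τ (xa k)
    rw [← map_pow, ← map_mul, xa_pow]

theorem main : Nonempty (MulAut (QuaternionGroup 2) ≃* Equiv.Perm (Fin 4)) :=
  ⟨(MulEquiv.ofBijective hom ⟨hom_inj, hom_surj⟩).symm⟩

end Cfsg.Agent.Lib.Helper6.Q8S4
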