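import Mathlib
import Cfsg.Agent.Lib.Helper6.SylowConj
import Cfsg.Agent.Lib.Helper6.ASMax
import Cfsg.Agent.Lib.Helper2.HomoCyc

namespace Cfsg.Agent.Lib.Helper6.Q8Syl

open Cfsg.Agent.Lib.Helper6 Cfsg.Agent.Lib.Helper2

variable {G : Type*} [Group G] [Finite G]

/-- Order-4 subgroups of a group with a unique involution are cyclic and contain the involution. -/
theorem cyclic_of_card_four (S₀ : Subgroup G) (z : G)
    (hinv : ∀ x ∈ S₀, x * x = 1 → x = 1 ∨ x = z)
    (X : Subgroup G) (hXS : X ≤ S₀) (hX : Nat.card X = 4) :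
    z ∈ X ∧ z ≠ 1 ∧ ∃ a ∈ X, orderOf a = 4 ∧ X = Subgroup.zpowers a := by
  classical
  haveI : Fact (Nat.Prime 2) := ⟨Nat.prime_two⟩
  obtain ⟨t, ht⟩ := exists_prime_orderOf_dvd_card' (G := ↥X) 2 (by rw [hX]; norm_num)
  have ht2 : (t : G) * (t : G) = 1 := by
    have h1 := pow_orderOf_eq_one t
    rw [ht] at h1
    have h2 := congrArg Subtype.val h1
    simpa [pow_two] using h2
  have ht1 : (t : G) ≠ 1 := by
    intro h
    have : t = 1 := Subtype.ext h
    rw [this, orderOf_one] at ht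
    norm_num at ht
  have htz : (t : G) = z := by
    rcases hinv t (hXS t.2) ht2 with h | h
    · exact absurd h ht1
    · exact h
  have hzX : z ∈ X := htz ▸ t.2
  have hz1 : z ≠ 1 := htz ▸ ht1
  refine ⟨hzX, hz1, ?_⟩
  have hex : ∃ a ∈ X, a ≠ 1 ∧ a ≠ z := by
    by_contra hcon
    push_neg at hcon
    have hsub : (X : Set G) ⊆ {1, z} := by
      intro a ha
      by_cases h1 : a = 1
      · left; exact h1
      · right; exact hcon a ha h1
    have h2 : (X : Set G).ncard ≤ 2 := by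
      calc (X : Set G).ncard ≤ ({1, z} : Set G).ncard := Set.ncard_le_ncard hsub
        _ ≤ 2 := by rw [Set.ncard_pair hz1.symm]
    have h3 : (X : Set G).ncard = 4 := by
      rw [← hX]; exact (Nat.card_coe_set_eq (X : Set G)).symm
    omega
  obtain ⟨a, haX, ha1, haz⟩ := hex
  have haa : a * a ≠ 1 := by
    intro h
    rcases hinv a (hXS haX) h with h' | h'
    · exact ha1 h'
    · exact haz h'
  have hord : orderOf a ∣ 4 := by
    have h1 : orderOf (⟨a, haX⟩ : ↥X) ∣ Nat.card ↥X := orderOf_dvd_natCard _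
    rw [hX, Subgroup.orderOf_mk] at h1
    exact h1
  have ho4 : orderOf a = 4 := by
    have hle : orderOf a ≤ 4 := Nat.le_of_dvd (by norm_num) hord
    have hpos : 0 < orderOf a := orderOf_pos a
    interval_cases h : orderOf a
    · exact absurd (orderOf_eq_one_iff.mp h) ha1
    · exfalso; apply haa
      have := pow_orderOf_eq_one a
      rw [h, pow_two] at this
      exact this
    · norm_num at hord
    · rfl
  refine ⟨a, haX, ho4, ?_⟩
  symm
  apply Subgroup.eq_of_le_of_card_ge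
  · rw [Subgroup.zpowers_le]; exact haX
  · rw [hX, Nat.card_zpowers, ho4]

/-- Two distinct order-4 subgroups meet in `{1, z}`. -/
theorem inter_eq (S₀ : Subgroup G) (z : G)
    (hinv : ∀ x ∈ S₀, x * x = 1 → x = 1 ∨ x = z)
    (X Y : Subgroup G) (hXS : X ≤ S₀) (hYS : Y ≤ S₀) (hX : Nat.card X = 4) (hY : Nat.card Y = 4)
    (hXY : X ≠ Y) : ((X : Set G) ∩ (Y : Set G)) = {1, z} := by
  obtain ⟨hzX, hz1, -⟩ := cyclic_of_card_four S₀ z hinv X hXS hX
  obtain ⟨hzY, -, -⟩ := cyclic_of_card_four S₀ z hinv Y hYS hY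
  ext w
  constructor
  · rintro ⟨hwX, hwY⟩
    by_cases hww : w * w = 1
    · rcases hinv w (hXS hwX) hww with h | h
      · left; exact h
      · right; exact h
    · exfalso
      apply hXY
      have hord : orderOf w ∣ 4 := by
        have h1 : orderOf (⟨w, hwX⟩ : ↥X) ∣ Nat.card ↥X := orderOf_dvd_natCard _
        rw [hX, Subgroup.orderOf_mk] at h1
        exact h1
      have ho4 : orderOf w = 4 := by
        have hle : orderOf w ≤ 4 := Nat.le_of_dvd (by norm_num) hord
        have hpos : 0 < orderOf w := orderOf_pos w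
        interval_cases h : orderOf w
        · exfalso; apply hww
          rw [orderOf_eq_one_iff.mp h, one_mul]
        · exfalso; apply hww
          have := pow_orderOf_eq_one w
          rw [h, pow_two] at this
          exact this
        · norm_num at hord
        · rfl
      have e1 : Subgroup.zpowers w = X := by
        apply Subgroup.eq_of_le_of_card_ge
        · rw [Subgroup.zpowers_le]; exact hwX
        · rw [hX, Nat.card_zpowers, ho4]
      have e2 : Subgroup.zpowers w = Y := by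
        apply Subgroup.eq_of_le_of_card_ge
        · rw [Subgroup.zpowers_le]; exact hwY
        · rw [hY, Nat.card_zpowers, ho4]
      rw [← e1, e2]
  · rintro (h | h)
    · rw [h]; exact ⟨X.one_mem, Y.one_mem⟩
    · rw [h]; exact ⟨hzX, hzY⟩

/-- Three distinct order-4 subgroups cover a group of order 8 with a unique involution. -/
theorem cover (S₀ : Subgroup G) (z : G) (hS : Nat.card S₀ = 8)
    (hinv : ∀ x ∈ S₀, x * x = 1 → x = 1 ∨ x = z)
    (X Y W : Subgroup G) (hXS : X ≤ S₀) (hYS : Y ≤ S₀) (hWS : W ≤ S₀)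
    (hX : Nat.card X = 4) (hY : Nat.card Y = 4) (hW : Nat.card W = 4)
    (hXY : X ≠ Y) (hXW : X ≠ W) (hYW : Y ≠ W) :
    ∀ b ∈ S₀, b ∈ X ∨ b ∈ Y ∨ b ∈ W := by
  classical
  obtain ⟨-, hz1, -⟩ := cyclic_of_card_four S₀ z hinv X hXS hX
  have nX : (X : Set G).ncard = 4 := by
    rw [← hX]; exact (Nat.card_coe_set_eq (X : Set G)).symm
  have nY : (Y : Set G).ncard = 4 := by
    rw [← hY]; exact (Nat.card_coe_set_eq (Y : Set G)).symm
  have nW : (W : Set G).ncard = 4 := by
    rw [← hW]; exact (Nat.card_coe_set_eq (W : Set G)).symm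
  have nS : (S₀ : Set G).ncard = 8 := by
    rw [← hS]; exact (Nat.card_coe_set_eq (S₀ : Set G)).symm
  have n2 : ({1, z} : Set G).ncard = 2 := Set.ncard_pair hz1.symm
  have h1 := Set.ncard_union_add_ncard_inter (X : Set G) (Y : Set G)
  rw [inter_eq S₀ z hinv X Y hXS hYS hX hY hXY, n2, nX, nY] at h1
  have h2 := Set.ncard_union_add_ncard_inter ((X : Set G) ∪ (Y : Set G)) (W : Set G)
  have h3 : ((X : Set G) ∪ (Y : Set G)) ∩ (W : Set G) = {1, z} := by
    rw [Set.union_inter_distrib_right, inter_eq S₀ z hinv X W hXS hWS hX hW hXW,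
      inter_eq S₀ z hinv Y W hYS hWS hY hW hYW, Set.union_self]
  rw [h3, n2, nW] at h2
  have hsub : ((X : Set G) ∪ (Y : Set G)) ∪ (W : Set G) ⊆ (S₀ : Set G) := by
    intro b hb
    rcases hb with (hb | hb) | hb
    · exact hXS hb
    · exact hYS hb
    · exact hWS hb
  have heq := Set.eq_of_subset_of_ncard_le hsub (by rw [nS]; omega)
  intro b hb
  have hb' : b ∈ ((X : Set G) ∪ (Y : Set G)) ∪ (W : Set G) := by rw [heq]; exact hb
  rcases hb' with (hb' | hb') | hb'
  · exact Or.inl hb'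
  · exact Or.inr (Or.inl hb')
  · exact Or.inr (Or.inr hb')

/-- At most three subgroups of order 4. -/
theorem eq_of_three (S₀ : Subgroup G) (z : G) (hS : Nat.card S₀ = 8)
    (hinv : ∀ x ∈ S₀, x * x = 1 → x = 1 ∨ x = z)
    (X Y W B : Subgroup G) (hXS : X ≤ S₀) (hYS : Y ≤ S₀) (hWS : W ≤ S₀) (hBS : B ≤ S₀)
    (hX : Nat.card X = 4) (hY : Nat.card Y = 4) (hW : Nat.card W = 4) (hB : Nat.card B = 4)
    (hXY : X ≠ Y) (hXW : X ≠ W) (hYW : Y ≠ W) : B = X ∨ B = Y ∨ B = W := by
  obtain ⟨-, -, b, hbB, hb4, hBz⟩ := cyclic_of_card_four S₀ z hinv B hBS hB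
  have key : ∀ V : Subgroup G, Nat.card V = 4 → b ∈ V → B = V := by
    intro V hV hbV
    apply Subgroup.eq_of_le_of_card_ge
    · rw [hBz, Subgroup.zpowers_le]; exact hbV
    · rw [hV, hB]
  rcases cover S₀ z hS hinv X Y W hXS hYS hWS hX hY hW hXY hXW hYW b (hBS hbB) with h | h | h
  · exact Or.inl (key X hX h)
  · exact Or.inr (Or.inl (key Y hY h))
  · exact Or.inr (Or.inr (key W hW h))

/-- An odd-order element normalizing a cyclic 2-group `⟨a⟩` centralizes `a`. -/
theorem commute_of_odd (a g : G) (k : ℕ) (ha : orderOf a = 2 ^ k) (hodd : Odd (orderOf g))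
    (hg : g ∈ Subgroup.normalizer ((Subgroup.zpowers a : Subgroup G) : Set G)) : g * a = a * g := by
  obtain ⟨c, hc⟩ := SylowConj.pow_two_commute a g k ha hg
  have hcop : (2 ^ c).Coprime (orderOf g) := Nat.Coprime.pow_left _ (Nat.coprime_two_left.mpr hodd)
  obtain ⟨m, hm⟩ := exists_pow_eq_self_of_coprime hcop
  have h1 : Commute (g ^ 2 ^ c) a := hc
  have h2 : Commute ((g ^ 2 ^ c) ^ m) a := h1.pow_left m
  rw [hm] at h2
  exact h2

/-- An odd-order element of `N_G(S₀) \ C_G(S₀)` normalizes no subgroup of order 4. -/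
theorem not_normalize (S₀ : Subgroup G) (z : G) (hS : Nat.card S₀ = 8)
    (hinv : ∀ x ∈ S₀, x * x = 1 → x = 1 ∨ x = z)
    (g : G) (hgS : g ∈ Subgroup.normalizer (S₀ : Set G)) (hodd : Odd (orderOf g))
    (hgC : g ∉ Subgroup.centralizer (S₀ : Set G))
    (A : Subgroup G) (hAS : A ≤ S₀) (hA : Nat.card A = 4) :
    g ∉ Subgroup.normalizer (A : Set G) := by
  intro hgA
  apply hgC
  obtain ⟨-, -, a, haA, ha4, hAz⟩ := cyclic_of_card_four S₀ z hinv A hAS hA
  have hga : g * a = a * g := by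
    apply commute_of_odd a g 2 (by rw [ha4]; norm_num) hodd
    rw [← hAz]; exact hgA
  have hgA' : ∀ x ∈ A, g * x * g⁻¹ = x := by
    intro x hx
    rw [hAz] at hx
    obtain ⟨i, rfl⟩ := Subgroup.mem_zpowers_iff.mp hx
    have h1 : Commute g a := hga
    have h2 : Commute g (a ^ i) := h1.zpow_right i
    rw [h2.eq, mul_inv_cancel_right]
  have hidx : (A.subgroupOf S₀).index = 2 := by
    have h1 := Subgroup.card_mul_index (A.subgroupOf S₀)
    rw [hS] at h1
    have h2 : Nat.card ↥(A.subgroupOf S₀) = 4 := by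
      rw [← hA]
      exact Nat.card_congr (Subgroup.subgroupOfEquivOfLe hAS).toEquiv
    rw [h2] at h1
    omega
  rw [Subgroup.mem_centralizer_iff]
  intro s hs
  by_cases hsA : s ∈ A
  · have := hgA' s hsA
    calc s * g = (g * s * g⁻¹) * g := by rw [this]
      _ = g * s := by group
  · -- y := g s g⁻¹ s⁻¹ ∈ A
    have hgs : g * s * g⁻¹ ∈ S₀ := (Subgroup.mem_normalizer_iff.mp hgS s).mp hs
    have hgsA : g * s * g⁻¹ ∉ A := fun h => hsA ((Subgroup.mem_normalizer_iff.mp hgA s).mpr h)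
    have hyA : g * s * g⁻¹ * s⁻¹ ∈ A := by
      have h1 := Subgroup.mul_mem_iff_of_index_two hidx
        (a := (⟨g * s * g⁻¹, hgs⟩ : ↥S₀)) (b := (⟨s, hs⟩ : ↥S₀)⁻¹)
      have h2 : ((⟨g * s * g⁻¹, hgs⟩ : ↥S₀) ∈ A.subgroupOf S₀ ↔
          (⟨s, hs⟩ : ↥S₀)⁻¹ ∈ A.subgroupOf S₀) := by
        constructor
        · intro h; exact absurd (Subgroup.mem_subgroupOf.mp h) hgsA
        · intro h
          have h3 := (A.subgroupOf S₀).inv_mem h
          rw [inv_inv] at h3
          exact absurd (Subgroup.mem_subgroupOf.mp h3) hsA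
      have h4 := h1.mpr h2
      exact Subgroup.mem_subgroupOf.mp h4
    have hy : g * (g * s * g⁻¹ * s⁻¹) * g⁻¹ = g * s * g⁻¹ * s⁻¹ := hgA' _ hyA
    have hx : g * s * g⁻¹ = (g * s * g⁻¹ * s⁻¹) * s := by group
    have h5 := HomoCyc.conj_pow_eq hy hx (orderOf g)
    rw [pow_orderOf_eq_one, one_mul, inv_one, mul_one] at h5
    have h6 : (g * s * g⁻¹ * s⁻¹) ^ orderOf g = 1 := by
      have := congrArg (fun t => t * s⁻¹) h5
      simp only [mul_inv_cancel, mul_inv_cancel_right] at this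
      exact this.symm
    have h7 : (g * s * g⁻¹ * s⁻¹) ^ 4 = 1 := by
      have h8 : orderOf (⟨g * s * g⁻¹ * s⁻¹, hyA⟩ : ↥A) ∣ Nat.card ↥A := orderOf_dvd_natCard _
      rw [hA, Subgroup.orderOf_mk] at h8
      exact orderOf_dvd_iff_pow_eq_one.mp h8
    have h9 : orderOf (g * s * g⁻¹ * s⁻¹) ∣ Nat.gcd (orderOf g) 4 :=
      Nat.dvd_gcd (orderOf_dvd_of_pow_eq_one h6) (orderOf_dvd_of_pow_eq_one h7)
    have h10 : Nat.gcd (orderOf g) 4 = 1 := by
      have : (orderOf g).Coprime (2 ^ 2) := Nat.Coprime.pow_right _ (Nat.coprime_two_right.mpr hodd)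
      exact this
    rw [h10, Nat.dvd_one, orderOf_eq_one_iff] at h9
    have h11 : g * s * g⁻¹ = s := by
      have := congrArg (fun t => t * s) h9
      simpa using this
    calc s * g = (g * s * g⁻¹) * g := by rw [h11]
      _ = g * s := by group

theorem map_conj_twice {G : Type*} [Group G] (H : Subgroup G) (g : G) :
    (H.map (MulAut.conj g).toMonoidHom).map (MulAut.conj g).toMonoidHom =
      H.map (MulAut.conj (g * g)).toMonoidHom := by
  ext x
  simp only [ASMax.mem_map_conj]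
  have e : g⁻¹ * (g⁻¹ * x * g) * g = (g * g)⁻¹ * x * (g * g) := by group
  rw [e]

end Cfsg.Agent.Lib.Helper6.Q8Syl
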