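import Mathlib

set_option autoImplicit false

namespace Cfsg.Agent.Lib.Helper6.SL23S

/-- The concrete group `SL(2, 3)`. -/
abbrev G3 := Matrix.SpecialLinearGroup (Fin 2) (ZMod 3)

set_option maxRecDepth 1000000 in
theorem F0 : Fintype.card G3 = 24 := by decide +kernel
set_option maxRecDepth 1000000 in
theorem F1 : ∀ g : G3, g^4 ≠ 1 → ∃ x : G3, (x * g * x⁻¹ * g⁻¹)^4 = 1 ∧ (x * g * x⁻¹ * g⁻¹)^2 ≠ 1 := by decide +kernel
set_option maxRecDepth 1000000 in
theorem F2 : ∀ g : G3, g^4 = 1 → g^2 ≠ 1 → ∀ h : G3, h^4 = 1 → ∃ x y : G3, h = x * g * x⁻¹ * (y * g * y⁻¹) := by decide +kernel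
set_option maxRecDepth 1000000 in
theorem F3 : ∀ g : G3, g^2 = 1 → g = 1 ∨ g = -1 := by decide +kernel
set_option maxRecDepth 1000000 in
theorem F4 : ∀ g : G3, (∀ h : G3, h * g = g * h) ↔ (g = 1 ∨ g = -1) := by decide +kernel
set_option maxRecDepth 1000000 in
theorem F5 : ∀ a b : G3, (a * b * a⁻¹ * b⁻¹)^4 = 1 := by decide +kernel
set_option maxRecDepth 1000000 in
theorem F5' : ∀ g : G3, g^4 = 1 → ∃ a b : G3, a * b * a⁻¹ * b⁻¹ = g := by decide +kernel
set_option maxRecDepth 1000000 in
theorem F6 : (Finset.univ.filter (fun g : G3 => g^4 = 1)).card = 8 := by decide +kernel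
set_option maxRecDepth 1000000 in
theorem F9 : (Finset.univ.filter (fun g : G3 => ∀ h : G3, h * g = g * h)).card = 2 := by decide +kernel
set_option maxRecDepth 1000000 in
theorem F10 : ∀ g h : G3, g^4 = 1 → h^4 = 1 → (g*h)^4 = 1 := by decide +kernel

def qA : G3 := ⟨!![0, 2; 1, 0], by decide⟩
def qX : G3 := ⟨!![1, 1; 1, 2], by decide⟩
def qf : QuaternionGroup 2 → G3
  | .a i => qA ^ i.val
  | .xa i => qX * qA ^ i.val

set_option maxRecDepth 1000000 in
theorem qf_mul : ∀ x y : QuaternionGroup 2, qf (x * y) = qf x * qf y := by decide +kernel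
set_option maxRecDepth 1000000 in
theorem qf_inj : ∀ x y : QuaternionGroup 2, qf x = qf y → x = y := by decide +kernel
set_option maxRecDepth 1000000 in
theorem qf_mem : ∀ x : QuaternionGroup 2, (qf x)^4 = 1 := by decide +kernel

theorem main :
    Nat.card G3 = 24 ∧ Nat.card (Subgroup.center G3) = 2 ∧ Nat.card (commutator G3) = 8 ∧
    Nonempty (commutator G3 ≃* QuaternionGroup 2) ∧
    (∀ P : Sylow 3 G3, Subgroup.IsComplement' (commutator G3) (P : Subgroup G3)) ∧
    ∀ N : Subgroup G3, N.Normal →
      N = ⊥ ∨ N = ⊤ ∨ N = Subgroup.center G3 ∨ N = commutator G3 := by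
  classical
  have hG : Nat.card G3 = 24 := by rw [Nat.card_eq_fintype_card]; exact F0
  let Q : Subgroup G3 :=
    { carrier := {g | g^4 = 1}
      mul_mem' := fun {a b} ha hb => F10 a b ha hb
      one_mem' := one_pow 4
      inv_mem' := fun {a} ha => by
        show (a⁻¹)^4 = 1
        rw [inv_pow]
        have ha' : a^4 = 1 := ha
        rw [ha', inv_one] }
  have hQmem : ∀ g : G3, g ∈ Q ↔ g^4 = 1 := fun g => Iff.rfl
  have hQcard : Nat.card Q = 8 := by
    have h1 : Nat.card Q = Nat.card {g : G3 // g^4 = 1} := rfl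
    rw [h1, Nat.card_eq_fintype_card, Fintype.card_subtype]
    convert F6
  have hZ : ∀ g : G3, g ∈ Subgroup.center G3 ↔ (g = 1 ∨ g = -1) := fun g => by
    rw [Subgroup.mem_center_iff]; exact F4 g
  have hZcard : Nat.card (Subgroup.center G3) = 2 := by
    have h1 : Nat.card (Subgroup.center G3) = Nat.card {g : G3 // ∀ h : G3, h * g = g * h} :=
      Nat.card_congr (Equiv.subtypeEquivRight (fun g => Subgroup.mem_center_iff))
    rw [h1, Nat.card_eq_fintype_card, Fintype.card_subtype]
    convert F9
  have hcomm : commutator G3 = Q := by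
    apply le_antisymm
    · rw [commutator_def, Subgroup.commutator_le]
      intro a _ b _
      exact F5 a b
    · intro g hg
      obtain ⟨a, b, hab⟩ := F5' g hg
      rw [← hab, ← commutatorElement_def, commutator_def]
      exact Subgroup.commutator_mem_commutator (Subgroup.mem_top a) (Subgroup.mem_top b)
  let F : QuaternionGroup 2 →* G3 := MonoidHom.mk' qf qf_mul
  have hFinj : Function.Injective F := fun x y h => qf_inj x y h
  have hFr : F.range = Q := by
    apply Subgroup.eq_of_le_of_card_ge
    · rintro _ ⟨x, rfl⟩; exact qf_mem x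
    · rw [hQcard, Nat.card_congr (MonoidHom.ofInjective hFinj).symm.toEquiv,
        Nat.card_eq_fintype_card, QuaternionGroup.card]
  refine ⟨hG, hZcard, by rw [hcomm]; exact hQcard, ?_, ?_, ?_⟩
  · exact ⟨(MulEquiv.subgroupCongr (hcomm.trans hFr.symm)).trans
      (MonoidHom.ofInjective hFinj).symm⟩
  · intro P
    rw [hcomm]
    haveI : Fact (Nat.Prime 3) := ⟨Nat.prime_three⟩
    have hPcard : Nat.card (P : Subgroup G3) = 3 := by
      obtain ⟨n, hn⟩ := (IsPGroup.iff_card).mp P.isPGroup'
      have h1 := (P : Subgroup G3).card_mul_index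
      have h2 := P.not_dvd_index
      rw [hG, hn] at h1
      have h3 : n = 1 := by
        rcases Nat.lt_or_ge n 2 with h | h
        · interval_cases n
          · exfalso; apply h2
            have h5 : (P : Subgroup G3).index = 24 := by simpa using h1
            rw [h5]; norm_num
          · rfl
        · exfalso
          have : 3^2 ∣ 24 := (pow_dvd_pow 3 h).trans (Dvd.intro _ h1)
          norm_num at this
      rw [hn, h3]; norm_num
    apply Subgroup.isComplement'_of_coprime
    · rw [hQcard, hPcard, hG]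
    · rw [hQcard, hPcard]; norm_num
  · intro N hN
    by_cases hA : ∃ g ∈ N, g^4 ≠ 1
    · obtain ⟨g, hgN, hg4⟩ := hA
      right; left
      obtain ⟨x, hx4, hx2⟩ := F1 g hg4
      have hxN : x * g * x⁻¹ * g⁻¹ ∈ N := N.mul_mem (hN.conj_mem g hgN x) (N.inv_mem hgN)
      have hQN : Q ≤ N := fun h hh => by
        obtain ⟨u, v, huv⟩ := F2 _ hx4 hx2 h hh
        rw [huv]; exact N.mul_mem (hN.conj_mem _ hxN u) (hN.conj_mem _ hxN v)
      have h1 : Nat.card Q ∣ Nat.card N := Subgroup.card_dvd_of_le hQN
      have h2 : Nat.card N ∣ Nat.card G3 := Subgroup.card_subgroup_dvd_card N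
      rw [hQcard] at h1; rw [hG] at h2
      have h3 : Nat.card N ≠ 8 := fun h8 => by
        have : Q = N := Subgroup.eq_of_le_of_card_ge hQN (by rw [hQcard, h8])
        rw [← this] at hgN; exact hg4 hgN
      have h4 : Nat.card N = 24 := by
        obtain ⟨k, hk⟩ := h1
        have hk24 : 8 * k ∣ 8 * 3 := by rw [← hk]; exact h2
        have : k ∣ 3 := (Nat.mul_dvd_mul_iff_left (by norm_num)).mp hk24
        have hk3 : k = 1 ∨ k = 3 := (Nat.dvd_prime Nat.prime_three).mp this
        rcases hk3 with rfl | rfl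
        · exact absurd hk (by simpa using h3)
        · simpa using hk
      exact Subgroup.eq_top_of_card_eq N (by rw [h4, hG])
    · push Not at hA
      by_cases hB : ∃ g ∈ N, g^2 ≠ 1
      · obtain ⟨g, hgN, hg2⟩ := hB
        right; right; right
        rw [hcomm]
        apply le_antisymm
        · exact fun g hg => hA g hg
        · intro h hh
          obtain ⟨u, v, huv⟩ := F2 g (hA g hgN) hg2 h hh
          rw [huv]; exact N.mul_mem (hN.conj_mem _ hgN u) (hN.conj_mem _ hgN v)
      · push Not at hB
        by_cases hC : (-1 : G3) ∈ N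
        · right; right; left
          ext g; rw [hZ]; constructor
          · intro hg; exact F3 g (hB g hg)
          · rintro (rfl | rfl)
            · exact N.one_mem
            · exact hC
        · left
          rw [Subgroup.eq_bot_iff_forall]; intro g hg
          rcases F3 g (hB g hg) with h | h
          · exact h
          · rw [h] at hg; exact absurd hg hC

end Cfsg.Agent.Lib.Helper6.SL23S
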