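import Mathlib
import Cfsg.Prelude.Def_Transfer

namespace Cfsg.Agent.Lib.Helper6.Spec123

open Subgroup

variable {G : Type*} [Group G] [Finite G]

omit [Finite G] in
theorem ord_le3 (h : Set.range (orderOf : G → ℕ) = {k : ℕ | 1 ≤ k ∧ k ≤ 3}) (g : G) :
    orderOf g = 1 ∨ orderOf g = 2 ∨ orderOf g = 3 := by
  have : orderOf g ∈ Set.range (orderOf : G → ℕ) := ⟨g, rfl⟩
  rw [h] at this
  obtain ⟨h1, h3⟩ := this
  omega

/-- no element of order 6 -/
theorem no6 (h : Set.range (orderOf : G → ℕ) = {k : ℕ | 1 ≤ k ∧ k ≤ 3}) (u y : G)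
    (hu : u ^ 2 = 1) (hu1 : u ≠ 1) (hy : y ^ 3 = 1) (hy1 : y ≠ 1) (hc : u * y = y * u) : False := by
  have hcomm : Commute u y := hc
  have h2 : (u * y) ^ 2 = y ^ 2 := by rw [hcomm.mul_pow, hu, one_mul]
  have h3 : (u * y) ^ 3 = u := by
    rw [hcomm.mul_pow, hy, mul_one, pow_succ, hu, one_mul]
  have hy2 : y ^ 2 ≠ 1 := by
    intro h'
    apply hy1
    have : y ^ 3 = y := by rw [pow_succ, h', one_mul]
    rw [← this, hy]
  rcases ord_le3 h (u * y) with h1 | h1 | h1
  · rw [orderOf_eq_one_iff] at h1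
    apply hy2
    rw [← h2, h1, one_pow]
  · apply hy2
    rw [← h2, ← h1, pow_orderOf_eq_one]
  · apply hu1
    rw [← h3, ← h1, pow_orderOf_eq_one]

omit [Finite G] in
theorem inv_self_of_sq {s : G} (hs : s ^ 2 = 1) : s⁻¹ = s := by
  rw [inv_eq_iff_mul_eq_one, ← sq, hs]

theorem comm_of_sq {s t : G} (hs : s ^ 2 = 1) (ht : t ^ 2 = 1) (hst : (s * t) ^ 2 = 1) :
    s * t = t * s := by
  have h1 := inv_self_of_sq hst
  rw [mul_inv_rev, inv_self_of_sq hs, inv_self_of_sq ht] at h1
  exact h1.symm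

theorem braid {s t : G} (hs : s ^ 2 = 1) (ht : t ^ 2 = 1) (hst : (s * t) ^ 3 = 1) :
    s * t * s = t * s * t := by
  have e : s * t * s * (t * s * t) = 1 := by
    have : (s * t) ^ 3 = s * t * s * (t * s * t) := by
      simp only [pow_succ, pow_zero, one_mul]; group
    rw [← this, hst]
  calc s * t * s = s * t * s * (t * s * t) * (t * s * t)⁻¹ := by group
    _ = (t * s * t)⁻¹ := by rw [e, one_mul]
    _ = t⁻¹ * s⁻¹ * t⁻¹ := by group
    _ = t * s * t := by rw [inv_self_of_sq hs, inv_self_of_sq ht]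

theorem lemmaI (h : Set.range (orderOf : G → ℕ) = {k : ℕ | 1 ≤ k ∧ k ≤ 3}) (s u t : G)
    (hs : s ^ 2 = 1) (hu : u ^ 2 = 1) (ht : t ^ 2 = 1) (hu1 : u ≠ 1)
    (hsu : s ≠ u) (hc : s * u = u * s) : s * t = t * s := by
  by_contra hst
  have o3 : ∀ a b : G, a ^ 2 = 1 → b ^ 2 = 1 → a * b ≠ b * a → (a * b) ^ 3 = 1 := by
    intro a b ha hb hab
    rcases ord_le3 h (a * b) with h1 | h1 | h1
    · rw [orderOf_eq_one_iff] at h1
      exact absurd (comm_of_sq ha hb (by rw [h1, one_pow])) hab
    · exact absurd (comm_of_sq ha hb (by rw [← h1, pow_orderOf_eq_one])) hab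
    · rw [← h1, pow_orderOf_eq_one]
  have hst3 := o3 s t hs ht hst
  have hst1 : s * t ≠ 1 := by
    intro h1
    apply hst
    have : s = t := by
      have := mul_eq_one_iff_eq_inv.1 h1
      rw [inv_self_of_sq ht] at this
      exact this
    rw [this]
  by_cases hut : u * t = t * u
  · -- u commutes with s*t
    have hc2 : u * (s * t) = (s * t) * u := by
      calc u * (s * t) = (u * s) * t := by group
        _ = (s * u) * t := by rw [hc]
        _ = s * (u * t) := by group
        _ = s * (t * u) := by rw [hut]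
        _ = (s * t) * u := by group
    exact no6 h u (s * t) hu hu1 hst3 hst1 hc2
  · have hut3 := o3 u t hu ht hut
    have b1 := braid hs ht hst3
    have b2 := braid hu ht hut3
    have htt : t * t = 1 := by rw [← sq, ht]
    have hw2 : (s * t * u) ^ 2 = t * (s * u) * t := by
      calc (s * t * u) ^ 2 = s * t * (u * s) * t * u := by rw [sq]; group
        _ = s * t * (s * u) * t * u := by rw [hc]
        _ = (s * t * s) * (u * t * u) := by group
        _ = (t * s * t) * (t * u * t) := by rw [b1, b2]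
        _ = t * s * (t * t) * u * t := by group
        _ = t * (s * u) * t := by rw [htt]; group
    have hsu1 : s * u ≠ 1 := by
      intro h1
      apply hsu
      have := mul_eq_one_iff_eq_inv.1 h1
      rw [inv_self_of_sq hu] at this
      exact this
    have hw2ne : (s * t * u) ^ 2 ≠ 1 := by
      rw [hw2]
      intro h1
      apply hsu1
      have : s * u = t⁻¹ * (t * (s * u) * t) * t⁻¹ := by group
      rw [this, h1, mul_one, inv_self_of_sq ht, htt]
    have hsu2 : (s * u) * (s * u) = 1 := by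
      calc (s * u) * (s * u) = s * (u * s) * u := by group
        _ = s * (s * u) * u := by rw [hc]
        _ = (s * s) * (u * u) := by group
        _ = 1 := by rw [← sq, ← sq, hs, hu, one_mul]
    have hw4 : (s * t * u) ^ 4 = 1 := by
      have : (s * t * u) ^ 4 = ((s * t * u) ^ 2) ^ 2 := by rw [← pow_mul]
      rw [this, hw2, sq]
      calc t * (s * u) * t * (t * (s * u) * t) = t * (s * u) * (t * t) * (s * u) * t := by group
        _ = t * ((s * u) * (s * u)) * t := by rw [htt]; group
        _ = 1 := by rw [hsu2, mul_one, htt]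
    rcases ord_le3 h (s * t * u) with h1 | h1 | h1
    · rw [orderOf_eq_one_iff] at h1
      exact hw2ne (by rw [h1, one_pow])
    · exact hw2ne (by rw [← h1, pow_orderOf_eq_one])
    · have hd : orderOf (s * t * u) ∣ 4 := orderOf_dvd_of_pow_eq_one hw4
      rw [h1] at hd
      omega

/-- Case II: no two distinct involutions commute. -/
theorem caseII (h : Set.range (orderOf : G → ℕ) = {k : ℕ | 1 ≤ k ∧ k ≤ 3})
    (hno : ∀ s u : G, s ≠ 1 → u ≠ 1 → s ^ 2 = 1 → u ^ 2 = 1 → s ≠ u → s * u ≠ u * s) :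
    ∃ N : Subgroup G, N.Normal ∧ Cfsg.IsElementaryAbelian 3 N ∧ N.index = 2 := by
  classical
  haveI : Fact (Nat.Prime 2) := ⟨Nat.prime_two⟩
  obtain ⟨t0, ht0⟩ : ∃ t0 : G, orderOf t0 = 2 := by
    have : (2 : ℕ) ∈ Set.range (orderOf : G → ℕ) := by rw [h]; exact ⟨by norm_num, by norm_num⟩
    exact this
  have ht0sq : t0 ^ 2 = 1 := by rw [← ht0, pow_orderOf_eq_one]
  have ht01 : t0 ≠ 1 := by
    intro h1; rw [h1, orderOf_one] at ht0; omega
  have hz2 : IsPGroup 2 (zpowers t0) := IsPGroup.of_card (n := 1) (by rw [Nat.card_zpowers, ht0, pow_one])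
  obtain ⟨T, hT⟩ := hz2.exists_le_sylow
  have ht0T : t0 ∈ (T : Subgroup G) := hT (mem_zpowers t0)
  have hTsq : ∀ a ∈ (T : Subgroup G), a ^ 2 = 1 := by
    intro a ha
    obtain ⟨k, hk⟩ := (IsPGroup.iff_orderOf.1 T.isPGroup') ⟨a, ha⟩
    rw [Subgroup.orderOf_mk] at hk
    rcases ord_le3 h a with h1 | h1 | h1
    · rw [orderOf_eq_one_iff] at h1; rw [h1, one_pow]
    · rw [← h1, pow_orderOf_eq_one]
    · exfalso
      rw [h1] at hk
      have : (2 : ℕ) ∣ 3 := by
        rcases Nat.eq_zero_or_pos k with hk0 | hk0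
        · rw [hk0] at hk; omega
        · rw [hk]; exact dvd_pow_self 2 (by omega)
      omega
  have hTel : ∀ a ∈ (T : Subgroup G), a = 1 ∨ a = t0 := by
    intro a ha
    by_contra hcon
    push_neg at hcon
    have hc : a * t0 = t0 * a :=
      comm_of_sq (hTsq a ha) ht0sq (hTsq _ (mul_mem ha ht0T))
    exact hno a t0 hcon.1 ht01 (hTsq a ha) ht0sq hcon.2 hc
  have hTeq : (T : Subgroup G) = zpowers t0 := by
    apply le_antisymm _ hT
    intro a ha
    rcases hTel a ha with rfl | rfl
    · exact one_mem _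
    · exact mem_zpowers _
  have hTc : Nat.card (T : Subgroup G) = 2 := by rw [hTeq, Nat.card_zpowers, ht0]
  have hNC : normalizer ((T : Subgroup G) : Set G) ≤ centralizer ((T : Subgroup G) : Set G) := by
    intro g hg
    rw [mem_centralizer_iff]
    intro a ha
    rcases hTel a ha with rfl | rfl
    · rw [one_mul, mul_one]
    · have h1 : g * a * g⁻¹ ∈ (T : Subgroup G) := (mem_normalizer_iff.1 hg a).1 ha
      rcases hTel _ h1 with h2 | h2
      · exfalso
        apply ht01
        have : a = g⁻¹ * (g * a * g⁻¹) * g := by group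
        rw [this, h2]; group
      · have : g * a = a * g := by
          calc g * a = (g * a * g⁻¹) * g := by group
            _ = a * g := by rw [h2]
        exact this.symm
  set K := (MonoidHom.transferSylow T hNC).ker with hK
  have hKT : IsComplement' K (T : Subgroup G) := MonoidHom.ker_transferSylow_isComplement' T hNC
  haveI hKn : K.Normal := by rw [hK]; infer_instance
  have hKidx : K.index = 2 := by rw [← hTc]; exact hKT.symm.index_eq_card
  have hKodd : ¬ 2 ∣ Nat.card K := by
    intro hd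
    have h4 : 2 ^ 2 ∣ Nat.card G := by
      rw [← hKT.card_mul_card, hTc]
      obtain ⟨c, hc⟩ := hd
      rw [hc]; exact ⟨c, by ring⟩
    have := T.pow_dvd_card_of_pow_dvd_card h4
    rw [hTc] at this
    omega
  have hK3 : ∀ a ∈ K, a ^ 3 = 1 := by
    intro a ha
    rcases ord_le3 h a with h1 | h1 | h1
    · rw [orderOf_eq_one_iff] at h1; rw [h1, one_pow]
    · exfalso
      apply hKodd
      have : orderOf (⟨a, ha⟩ : K) = 2 := by rw [Subgroup.orderOf_mk, h1]
      rw [← this]; exact orderOf_dvd_natCard _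
    · rw [← h1, pow_orderOf_eq_one]
  refine ⟨K, hKn, ⟨?_, hK3⟩, hKidx⟩
  set φ : K →* K := (MulAut.conjNormal t0 : MulAut K).toMonoidHom with hφ
  have hφa : ∀ a : K, ((φ a : K) : G) = t0 * (a : G) * t0⁻¹ := fun a => rfl
  have hfpf : MonoidHom.FixedPointFree φ := by
    intro a ha
    by_contra ha1
    have h1 : t0 * (a : G) * t0⁻¹ = (a : G) := by rw [← hφa, ha]
    have hc : t0 * (a : G) = (a : G) * t0 := by
      calc t0 * (a : G) = (t0 * (a : G) * t0⁻¹) * t0 := by group
        _ = (a : G) * t0 := by rw [h1]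
    have ha1' : (a : G) ≠ 1 := fun h' => ha1 (Subtype.ext h')
    exact no6 h t0 (a : G) ht0sq ht01 (hK3 _ a.2) ha1' hc
  have hinv : Function.Involutive φ := by
    intro a
    apply Subtype.ext
    rw [hφa, hφa]
    calc t0 * (t0 * (a : G) * t0⁻¹) * t0⁻¹ = (t0 * t0) * (a : G) * (t0 * t0)⁻¹ := by group
      _ = (a : G) := by rw [← sq, ht0sq]; group
  exact ⟨⟨fun a b => (hfpf.commute_all_of_involutive hinv a b).eq⟩⟩

/-- Case I: some two distinct involutions commute. -/
theorem caseI (h : Set.range (orderOf : G → ℕ) = {k : ℕ | 1 ≤ k ∧ k ≤ 3}) (s0 u0 : G)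
    (hs01 : s0 ≠ 1) (hu01 : u0 ≠ 1) (hs0 : s0 ^ 2 = 1) (hu0 : u0 ^ 2 = 1) (hne : s0 ≠ u0)
    (hc0 : s0 * u0 = u0 * s0) :
    ∃ N : Subgroup G, N.Normal ∧ Cfsg.IsElementaryAbelian 2 N ∧ N.index = 3 := by
  classical
  have hs0all : ∀ t : G, t ^ 2 = 1 → s0 * t = t * s0 := fun t ht =>
    lemmaI h s0 u0 t hs0 hu0 ht hu01 hne hc0
  have hall : ∀ a b : G, a ^ 2 = 1 → b ^ 2 = 1 → a * b = b * a := by
    intro a b ha hb
    by_cases ha1 : a = s0
    · rw [ha1]; exact hs0all b hb
    · exact lemmaI h a s0 b ha hs0 hb hs01 ha1 (hs0all a ha).symm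
  let V : Subgroup G :=
    { carrier := {g | g ^ 2 = 1}
      mul_mem' := by
        intro a b ha hb
        show (a * b) ^ 2 = 1
        have hcab : Commute a b := hall a b ha hb
        rw [hcab.mul_pow, ha, hb, one_mul]
      one_mem' := one_pow 2
      inv_mem' := by
        intro a ha
        show (a⁻¹) ^ 2 = 1
        rw [inv_pow, ha, inv_one] }
  have hVmem : ∀ g : G, g ∈ V ↔ g ^ 2 = 1 := fun g => Iff.rfl
  haveI hVn : V.Normal := ⟨fun a ha g => by
    rw [hVmem] at ha ⊢
    rw [conj_pow, ha, mul_one, mul_inv_cancel]⟩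
  have hVc : ∀ a b : V, a * b = b * a := fun a b => Subtype.ext (hall a b a.2 b.2)
  refine ⟨V, hVn, ⟨⟨⟨hVc⟩⟩, fun a ha => ha⟩, ?_⟩
  obtain ⟨x0, hx0⟩ : ∃ x0 : G, orderOf x0 = 3 := by
    have : (3 : ℕ) ∈ Set.range (orderOf : G → ℕ) := by rw [h]; exact ⟨by norm_num, by norm_num⟩
    exact this
  have hx0V : x0 ∉ V := by
    intro hx
    rw [hVmem] at hx
    have := orderOf_dvd_of_pow_eq_one hx
    rw [hx0] at this
    omega
  haveI : Fact (Nat.Prime 3) := ⟨Nat.prime_three⟩
  have hcube : ∀ g : G, g ^ 3 ∈ V := by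
    intro g
    rcases ord_le3 h g with h1 | h1 | h1
    · rw [orderOf_eq_one_iff] at h1; rw [h1, one_pow]; exact one_mem _
    · have : g ∈ V := by rw [hVmem, ← h1, pow_orderOf_eq_one]
      exact pow_mem this 3
    · rw [← h1, pow_orderOf_eq_one]; exact one_mem _
  have hQP : IsPGroup 3 (G ⧸ V) := by
    intro gb
    obtain ⟨g, rfl⟩ := QuotientGroup.mk_surjective gb
    refine ⟨1, ?_⟩
    rw [pow_one, ← QuotientGroup.mk_pow]
    exact (QuotientGroup.eq_one_iff _).2 (hcube g)
  obtain ⟨k, hk⟩ := (IsPGroup.iff_card).1 hQP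
  have hidx : V.index = 3 ^ k := hk
  rcases Nat.lt_or_ge k 2 with hk2 | hk2
  · interval_cases k
    · exfalso
      rw [pow_zero, Subgroup.index_eq_one] at hidx
      exact hx0V (hidx ▸ Subgroup.mem_top x0)
    · rw [hidx, pow_one]
  · exfalso
    have h9 : 3 ^ 2 ∣ Nat.card G := by
      have : 3 ^ 2 ∣ V.index := by rw [hidx]; exact pow_dvd_pow 3 hk2
      exact this.trans (Subgroup.index_dvd_card V)
    let Q : Sylow 3 G := default
    have h9Q : 3 ^ 2 ∣ Nat.card (Q : Subgroup G) := Q.pow_dvd_card_of_pow_dvd_card h9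
    have hQ3 : ∀ q ∈ (Q : Subgroup G), q ≠ 1 → orderOf q = 3 := by
      intro q hq hq1
      obtain ⟨j, hj⟩ := (IsPGroup.iff_orderOf.1 Q.isPGroup') ⟨q, hq⟩
      rw [Subgroup.orderOf_mk] at hj
      rcases ord_le3 h q with h1 | h1 | h1
      · rw [orderOf_eq_one_iff] at h1; exact absurd h1 hq1
      · exfalso
        rw [h1] at hj
        have : (3 : ℕ) ∣ 2 := by
          rcases Nat.eq_zero_or_pos j with hj0 | hj0
          · rw [hj0] at hj; omega
          · rw [hj]; exact dvd_pow_self 3 (by omega)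
        omega
      · exact h1
    haveI : Nontrivial (Q : Subgroup G) := by
      apply Finite.one_lt_card_iff_nontrivial.1
      have := Nat.le_of_dvd Nat.card_pos h9Q
      omega
    have hcen := IsPGroup.center_nontrivial (Q.isPGroup')
    obtain ⟨⟨z, hz⟩, hz1⟩ := exists_ne (1 : center (Q : Subgroup G))
    have hz1' : z ≠ 1 := fun h' => hz1 (Subtype.ext h')
    have hzG1 : (z : G) ≠ 1 := fun h' => hz1' (Subtype.ext h')
    obtain ⟨y, hy⟩ : ∃ y : (Q : Subgroup G), y ∉ zpowers z := by
      by_contra hcon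
      push_neg at hcon
      have htop : zpowers z = ⊤ := eq_top_iff.2 fun y _ => hcon y
      have hcard : Nat.card (zpowers z) = Nat.card (Q : Subgroup G) := by
        rw [htop]; exact Subgroup.card_top
      rw [Nat.card_zpowers] at hcard
      have hoz : orderOf z = 3 := by
        have := hQ3 (z : G) z.2 hzG1
        rwa [Subgroup.orderOf_coe] at this
      rw [hoz] at hcard
      rw [← hcard] at h9Q
      omega
    set x : G := (z : G) with hx
    set y' : G := (y : G) with hy'
    have hxy : x * y' = y' * x := by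
      have := Subgroup.mem_center_iff.1 hz y
      exact (congrArg Subtype.val this).symm
    have hy1 : y' ≠ 1 := by
      intro h'
      apply hy
      have : y = 1 := Subtype.ext h'
      rw [this]; exact one_mem _
    have hxQ : x ∈ (Q : Subgroup G) := z.2
    have hyQ : y' ∈ (Q : Subgroup G) := y.2
    have hy3 : y' ^ 3 = 1 := by rw [← hQ3 y' hyQ hy1, pow_orderOf_eq_one]
    have hxy1 : x * y' ≠ 1 := by
      intro h'
      apply hy
      have : y = z⁻¹ := by
        apply Subtype.ext
        exact eq_inv_of_mul_eq_one_right h'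
      rw [this]; exact inv_mem (mem_zpowers z)
    have hxyy1 : x * y' * y' ≠ 1 := by
      intro h'
      apply hy
      have e1 : y' * y' = x⁻¹ := by
        have : x * (y' * y') = 1 := by rw [← mul_assoc]; exact h'
        exact eq_inv_of_mul_eq_one_right this
      have e2 : y' = x⁻¹ * x⁻¹ := by
        calc y' = y' ^ 3 * y' := by rw [hy3, one_mul]
          _ = (y' * y') * (y' * y') := by simp only [pow_succ, pow_zero, one_mul]; group
          _ = x⁻¹ * x⁻¹ := by rw [e1]
      have : y = z⁻¹ * z⁻¹ := Subtype.ext e2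
      rw [this]; exact mul_mem (inv_mem (mem_zpowers z)) (inv_mem (mem_zpowers z))
    have hR : ∀ g : G, orderOf g = 3 → ∀ w : V,
        w * ((MulAut.conjNormal g : MulAut V) w) *
          ((MulAut.conjNormal g : MulAut V) ((MulAut.conjNormal g : MulAut V) w)) = 1 := by
      intro g hg w
      set φ : V →* V := (MulAut.conjNormal g : MulAut V).toMonoidHom with hφ
      have hφa : ∀ a : V, ((φ a : V) : G) = g * (a : G) * g⁻¹ := fun a => rfl
      have hg3 : g ^ 3 = 1 := by rw [← hg, pow_orderOf_eq_one]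
      have hg1 : g ≠ 1 := by
        intro h'; rw [h', orderOf_one] at hg; omega
      have hfpf : MonoidHom.FixedPointFree φ := by
        intro a ha
        by_contra ha1
        have h1 : g * (a : G) * g⁻¹ = (a : G) := by rw [← hφa, ha]
        have hc : (a : G) * g = g * (a : G) := by
          calc (a : G) * g = (g * (a : G) * g⁻¹) * g := by rw [h1]
            _ = g * (a : G) := by group
        exact no6 h (a : G) g a.2 (fun h' => ha1 (Subtype.ext h')) hg3 hg1 hc
      have hn : φ^[3] = id := by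
        funext a
        apply Subtype.ext
        simp only [Function.iterate_succ, Function.iterate_zero, Function.comp_apply, id]
        rw [hφa, hφa, hφa]
        calc g * (g * (g * (a : G) * g⁻¹) * g⁻¹) * g⁻¹ = g ^ 3 * (a : G) * (g ^ 3)⁻¹ := by
              simp only [pow_succ, pow_zero, one_mul]; group
          _ = (a : G) := by rw [hg3]; group
      have h5 := hfpf.prod_pow_eq_one hn w
      have h6 : w * (φ w * φ (φ w)) = 1 := by
        simpa [List.range_succ, mul_assoc] using h5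
      rw [mul_assoc]
      exact h6
    set a : MulAut V := MulAut.conjNormal x with ha
    set b : MulAut V := MulAut.conjNormal y' with hb
    have hab : ∀ v : V, b (a v) = a (b v) := by
      intro v
      have h1 : a * b = b * a := by
        rw [ha, hb, ← map_mul, ← map_mul, hxy]
      have := congrArg (fun f : MulAut V => f v) h1
      simpa [MulAut.mul_apply] using this.symm
    have hb3 : ∀ v : V, b (b (b v)) = v := by
      intro v
      have h1 : b * b * b = 1 := by
        rw [hb, ← map_mul, ← map_mul]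
        have : y' * y' * y' = 1 := by rw [← hy3]; simp only [pow_succ, pow_zero, one_mul]
        rw [this, map_one]
      have := congrArg (fun f : MulAut V => f v) h1
      simpa [MulAut.mul_apply] using this
    set w : V := ⟨s0, hs0⟩ with hw
    have R1 := hR x (hQ3 x hxQ hzG1) w
    have R2 := hR y' (hQ3 y' hyQ hy1) w
    have R3 := hR (x * y') (hQ3 _ (mul_mem hxQ hyQ) hxy1) w
    have R4 := hR (x * y' * y') (hQ3 _ (mul_mem (mul_mem hxQ hyQ) hyQ) hxyy1) w
    have R5 := hR x (hQ3 x hxQ hzG1) (b w)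
    have R6 := hR x (hQ3 x hxQ hzG1) (b (b w))
    have hc3 : (MulAut.conjNormal (x * y') : MulAut V) = a * b := map_mul _ _ _
    have hc4 : (MulAut.conjNormal (x * y' * y') : MulAut V) = a * b * b := by
      rw [map_mul, map_mul]
    rw [hc3] at R3
    rw [hc4] at R4
    simp only [MulAut.mul_apply] at R3 R4
    simp only [hab] at R3 R4
    rw [hb3] at R4
    have key : ∀ (w u1 u2 u3 u4 u5 u6 u7 u8 : V), w * u1 * u2 = 1 → w * u3 * u4 = 1 →
        w * u5 * u6 = 1 → w * u7 * u8 = 1 → u3 * u5 * u8 = 1 → u4 * u7 * u6 = 1 → w ^ 3 = 1 := by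
      intro w u1 u2 u3 u4 u5 u6 u7 u8 h1 h2 h3 h4 h5 h6
      haveI : Std.Commutative (α := V) (· * ·) := ⟨hVc⟩
      have e : w ^ 3 * ((w * u1 * u2) * (u3 * u5 * u8) * (u4 * u7 * u6)) =
          (w * u1 * u2) * (w * u3 * u4) * (w * u5 * u6) * (w * u7 * u8) := by
        simp only [pow_succ, pow_zero, one_mul]
        ac_rfl
      rw [h1, h2, h3, h4, h5, h6] at e
      simpa using e
    have hw3 : w ^ 3 = 1 := key w _ _ _ _ _ _ _ _ R1 R2 R3 R4 R5 R6
    have hw2 : w ^ 2 = 1 := Subtype.ext hs0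
    have hw1 : w = 1 := by
      have : w ^ 3 = w ^ 2 * w := pow_succ w 2
      rw [hw3, hw2, one_mul] at this
      exact this.symm
    exact hs01 (congrArg Subtype.val hw1)

theorem main (h : Set.range (orderOf : G → ℕ) = {k : ℕ | 1 ≤ k ∧ k ≤ 3}) :
    (∃ N : Subgroup G, N.Normal ∧ Cfsg.IsElementaryAbelian 3 N ∧ N.index = 2) ∨
      (∃ N : Subgroup G, N.Normal ∧ Cfsg.IsElementaryAbelian 2 N ∧ N.index = 3) := by
  by_cases hcase : ∃ s u : G, s ≠ 1 ∧ u ≠ 1 ∧ s ^ 2 = 1 ∧ u ^ 2 = 1 ∧ s ≠ u ∧ s * u = u * s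
  · obtain ⟨s, u, hs1, hu1, hs, hu, hne, hc⟩ := hcase
    exact Or.inr (caseI h s u hs1 hu1 hs hu hne hc)
  · left
    apply caseII h
    intro s u hs1 hu1 hs hu hne hc
    exact hcase ⟨s, u, hs1, hu1, hs, hu, hne, hc⟩

end Cfsg.Agent.Lib.Helper6.Spec123
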