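import Mathlib
import Cfsg.Prelude.Def_KGroupFacts

set_option autoImplicit false

namespace Cfsg.Agent.Lib.Helper6.StemCyc

universe u

open scoped commutatorElement

theorem comm_eq {Γ D : Type*} [Group Γ] [Group D] (σ : Γ →* D)
    (hZ : σ.ker ≤ Subgroup.center Γ) (ρ : D) (r₀ s : Γ) (hr₀ : σ r₀ = ρ)
    (hD : ∀ d : D, d ∈ Subgroup.zpowers ρ ∨ d * (σ s)⁻¹ ∈ Subgroup.zpowers ρ)
    (hCn : ∀ d ∈ Subgroup.zpowers ρ, σ s * d * (σ s)⁻¹ ∈ Subgroup.zpowers ρ) :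
    ∀ z ∈ commutator Γ, ∃ r : Γ, σ r ∈ Subgroup.zpowers ρ ∧ z = r * s * r⁻¹ * s⁻¹ := by
  have hRcomm : ∀ a b : Γ, σ a ∈ Subgroup.zpowers ρ → σ b ∈ Subgroup.zpowers ρ →
      a * b = b * a := by
    intro a b ha hb
    obtain ⟨k, hk⟩ := Subgroup.mem_zpowers_iff.1 ha
    obtain ⟨l, hl⟩ := Subgroup.mem_zpowers_iff.1 hb
    have hza : (r₀ ^ k)⁻¹ * a ∈ Subgroup.center Γ := by
      apply hZ
      rw [MonoidHom.mem_ker, map_mul, map_inv, map_zpow, hr₀, hk, inv_mul_cancel]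
    have hzb : (r₀ ^ l)⁻¹ * b ∈ Subgroup.center Γ := by
      apply hZ
      rw [MonoidHom.mem_ker, map_mul, map_inv, map_zpow, hr₀, hl, inv_mul_cancel]
    rw [Subgroup.mem_center_iff] at hza hzb
    have ea : a = r₀ ^ k * ((r₀ ^ k)⁻¹ * a) := by group
    have eb : b = r₀ ^ l * ((r₀ ^ l)⁻¹ * b) := by group
    generalize (r₀ ^ k)⁻¹ * a = za at hza ea
    generalize (r₀ ^ l)⁻¹ * b = zb at hzb eb
    have hkl : r₀ ^ k * r₀ ^ l = r₀ ^ l * r₀ ^ k := by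
      rw [← zpow_add, ← zpow_add, add_comm]
    rw [ea, eb]
    calc r₀ ^ k * za * (r₀ ^ l * zb) = r₀ ^ k * (za * r₀ ^ l) * zb := by group
      _ = r₀ ^ k * (r₀ ^ l * za) * zb := by rw [hza (r₀ ^ l)]
      _ = (r₀ ^ k * r₀ ^ l) * (za * zb) := by group
      _ = (r₀ ^ l * r₀ ^ k) * (zb * za) := by rw [hkl, hzb za]
      _ = r₀ ^ l * (r₀ ^ k * zb) * za := by group
      _ = r₀ ^ l * (zb * r₀ ^ k) * za := by rw [hzb (r₀ ^ k)]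
      _ = r₀ ^ l * zb * (r₀ ^ k * za) := by group
  have hsR : ∀ a : Γ, σ a ∈ Subgroup.zpowers ρ → σ (s * a * s⁻¹) ∈ Subgroup.zpowers ρ := by
    intro a ha
    rw [map_mul, map_mul, map_inv]
    exact hCn _ ha
  have hinvR : ∀ a : Γ, σ a ∈ Subgroup.zpowers ρ → σ a⁻¹ ∈ Subgroup.zpowers ρ := by
    intro a ha
    rw [map_inv]
    exact Subgroup.inv_mem _ ha
  have hmulR : ∀ a b : Γ, σ a ∈ Subgroup.zpowers ρ → σ b ∈ Subgroup.zpowers ρ →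
      σ (a * b) ∈ Subgroup.zpowers ρ := by
    intro a b ha hb
    rw [map_mul]
    exact Subgroup.mul_mem _ ha hb
  let T : Subgroup Γ :=
    { carrier := {t | ∃ r : Γ, σ r ∈ Subgroup.zpowers ρ ∧ t = r * s * r⁻¹ * s⁻¹}
      one_mem' := ⟨1, by rw [map_one]; exact Subgroup.one_mem _, by group⟩
      mul_mem' := by
        rintro t₁ t₂ ⟨r₁, h₁, rfl⟩ ⟨r₂, h₂, rfl⟩
        refine ⟨r₁ * r₂, hmulR _ _ h₁ h₂, ?_⟩
        have hc := hRcomm (s * r₁⁻¹ * s⁻¹) (r₂ * (s * r₂⁻¹ * s⁻¹)) (hsR _ (hinvR _ h₁))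
          (hmulR _ _ h₂ (hsR _ (hinvR _ h₂)))
        calc r₁ * s * r₁⁻¹ * s⁻¹ * (r₂ * s * r₂⁻¹ * s⁻¹)
            = r₁ * ((s * r₁⁻¹ * s⁻¹) * (r₂ * (s * r₂⁻¹ * s⁻¹))) := by group
          _ = r₁ * ((r₂ * (s * r₂⁻¹ * s⁻¹)) * (s * r₁⁻¹ * s⁻¹)) := by rw [hc]
          _ = r₁ * r₂ * s * (r₁ * r₂)⁻¹ * s⁻¹ := by group
      inv_mem' := by
        rintro t ⟨r, h, rfl⟩
        refine ⟨r⁻¹, hinvR _ h, ?_⟩
        have hc := hRcomm (s * r * s⁻¹) r⁻¹ (hsR _ h) (hinvR _ h)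
        calc (r * s * r⁻¹ * s⁻¹)⁻¹ = (s * r * s⁻¹) * r⁻¹ := by group
          _ = r⁻¹ * (s * r * s⁻¹) := hc
          _ = r⁻¹ * s * r⁻¹⁻¹ * s⁻¹ := by group }
  have hT : commutator Γ ≤ T := by
    rw [commutator_def, Subgroup.commutator_le]
    intro g₁ _ g₂ _
    rw [commutatorElement_def]
    have key : ∀ g : Γ, σ g ∈ Subgroup.zpowers ρ ∨ σ (g * s⁻¹) ∈ Subgroup.zpowers ρ := by
      intro g
      rcases hD (σ g) with h | h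
      · left; exact h
      · right
        rw [map_mul, map_inv]
        exact h
    rcases key g₁ with h₁ | h₁ <;> rcases key g₂ with h₂ | h₂
    · refine ⟨1, by rw [map_one]; exact Subgroup.one_mem _, ?_⟩
      have hc := hRcomm g₁ g₂ h₁ h₂
      calc g₁ * g₂ * g₁⁻¹ * g₂⁻¹ = (g₁ * g₂) * g₁⁻¹ * g₂⁻¹ := by group
        _ = (g₂ * g₁) * g₁⁻¹ * g₂⁻¹ := by rw [hc]
        _ = 1 * s * 1⁻¹ * s⁻¹ := by group
    · refine ⟨g₁, h₁, ?_⟩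
      have hc := hRcomm (g₂ * s⁻¹) (s * g₁⁻¹ * s⁻¹) h₂ (hsR _ (hinvR _ h₁))
      calc g₁ * g₂ * g₁⁻¹ * g₂⁻¹ = g₁ * ((g₂ * s⁻¹) * (s * g₁⁻¹ * s⁻¹)) * (g₂ * s⁻¹)⁻¹ := by group
        _ = g₁ * ((s * g₁⁻¹ * s⁻¹) * (g₂ * s⁻¹)) * (g₂ * s⁻¹)⁻¹ := by rw [hc]
        _ = g₁ * s * g₁⁻¹ * s⁻¹ := by group
    · refine ⟨g₂⁻¹, hinvR _ h₂, ?_⟩
      have hc1 := hRcomm (g₁ * s⁻¹) (s * g₂ * s⁻¹) h₁ (hsR _ h₂)
      have hc2 := hRcomm (s * g₂ * s⁻¹) g₂⁻¹ (hsR _ h₂) (hinvR _ h₂)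
      calc g₁ * g₂ * g₁⁻¹ * g₂⁻¹
          = ((g₁ * s⁻¹) * (s * g₂ * s⁻¹)) * (g₁ * s⁻¹)⁻¹ * g₂⁻¹ := by group
        _ = ((s * g₂ * s⁻¹) * (g₁ * s⁻¹)) * (g₁ * s⁻¹)⁻¹ * g₂⁻¹ := by rw [hc1]
        _ = (s * g₂ * s⁻¹) * g₂⁻¹ := by group
        _ = g₂⁻¹ * (s * g₂ * s⁻¹) := hc2
        _ = g₂⁻¹ * s * g₂⁻¹⁻¹ * s⁻¹ := by group
    · refine ⟨(g₁ * s⁻¹) * (g₂ * s⁻¹)⁻¹, hmulR _ _ h₁ (hinvR _ h₂), ?_⟩
      have hu : σ (s * ((g₂ * s⁻¹) * (g₁ * s⁻¹)⁻¹) * s⁻¹) ∈ Subgroup.zpowers ρ :=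
        hsR _ (hmulR _ _ h₂ (hinvR _ h₁))
      have hc := hRcomm (s * ((g₂ * s⁻¹) * (g₁ * s⁻¹)⁻¹) * s⁻¹) (g₂ * s⁻¹)⁻¹ hu (hinvR _ h₂)
      calc g₁ * g₂ * g₁⁻¹ * g₂⁻¹
          = (g₁ * s⁻¹) * ((s * ((g₂ * s⁻¹) * (g₁ * s⁻¹)⁻¹) * s⁻¹) * (g₂ * s⁻¹)⁻¹) := by group
        _ = (g₁ * s⁻¹) * ((g₂ * s⁻¹)⁻¹ * (s * ((g₂ * s⁻¹) * (g₁ * s⁻¹)⁻¹) * s⁻¹)) := by rw [hc]
        _ = (g₁ * s⁻¹) * (g₂ * s⁻¹)⁻¹ * s * ((g₁ * s⁻¹) * (g₂ * s⁻¹)⁻¹)⁻¹ * s⁻¹ := by group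
  intro z hz
  exact hT hz

theorem hasCyclic_one {G : Type u} [Group G] [Finite G]
    (h : ∀ (Γ : Type u) [Group Γ] [Finite Γ] (σ : Γ →* G), Cfsg.IsStemExtension σ → σ.ker = ⊥) :
    Cfsg.HasCyclicSchurMultiplier G 1 := by
  refine ⟨⟨G, inferInstance, inferInstance, MonoidHom.id G,
    ⟨Function.surjective_id, ?_, ?_⟩, ⟨?_⟩⟩, ?_⟩
  · intro x hx
    rw [MonoidHom.mem_ker] at hx
    have : x = 1 := hx
    rw [this]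
    exact Subgroup.one_mem _
  · intro x hx
    rw [MonoidHom.mem_ker] at hx
    have : x = 1 := hx
    rw [this]
    exact Subgroup.one_mem _
  · exact
      { toFun := fun _ => 1
        invFun := fun _ => 1
        left_inv := by
          intro x
          apply Subtype.ext
          have := x.2
          rw [MonoidHom.mem_ker] at this
          exact this.symm
        right_inv := by
          intro y
          exact Subsingleton.elim _ _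
        map_mul' := by
          intro x y
          exact Subsingleton.elim _ _ }
  · intro Γ _ _ σ hσ
    have hk := h Γ σ hσ
    refine ⟨1, ?_⟩
    intro y
    refine ⟨1, ?_⟩
    apply Subtype.ext
    have h1 : (y : Γ) ∈ (⊥ : Subgroup Γ) := hk ▸ y.2
    rw [Subgroup.mem_bot] at h1
    rw [h1]
    rfl

end Cfsg.Agent.Lib.Helper6.StemCyc
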