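import Mathlib
import Cfsg.Agent.Lib.Helper6.Index
import Cfsg.Agent.Lib.Helper6.ASMax

set_option autoImplicit false

namespace Cfsg.Agent.Lib.Helper6.SylQuot

open Cfsg.Agent.Lib.Helper6
open scoped Pointwise

variable {G : Type*} [Group G]

theorem card_sup_mul_card_inf [Finite G] (H N : Subgroup G)
    (hLE : H ≤ Subgroup.normalizer (N : Set G)) :
    Nat.card ↥(H ⊔ N) * Nat.card ↥(H ⊓ N) = Nat.card H * Nat.card N := by
  have e1 := Index.card_eq_card_mul_relIndex H (H ⊔ N) le_sup_left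
  rw [Index.relIndex_sup_of_le_normalizer H N hLE] at e1
  have e2 := Index.card_eq_card_mul_relIndex (H ⊓ N) N inf_le_right
  rw [Subgroup.inf_relIndex_right] at e2
  rw [e1, e2]; ring

theorem pow_mem_of_mem_sup [Finite G] {p : ℕ} [Fact p.Prime] (P : Sylow p G) (M : Subgroup G)
    [M.Normal] (z : G) (hz : z ∈ (P : Subgroup G) ⊔ M) : ∃ a : ℕ, z ^ (p ^ a) ∈ M := by
  have h1 : z ∈ ((↑((P : Subgroup G) ⊔ M) : Set G)) := hz
  rw [Subgroup.mul_normal] at h1
  obtain ⟨u, hu, m, hm, rfl⟩ := Set.mem_mul.1 h1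
  obtain ⟨a, ha⟩ := P.isPGroup' ⟨u, hu⟩
  have ha' : u ^ (p ^ a) = 1 := by simpa using congrArg Subtype.val ha
  refine ⟨a, ?_⟩
  rw [← QuotientGroup.eq_one_iff, QuotientGroup.mk_pow, QuotientGroup.mk_mul,
    (QuotientGroup.eq_one_iff m).2 hm, mul_one, ← QuotientGroup.mk_pow, ha', QuotientGroup.mk_one]

theorem sup_inf_sup_eq [Finite G] {p : ℕ} [Fact p.Prime] (P : Sylow p G) (M N : Subgroup G)
    [M.Normal] [N.Normal] (hMN : M ⊓ N = ⊥) :
    ((P : Subgroup G) ⊔ M) ⊓ ((P : Subgroup G) ⊔ N) = (P : Subgroup G) := by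
  have hpg : IsPGroup p ↥(((P : Subgroup G) ⊔ M) ⊓ ((P : Subgroup G) ⊔ N)) := by
    intro z
    obtain ⟨a, ha⟩ := pow_mem_of_mem_sup P M z.1 z.2.1
    obtain ⟨b, hb⟩ := pow_mem_of_mem_sup P N z.1 z.2.2
    refine ⟨a + b, ?_⟩
    apply Subtype.ext
    have h1 : z.1 ^ (p ^ (a + b)) ∈ M ⊓ N := by
      constructor
      · rw [pow_add, pow_mul]; exact M.pow_mem ha _
      · rw [pow_add, mul_comm, pow_mul]; exact N.pow_mem hb _
    rw [hMN, Subgroup.mem_bot] at h1
    simpa using h1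
  exact P.is_maximal' hpg (le_inf le_sup_left le_sup_left)

theorem normalizer_sup_normal [Finite G] {p : ℕ} [Fact p.Prime] (P : Sylow p G) (K : Subgroup G)
    [K.Normal] :
    Subgroup.normalizer ((((P : Subgroup G) ⊔ K : Subgroup G)) : Set G) =
      K ⊔ Subgroup.normalizer ((P : Subgroup G) : Set G) := by
  apply le_antisymm
  · intro g hg
    have hmap : (P : Subgroup G) ⊔ K = ((P : Subgroup G) ⊔ K).map (MulAut.conj g).toMonoidHom := by
      ext x
      rw [ASMax.mem_map_conj]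
      have h1 := Subgroup.mem_normalizer_iff.1 (Subgroup.inv_mem _ hg) x
      rw [inv_inv] at h1
      exact h1
    obtain ⟨h, hh, hhg⟩ := ASMax.exists_mem_mul_mem_normalizer P ((P : Subgroup G) ⊔ K)
      ((P : Subgroup G) ⊔ K) g hmap le_sup_left le_sup_left
    have h2 : g = h⁻¹ * (h * g) := by group
    rw [h2]
    have hle : (P : Subgroup G) ⊔ K ≤ K ⊔ Subgroup.normalizer ((P : Subgroup G) : Set G) :=
      sup_le (Subgroup.le_normalizer.trans le_sup_right) le_sup_left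
    have h3 : Subgroup.normalizer ((P : Subgroup G) : Set G) ≤
        K ⊔ Subgroup.normalizer ((P : Subgroup G) : Set G) := le_sup_right
    exact Subgroup.mul_mem _ (Subgroup.inv_mem _ (hle hh)) (h3 hhg)
  · apply sup_le
    · exact le_sup_right.trans Subgroup.le_normalizer
    · intro g hg
      apply ASMax.mem_normalizer_of_conj_le'
      intro x hx
      have h1 : x ∈ ((↑((P : Subgroup G) ⊔ K) : Set G)) := hx
      rw [Subgroup.mul_normal] at h1
      obtain ⟨u, hu, k, hk, rfl⟩ := Set.mem_mul.1 h1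
      have h2 : g * (u * k) * g⁻¹ = (g * u * g⁻¹) * (g * k * g⁻¹) := by group
      rw [h2]
      have h3 : (P : Subgroup G) ≤ (P : Subgroup G) ⊔ K := le_sup_left
      have h4 : K ≤ (P : Subgroup G) ⊔ K := le_sup_right
      exact Subgroup.mul_mem _ (h3 ((Subgroup.mem_normalizer_iff.1 hg u).1 hu))
        (h4 (Subgroup.Normal.conj_mem inferInstance k hk g))

theorem card_sylow_quotient [Finite G] {p : ℕ} [Fact p.Prime] (P : Sylow p G) (K : Subgroup G)
    [K.Normal] :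
    Nat.card (Sylow p (G ⧸ K)) = (K ⊔ Subgroup.normalizer ((P : Subgroup G) : Set G)).index := by
  have hf : Function.Surjective (QuotientGroup.mk' K) := QuotientGroup.mk'_surjective K
  have h1 := Sylow.card_eq_index_normalizer (P.mapSurjective hf)
  have h2 : (Subgroup.normalizer
      (((P.mapSurjective hf : Sylow p (G ⧸ K)) : Subgroup (G ⧸ K)) : Set (G ⧸ K))).index =
      ((Subgroup.normalizer (((P.mapSurjective hf : Sylow p (G ⧸ K)) : Subgroup (G ⧸ K)) :
        Set (G ⧸ K))).comap (QuotientGroup.mk' K)).index :=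
    (Subgroup.index_comap_of_surjective _ hf).symm
  have h3 : (Subgroup.normalizer (((P.mapSurjective hf : Sylow p (G ⧸ K)) : Subgroup (G ⧸ K)) :
        Set (G ⧸ K))).comap (QuotientGroup.mk' K) =
      Subgroup.normalizer ((((P : Subgroup G) ⊔ K : Subgroup G)) : Set G) := by
    rw [Subgroup.comap_normalizer_eq_of_surjective _ hf, Sylow.coe_mapSurjective,
      Subgroup.comap_map_eq, QuotientGroup.ker_mk']
  rw [h3, normalizer_sup_normal] at h2
  exact h1.trans h2

theorem mem_normalizer_inf (X Y : Subgroup G) (n : G)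
    (hX : n ∈ Subgroup.normalizer (X : Set G)) (hY : n ∈ Subgroup.normalizer (Y : Set G)) :
    n ∈ Subgroup.normalizer ((X ⊓ Y : Subgroup G) : Set G) := by
  rw [Subgroup.mem_normalizer_iff] at hX hY ⊢
  intro h
  rw [Subgroup.mem_inf, Subgroup.mem_inf, ← hX h, ← hY h]

theorem main [Finite G] (p : ℕ) [Fact p.Prime] (M N : Subgroup G) [M.Normal] [N.Normal]
    (hMN : M ⊓ N = ⊥) :
    Nat.card (Sylow p G) * Nat.card (Sylow p (G ⧸ (M ⊔ N))) =
      Nat.card (Sylow p (G ⧸ M)) * Nat.card (Sylow p (G ⧸ N)) := by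
  obtain ⟨P⟩ : Nonempty (Sylow p G) := inferInstance
  rw [card_sylow_quotient P (M ⊔ N), card_sylow_quotient P M, card_sylow_quotient P N]
  have h0 : Nat.card (Sylow p G) = (Subgroup.normalizer ((P : Subgroup G) : Set G)).index :=
    Sylow.card_eq_index_normalizer P
  rw [h0]
  generalize hA : Subgroup.normalizer ((P : Subgroup G) : Set G) = A
  have hkey : A ⊓ (M ⊔ N) = (A ⊓ M) ⊔ (A ⊓ N) := by
    apply le_antisymm
    · rintro g ⟨hg2, hg1⟩
      have h1 : g ∈ ((↑(M ⊔ N) : Set G)) := hg1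
      rw [Subgroup.mul_normal] at h1
      obtain ⟨m, hm, n, hn, rfl⟩ := Set.mem_mul.1 h1
      have hnA : n ∈ A := by
        have hn1 : n ∈ Subgroup.normalizer ((((P : Subgroup G) ⊔ M : Subgroup G)) : Set G) := by
          rw [normalizer_sup_normal, hA]
          have h2 : n = m⁻¹ * (m * n) := by group
          rw [h2]
          have h3 : M ≤ M ⊔ A := le_sup_left
          have h4 : A ≤ M ⊔ A := le_sup_right
          exact Subgroup.mul_mem _ (h3 (M.inv_mem hm)) (h4 hg2)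
        have hn2 : n ∈ Subgroup.normalizer ((((P : Subgroup G) ⊔ N : Subgroup G)) : Set G) := by
          rw [normalizer_sup_normal]
          have h3 : N ≤ N ⊔ Subgroup.normalizer ((P : Subgroup G) : Set G) := le_sup_left
          exact h3 hn
        have h5 := mem_normalizer_inf _ _ n hn1 hn2
        rw [sup_inf_sup_eq P M N hMN, hA] at h5
        exact h5
      have hmA : m ∈ A := by
        have h2 : m = (m * n) * n⁻¹ := by group
        rw [h2]
        exact A.mul_mem hg2 (A.inv_mem hnA)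
      have h3 : A ⊓ M ≤ (A ⊓ M) ⊔ (A ⊓ N) := le_sup_left
      have h4 : A ⊓ N ≤ (A ⊓ M) ⊔ (A ⊓ N) := le_sup_right
      exact Subgroup.mul_mem _ (h3 ⟨hmA, hm⟩) (h4 ⟨hnA, hn⟩)
    · exact sup_le (inf_le_inf_left _ le_sup_left) (inf_le_inf_left _ le_sup_right)
  have hnorm : ∀ K : Subgroup G, K.Normal → A ≤ Subgroup.normalizer (K : Set G) := by
    intro K hK
    rw [Subgroup.normalizer_eq_top]
    exact le_top
  have e1 := card_sup_mul_card_inf A M (hnorm M inferInstance)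
  have e2 := card_sup_mul_card_inf A N (hnorm N inferInstance)
  have e3 := card_sup_mul_card_inf A (M ⊔ N) (hnorm (M ⊔ N) inferInstance)
  have e4 := card_sup_mul_card_inf M N (by rw [Subgroup.normalizer_eq_top]; exact le_top)
  rw [hMN, Subgroup.card_bot, mul_one] at e4
  have hAMN : A ⊓ M ≤ Subgroup.normalizer ((A ⊓ N : Subgroup G) : Set G) := by
    intro x hx
    apply mem_normalizer_inf
    · exact Subgroup.le_normalizer hx.1
    · rw [Subgroup.normalizer_eq_top]; trivial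
  have e5 := card_sup_mul_card_inf (A ⊓ M) (A ⊓ N) hAMN
  have hbot : (A ⊓ M) ⊓ (A ⊓ N) = ⊥ := by
    rw [eq_bot_iff, ← hMN]
    exact inf_le_inf inf_le_right inf_le_right
  rw [hbot, Subgroup.card_bot, mul_one, ← hkey] at e5
  rw [e5, e4] at e3
  have i1 := Subgroup.index_mul_card A
  have i2 := Subgroup.index_mul_card (A ⊔ M)
  have i3 := Subgroup.index_mul_card (A ⊔ N)
  have i4 := Subgroup.index_mul_card (A ⊔ (M ⊔ N))
  rw [sup_comm (M ⊔ N) A, sup_comm M A, sup_comm N A]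
  have hdM : 0 < Nat.card ↥(A ⊓ M) := Nat.card_pos
  have hdN : 0 < Nat.card ↥(A ⊓ N) := Nat.card_pos
  have hsMN : 0 < Nat.card ↥(A ⊔ (M ⊔ N)) := Nat.card_pos
  have ha : 0 < Nat.card A := Nat.card_pos
  have hs : Nat.card ↥(A ⊔ M) * Nat.card ↥(A ⊔ N) = Nat.card A * Nat.card ↥(A ⊔ (M ⊔ N)) := by
    apply Nat.eq_of_mul_eq_mul_right (Nat.mul_pos hdM hdN)
    calc Nat.card ↥(A ⊔ M) * Nat.card ↥(A ⊔ N) * (Nat.card ↥(A ⊓ M) * Nat.card ↥(A ⊓ N))
        = (Nat.card ↥(A ⊔ M) * Nat.card ↥(A ⊓ M)) * (Nat.card ↥(A ⊔ N) * Nat.card ↥(A ⊓ N)) := by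
          ring
      _ = (Nat.card A * Nat.card M) * (Nat.card A * Nat.card N) := by rw [e1, e2]
      _ = Nat.card A * (Nat.card A * (Nat.card M * Nat.card N)) := by ring
      _ = Nat.card A * (Nat.card ↥(A ⊔ (M ⊔ N)) * (Nat.card ↥(A ⊓ M) * Nat.card ↥(A ⊓ N))) := by
          rw [e3]
      _ = Nat.card A * Nat.card ↥(A ⊔ (M ⊔ N)) * (Nat.card ↥(A ⊓ M) * Nat.card ↥(A ⊓ N)) := by
          ring
  apply Nat.eq_of_mul_eq_mul_right (Nat.mul_pos ha hsMN)
  calc A.index * (A ⊔ (M ⊔ N)).index * (Nat.card A * Nat.card ↥(A ⊔ (M ⊔ N)))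
      = (A.index * Nat.card A) * ((A ⊔ (M ⊔ N)).index * Nat.card ↥(A ⊔ (M ⊔ N))) := by ring
    _ = Nat.card G * Nat.card G := by rw [i1, i4]
    _ = ((A ⊔ M).index * Nat.card ↥(A ⊔ M)) * ((A ⊔ N).index * Nat.card ↥(A ⊔ N)) := by
        rw [i2, i3]
    _ = (A ⊔ M).index * (A ⊔ N).index * (Nat.card ↥(A ⊔ M) * Nat.card ↥(A ⊔ N)) := by ring
    _ = (A ⊔ M).index * (A ⊔ N).index * (Nat.card A * Nat.card ↥(A ⊔ (M ⊔ N))) := by rw [hs]

end Cfsg.Agent.Lib.Helper6.SylQuot
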