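import Mathlib
import Cfsg.Agent.S0034
import Cfsg.Agent.S0039
import Cfsg.Agent.S0043
import Cfsg.Agent.S0666
import Cfsg.Agent.Lib.Helper6.TateAux

set_option autoImplicit false

namespace Cfsg.Agent.Lib.Helper6.ThreePrimes

open Subgroup Pointwise
open scoped commutatorElement

universe u

theorem exists_order_mul {G : Type*} [Group G] [Finite G] {a b : ℕ} (ha : a.Prime) (hb : b.Prime)
    (hab : a ≠ b) (x z : G) (hxz : Commute x z) (hx : x ≠ 1) (hz : z ≠ 1)
    (hxa : ∃ i : ℕ, x ^ (a ^ i) = 1) (hzb : ∃ j : ℕ, z ^ (b ^ j) = 1) :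
    ∃ g : G, orderOf g = a * b := by
  obtain ⟨i, hi⟩ := hxa
  obtain ⟨j, hj⟩ := hzb
  have hda : a ∣ orderOf x := by
    obtain ⟨i', -, hi'⟩ := (Nat.dvd_prime_pow ha).1 (orderOf_dvd_of_pow_eq_one hi)
    have hi0 : i' ≠ 0 := by
      rintro rfl
      rw [pow_zero, orderOf_eq_one_iff] at hi'
      exact hx hi'
    rw [hi']; exact dvd_pow_self a hi0
  have hdb : b ∣ orderOf z := by
    obtain ⟨j', -, hj'⟩ := (Nat.dvd_prime_pow hb).1 (orderOf_dvd_of_pow_eq_one hj)
    have hj0 : j' ≠ 0 := by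
      rintro rfl
      rw [pow_zero, orderOf_eq_one_iff] at hj'
      exact hz hj'
    rw [hj']; exact dvd_pow_self b hj0
  have h1 := orderOf_pow_orderOf_div (orderOf_pos x).ne' hda
  have h2 := orderOf_pow_orderOf_div (orderOf_pos z).ne' hdb
  refine ⟨x ^ (orderOf x / a) * z ^ (orderOf z / b), ?_⟩
  have hc : Commute (x ^ (orderOf x / a)) (z ^ (orderOf z / b)) := hxz.pow_pow _ _
  rw [hc.orderOf_mul_eq_mul_orderOf_of_coprime
    (by rw [h1, h2]; exact (Nat.coprime_primes ha hb).2 hab), h1, h2]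

theorem pow_of_mem {G : Type*} [Group G] {a : ℕ} {P : Subgroup G} (hP : IsPGroup a P) (x : G)
    (hx : x ∈ P) : ∃ i : ℕ, x ^ (a ^ i) = 1 := by
  obtain ⟨i, hi⟩ := hP ⟨x, hx⟩
  exact ⟨i, by simpa using congrArg Subtype.val hi⟩

theorem frob_false {G : Type*} [Group G] [Finite G] {a b c : ℕ} (ha : a.Prime) (hb : b.Prime)
    (hc : c.Prime) (hab : a ≠ b) (hac : a ≠ c) (hbc : b ≠ c)
    (V : Subgroup G) [V.Normal] (hVab : IsMulCommutative V) (hV1 : V ≠ ⊥) (hVa : IsPGroup a V)
    (W : Subgroup G) (hW1 : W ≠ ⊥) (hWb : IsPGroup b W)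
    (y : G) (hy : orderOf y = c) (hyW : y ∈ normalizer (W : Set G))
    (h1 : ∀ g : G, orderOf g ≠ a * b) (h2 : ∀ g : G, orderOf g ≠ a * c)
    (h3 : ∀ g : G, orderOf g ≠ b * c) : False := by
  haveI : Fact a.Prime := ⟨ha⟩
  haveI : Fact b.Prime := ⟨hb⟩
  haveI : Fact c.Prime := ⟨hc⟩
  set Z : Subgroup G := zpowers y with hZ
  set F : Subgroup G := W ⊔ Z with hF
  have hZc : Nat.card Z = c := by rw [hZ, Nat.card_zpowers, hy]
  have hWF : W ≤ F := le_sup_left
  have hZF : Z ≤ F := le_sup_right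
  have hFN : F ≤ normalizer (W : Set G) := sup_le le_normalizer (zpowers_le.2 hyW)
  haveI hWn : (W.subgroupOf F).Normal := normal_subgroupOf_of_le_normalizer hFN
  set K : Subgroup F := W.subgroupOf F with hK
  set H : Subgroup F := Z.subgroupOf F with hH
  have hKp : IsPGroup b K := hWb.comap_subtype
  have hHc : Nat.card H = c := by
    rw [← hZc]; exact Nat.card_congr (subgroupOfEquivOfLe hZF).toEquiv
  have hHp : IsPGroup c H := IsPGroup.of_card (n := 1) (by rw [hHc, pow_one])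
  have hdisj : Disjoint K H := IsPGroup.disjoint_of_ne b c hbc K H hKp hHp
  have hmul : (K : Set F) * (H : Set F) = Set.univ := by
    rw [← normal_mul, hK, hH, ← subgroupOf_sup hWF hZF, subgroupOf_self]; rfl
  have hcompl : IsComplement' K H := isComplement'_of_disjoint_and_mul_eq_univ hdisj hmul
  have hK1 : K ≠ ⊥ := by
    intro h
    apply hW1
    have := subgroupOf_eq_bot.1 h
    rw [disjoint_iff, inf_of_le_left hWF] at this
    exact this
  have hH1 : H ≠ ⊥ := by
    intro h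
    rw [h, card_bot] at hHc
    exact hc.one_lt.ne hHc
  have hfrob : Cfsg.IsFrobeniusComplement H := by
    rw [Cfsg.Agent.S0039.result K H hcompl hK1 hH1]
    intro h hh hh1
    rw [eq_bot_iff]
    intro k hk
    obtain ⟨hkK, hkc⟩ := mem_inf.1 hk
    rw [mem_bot]
    by_contra hk1
    have hcomm : h * k = k * h := mem_centralizer_iff.1 hkc h (Set.mem_singleton h)
    have hcomm' : Commute (k : G) (h : G) := by
      have := congrArg Subtype.val hcomm
      exact this.symm
    have hkW : (k : G) ∈ W := mem_subgroupOf.1 hkK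
    have hhZ : (h : G) ∈ Z := mem_subgroupOf.1 hh
    have hZp : IsPGroup c Z := IsPGroup.of_card (n := 1) (by rw [hZc, pow_one])
    obtain ⟨g, hg⟩ := exists_order_mul hb hc hbc (k : G) (h : G) hcomm'
      (fun h0 => hk1 (Subtype.ext h0)) (fun h0 => hh1 (Subtype.ext h0))
      (pow_of_mem hWb _ hkW) (pow_of_mem hZp _ hhZ)
    exact h3 g hg
  obtain ⟨hker, -⟩ := Cfsg.Agent.S0034.result H hfrob
  have hidx : H.index = Nat.card K := hcompl.index_eq_card
  have hKsub : (K : Set F) ⊆ Cfsg.frobeniusKernel H := by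
    intro k hk
    by_cases hk1 : k = 1
    · left; exact hk1
    · right
      intro g hkg
      have h1' : g⁻¹ * k * g ∈ H := by
        rw [mem_pointwise_smul_iff_inv_smul_mem] at hkg
        simpa [MulAut.smul_def] using hkg
      have h2' : g⁻¹ * k * g ∈ K := by
        have := hWn.conj_mem k hk g⁻¹
        simpa using this
      have h3' : g⁻¹ * k * g = 1 := by
        have := hdisj.le_bot (mem_inf.2 ⟨h2', h1'⟩)
        simpa using this
      apply hk1
      have h4 : k = g * (g⁻¹ * k * g) * g⁻¹ := by group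
      rw [h4, h3']; group
  have hkerK : (K : Set F) = Cfsg.frobeniusKernel H := by
    apply Set.eq_of_subset_of_ncard_le hKsub _ (Set.toFinite _)
    rw [← Nat.card_coe_set_eq, ← Nat.card_coe_set_eq, hker, hidx]
    exact le_refl _
  have hFV : F ≤ normalizer (V : Set G) := by
    rw [normalizer_eq_top]; exact le_top
  have hcop : (Nat.card V).Coprime (Nat.card (Cfsg.frobeniusKernel H)) := by
    rw [hker, hidx]
    obtain ⟨n, hn⟩ := IsPGroup.iff_card.1 hVa
    obtain ⟨m, hm⟩ := IsPGroup.iff_card.1 hKp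
    rw [hn, hm]
    exact Nat.Coprime.pow _ _ ((Nat.coprime_primes ha hb).2 hab)
  have hCK : V ⊓ centralizer (Subtype.val '' Cfsg.frobeniusKernel H : Set G) = ⊥ := by
    rw [← hkerK, eq_bot_iff]
    intro v hv
    obtain ⟨hvV, hvc⟩ := mem_inf.1 hv
    rw [mem_bot]
    by_contra hv1
    obtain ⟨⟨w, hw⟩, hw1'⟩ := (Subgroup.ne_bot_iff_exists_ne_one (H := W)).1 hW1
    have hw1 : w ≠ 1 := fun h0 => hw1' (Subtype.ext h0)
    have hcomm : w * v = v * w :=
      mem_centralizer_iff.1 hvc w ⟨⟨w, hWF hw⟩, mem_subgroupOf.2 hw, rfl⟩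
    obtain ⟨g, hg⟩ := exists_order_mul ha hb hab v w hcomm.symm hv1 hw1
      (pow_of_mem hVa _ hvV) (pow_of_mem hWb _ hw)
    exact h1 g hg
  have hres := Cfsg.Agent.S0666.result V F hVab hV1 hFV H hfrob hcop hCK
  apply hres
  rw [eq_bot_iff]
  intro v hv
  obtain ⟨hvV, hvc⟩ := mem_inf.1 hv
  rw [mem_bot]
  by_contra hv1
  have hyH : y ∈ ((H.map F.subtype : Subgroup G) : Set G) :=
    ⟨⟨y, hZF (mem_zpowers y)⟩, mem_subgroupOf.2 (mem_zpowers y), rfl⟩
  have hcomm : y * v = v * y := mem_centralizer_iff.1 hvc y hyH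
  have hy1 : y ≠ 1 := by
    intro h0
    rw [h0, orderOf_one] at hy
    exact hc.one_lt.ne hy
  obtain ⟨g, hg⟩ := exists_order_mul ha hc hac v y hcomm.symm hv1 hy1
    (pow_of_mem hVa _ hvV) ⟨1, by rw [pow_one, ← hy]; exact pow_orderOf_eq_one y⟩
  exact h2 g hg

theorem frattini_step {K : Type*} [Group K] [Finite K] {q r : ℕ} (hq : q.Prime) (hr : r.Prime)
    (M : Subgroup K) [M.Normal] (hqM : ¬ q ∣ Nat.card M) (hrM : r ∣ Nat.card M)
    (hqK : q ∣ Nat.card K) :
    ∃ (W : Subgroup K) (y : K), IsPGroup r W ∧ W ≠ ⊥ ∧ orderOf y = q ∧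
      y ∈ normalizer (W : Set K) := by
  haveI : Fact q.Prime := ⟨hq⟩
  haveI : Fact r.Prime := ⟨hr⟩
  let R : Sylow r M := default
  set W : Subgroup K := (R : Subgroup M).map M.subtype with hW
  have hWp : IsPGroup r W := R.isPGroup'.map _
  have hW1 : W ≠ ⊥ := by
    intro h
    rw [hW, map_eq_bot_iff_of_injective _ M.subtype_injective] at h
    exact R.ne_bot_of_dvd_card hrM h
  have hfr : normalizer (W : Set K) ⊔ M = ⊤ := Sylow.normalizer_sup_eq_top R
  set N : Subgroup K := normalizer (W : Set K) with hN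
  have h1 : M.relIndex (N ⊔ M) = M.relIndex N := relIndex_sup_right N M
  rw [hfr, relIndex_top_right] at h1
  have h2 : M.relIndex N ∣ Nat.card N := relIndex_dvd_card M N
  have h3 : Nat.card M * M.index = Nat.card K := card_mul_index M
  have hqi : q ∣ M.index := by
    rw [← h3] at hqK
    exact (hq.dvd_mul.1 hqK).resolve_left hqM
  have hqN : q ∣ Nat.card N := (h1 ▸ hqi).trans h2
  obtain ⟨y, hy⟩ := exists_prime_orderOf_dvd_card' q hqN
  exact ⟨W, (y : K), hWp, hW1, by rw [Subgroup.orderOf_coe]; exact hy, y.2⟩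

theorem exists_pair : ∀ (n : ℕ) (K : Type u) [Group K] [Finite K], Nat.card K = n →
    Group.IsSolvable K → ∀ {q r : ℕ}, q.Prime → r.Prime → q ≠ r → q ∣ Nat.card K →
    r ∣ Nat.card K →
    ∃ (b c : ℕ) (W : Subgroup K) (y : K), ((b = q ∧ c = r) ∨ (b = r ∧ c = q)) ∧ IsPGroup b W ∧
      W ≠ ⊥ ∧ orderOf y = c ∧ y ∈ normalizer (W : Set K) := by
  intro n
  induction n using Nat.strong_induction_on with
  | _ n ih =>
    intro K _ _ hn hsolv q r hq hr hqr hqK hrK
    haveI := hsolv
    haveI : Fact q.Prime := ⟨hq⟩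
    haveI : Fact r.Prime := ⟨hr⟩
    haveI : Nontrivial K := by
      rw [← Finite.one_lt_card_iff_nontrivial]
      exact lt_of_lt_of_le hq.one_lt (Nat.le_of_dvd Nat.card_pos hqK)
    set D : Subgroup K := commutator K with hD
    have hDlt : D < ⊤ := IsSolvable.commutator_lt_top_of_nontrivial K
    haveI : D.Normal := by rw [hD]; infer_instance
    by_cases hqD : q ∣ Nat.card D
    · by_cases hrD : r ∣ Nat.card D
      · have hlt : Nat.card D < n := by
          rw [← hn]
          exact lt_of_le_of_ne (card_le_card_group D) (fun h => hDlt.ne (eq_top_of_card_eq D h))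
        obtain ⟨b, c, W, y, hbc, hWp, hW1, hy, hyN⟩ :=
          ih _ hlt D rfl inferInstance hq hr hqr hqD hrD
        refine ⟨b, c, W.map D.subtype, (y : K), hbc, hWp.map _, ?_, ?_, ?_⟩
        · rwa [Ne, map_eq_bot_iff_of_injective _ D.subtype_injective]
        · rw [Subgroup.orderOf_coe]; exact hy
        · apply Cfsg.Agent.Lib.Helper6.TateAux.mem_normalizer_of_conj_le
          intro x hx
          obtain ⟨x', hx', rfl⟩ := mem_map.1 hx
          rw [mem_normalizer_iff] at hyN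
          exact mem_map.2 ⟨y * x' * y⁻¹, (hyN x').1 hx', rfl⟩
      · obtain ⟨W, y, h1, h2, h3, h4⟩ := frattini_step hr hq D hrD hqD hrK
        exact ⟨q, r, W, y, Or.inl ⟨rfl, rfl⟩, h1, h2, h3, h4⟩
    · by_cases hrD : r ∣ Nat.card D
      · obtain ⟨W, y, h1, h2, h3, h4⟩ := frattini_step hq hr D hqD hrD hqK
        exact ⟨r, q, W, y, Or.inr ⟨rfl, rfl⟩, h1, h2, h3, h4⟩
      · let R : Sylow r K := default
        set M : Subgroup K := D ⊔ (R : Subgroup K) with hM
        have hDM : D ≤ M := le_sup_left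
        have hRM : (R : Subgroup K) ≤ M := le_sup_right
        haveI hMn : M.Normal := by
          constructor
          intro m hm g
          have h1 : g * m * g⁻¹ = ⁅g, m⁆ * m := by
            rw [commutatorElement_def]; group
          rw [h1]
          refine M.mul_mem (hDM ?_) hm
          rw [hD, _root_.commutator_def]
          exact commutator_mem_commutator (mem_top g) (mem_top m)
        have hcard : Nat.card M ∣ Nat.card D * Nat.card (R : Subgroup K) := by
          have h1 : D.relIndex (D ⊔ (R : Subgroup K)) = D.relIndex (R : Subgroup K) :=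
            relIndex_sup_left (R : Subgroup K) D
          have h2 : Nat.card (D.subgroupOf M) * (D.subgroupOf M).index = Nat.card M :=
            card_mul_index (D.subgroupOf M)
          have h3 : Nat.card (D.subgroupOf M) = Nat.card D :=
            Nat.card_congr (subgroupOfEquivOfLe hDM).toEquiv
          have h4 : (D.subgroupOf M).index = D.relIndex (R : Subgroup K) := h1
          rw [← h2, h3, h4]
          exact Nat.mul_dvd_mul_left _ (relIndex_dvd_card D (R : Subgroup K))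
        have hqM : ¬ q ∣ Nat.card M := by
          intro h
          rcases hq.dvd_mul.1 (h.trans hcard) with h' | h'
          · exact hqD h'
          · obtain ⟨k, hk⟩ := IsPGroup.iff_card.1 R.isPGroup'
            rw [hk] at h'
            exact hqr ((Nat.prime_dvd_prime_iff_eq hq hr).1 (hq.dvd_of_dvd_pow h'))
        have hrM : r ∣ Nat.card M :=
          (R.dvd_card_of_dvd_card hrK).trans (card_dvd_of_le hRM)
        obtain ⟨W, y, h1, h2, h3, h4⟩ := frattini_step hq hr M hqM hrM hqK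
        exact ⟨r, q, W, y, Or.inr ⟨rfl, rfl⟩, h1, h2, h3, h4⟩

theorem conf {G : Type u} [Group G] [Finite G] (hsolv : Group.IsSolvable G) {a b c : ℕ}
    (ha : a.Prime) (hb : b.Prime) (hc : c.Prime) (hab : a ≠ b) (hac : a ≠ c) (hbc : b ≠ c)
    (V : Subgroup G) [V.Normal] (hVab : IsMulCommutative V) (hV1 : V ≠ ⊥) (hVa : IsPGroup a V)
    (hbG : b ∣ Nat.card G) (hcG : c ∣ Nat.card G)
    (h1 : ∀ g : G, orderOf g ≠ a * b) (h2 : ∀ g : G, orderOf g ≠ a * c)
    (h3 : ∀ g : G, orderOf g ≠ b * c) : False := by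
  obtain ⟨b', c', W, y, hbc', hWp, hW1, hy, hyN⟩ :=
    exists_pair _ G rfl hsolv hb hc hbc hbG hcG
  rcases hbc' with ⟨hb', hc'⟩ | ⟨hb', hc'⟩
  · rw [hb'] at hWp; rw [hc'] at hy
    exact frob_false ha hb hc hab hac hbc V hVab hV1 hVa W hW1 hWp y hy hyN h1 h2 h3
  · rw [hb'] at hWp; rw [hc'] at hy
    exact frob_false ha hc hb hac hab hbc.symm V hVab hV1 hVa W hW1 hWp y hy hyN h2 h1
      (fun g hg => h3 g (by rw [hg, mul_comm]))

/-- A finite solvable group cannot have three prime divisors of its order that are pairwise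
non-adjacent in the prime graph. -/
theorem three_primes : ∀ (n : ℕ) (G : Type u) [Group G] [Finite G], Nat.card G = n →
    Group.IsSolvable G → ∀ {p q r : ℕ}, p.Prime → q.Prime → r.Prime → p ≠ q → p ≠ r → q ≠ r →
    p ∣ Nat.card G → q ∣ Nat.card G → r ∣ Nat.card G →
    (∀ g : G, orderOf g ≠ p * q) → (∀ g : G, orderOf g ≠ p * r) →
    (∀ g : G, orderOf g ≠ q * r) → False := by
  intro n
  induction n using Nat.strong_induction_on with
  | _ n ih =>
    intro G _ _ hn hsolv p q r hp hq hr hpq hpr hqr hpG hqG hrG h1 h2 h3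
    haveI := hsolv
    haveI : Nontrivial G := by
      rw [← Finite.one_lt_card_iff_nontrivial]
      exact lt_of_lt_of_le hp.one_lt (Nat.le_of_dvd Nat.card_pos hpG)
    obtain ⟨V, hVn, hV1, hmin⟩ : ∃ V : Subgroup G, V.Normal ∧ V ≠ ⊥ ∧
        ∀ M : Subgroup G, M.Normal → M ≤ V → M = ⊥ ∨ M = V := by
      haveI : Nonempty {N : Subgroup G // N.Normal ∧ N ≠ ⊥} :=
        ⟨⟨⊤, inferInstance, top_ne_bot⟩⟩
      obtain ⟨⟨V, hVn, hV1⟩, hV⟩ :=
        Finite.exists_min (fun N : {N : Subgroup G // N.Normal ∧ N ≠ ⊥} => Nat.card N.1)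
      refine ⟨V, hVn, hV1, fun M hMn hMV => ?_⟩
      by_cases hM : M = ⊥
      · exact Or.inl hM
      · right
        have := hV ⟨M, hMn, hM⟩
        exact eq_of_le_of_card_ge hMV this
    haveI := hVn
    obtain ⟨hVab, s, hs, hVs⟩ := Cfsg.Agent.S0043.result V hV1 hmin
    haveI : Fact s.Prime := ⟨hs⟩
    have hVp : IsPGroup s V := fun x =>
      ⟨1, by rw [pow_one]; exact Subtype.ext (by simpa using hVs x.1 x.2)⟩
    by_cases hsp : s = p
    · rw [hsp] at hVp
      exact conf hsolv hp hq hr hpq hpr hqr V hVab hV1 hVp hqG hrG h1 h2 h3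
    by_cases hsq : s = q
    · rw [hsq] at hVp
      exact conf hsolv hq hp hr hpq.symm hqr hpr V hVab hV1 hVp hpG hrG
        (fun g hg => h1 g (by rw [hg, mul_comm])) h3 h2
    by_cases hsr : s = r
    · rw [hsr] at hVp
      exact conf hsolv hr hp hq hpr.symm hqr.symm hpq V hVab hV1 hVp hpG hqG
        (fun g hg => h2 g (by rw [hg, mul_comm])) (fun g hg => h3 g (by rw [hg, mul_comm])) h1
    obtain ⟨k, hk⟩ := IsPGroup.iff_card.1 hVp
    have hcard : Nat.card G = Nat.card (G ⧸ V) * Nat.card V :=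
      card_eq_card_quotient_mul_card_subgroup V
    have hV1' : 1 < Nat.card V := (one_lt_card_iff_ne_bot V).2 hV1
    have hlt : Nat.card (G ⧸ V) < n := by
      rw [← hn, hcard]
      have : 0 < Nat.card (G ⧸ V) := Nat.card_pos
      nlinarith
    have hdiv : ∀ t : ℕ, t.Prime → t ≠ s → t ∣ Nat.card G → t ∣ Nat.card (G ⧸ V) := by
      intro t ht hts htG
      rw [hcard] at htG
      rcases ht.dvd_mul.1 htG with h | h
      · exact h
      · exfalso
        rw [hk] at h
        exact hts ((Nat.prime_dvd_prime_iff_eq ht hs).1 (ht.dvd_of_dvd_pow h))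
    have hord : ∀ m : ℕ, (∀ g : G, orderOf g ≠ m) → ∀ g : G ⧸ V, orderOf g ≠ m := by
      intro m hm g hg
      obtain ⟨g', rfl⟩ := QuotientGroup.mk_surjective g
      have hd : m ∣ orderOf g' := by
        rw [← hg]; exact orderOf_map_dvd (QuotientGroup.mk' V) g'
      exact hm _ (orderOf_pow_orderOf_div (orderOf_pos g').ne' hd)
    exact ih _ hlt (G ⧸ V) rfl inferInstance hp hq hr hpq hpr hqr
      (hdiv p hp (Ne.symm hsp) hpG) (hdiv q hq (Ne.symm hsq) hqG) (hdiv r hr (Ne.symm hsr) hrG)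
      (hord _ h1) (hord _ h2) (hord _ h3)

theorem three_exist (n : ℕ) (hn : 7 ≤ n) : ∃ p q r : ℕ, p.Prime ∧ q.Prime ∧ r.Prime ∧ p < q ∧
    q < r ∧ r ≤ n ∧ n < p * q := by
  by_cases h1 : n ≤ 14
  · exact ⟨3, 5, 7, by norm_num, by norm_num, by norm_num, by norm_num, by norm_num, hn,
      by omega⟩
  by_cases h2 : n ≤ 34
  · exact ⟨5, 7, 11, by norm_num, by norm_num, by norm_num, by norm_num, by norm_num, by omega,
      by omega⟩
  have hm4 : 4 ≤ n / 8 := by omega
  obtain ⟨p, hp, hp1, hp2⟩ := Nat.exists_prime_lt_and_le_two_mul (n / 8) (by omega)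
  obtain ⟨q, hq, hq1, hq2⟩ := Nat.exists_prime_lt_and_le_two_mul (2 * (n / 8)) (by omega)
  obtain ⟨r, hr, hr1, hr2⟩ := Nat.exists_prime_lt_and_le_two_mul (4 * (n / 8)) (by omega)
  refine ⟨p, q, r, hp, hq, hr, by omega, by omega, by omega, ?_⟩
  have h3 : (n / 8 + 1) * (2 * (n / 8) + 1) ≤ p * q := Nat.mul_le_mul (by omega) (by omega)
  have h4 : n < 8 * (n / 8) + 8 := by omega
  nlinarith

end Cfsg.Agent.Lib.Helper6.ThreePrimes
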