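import Mathlib
import Cfsg.Agent.Lib.Helper6.ASMax

set_option autoImplicit false

namespace Cfsg.Agent.Lib.Helper6.TransCent

open Cfsg.Agent.Lib.Helper6

variable {α : Type*} (G : Subgroup (Equiv.Perm α)) (a : α)

noncomputable def sec [MulAction.IsPretransitive G α] (x : α) : G :=
  (MulAction.exists_smul_eq G a x).choose

theorem sec_spec [MulAction.IsPretransitive G α] (x : α) : sec G a x • a = x :=
  (MulAction.exists_smul_eq G a x).choose_spec

noncomputable def F [MulAction.IsPretransitive G α] (n : G) (x : α) : α :=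
  (sec G a x * n⁻¹) • a

theorem F_wd [MulAction.IsPretransitive G α] (n : G)
    (hn : n ∈ Subgroup.normalizer ((MulAction.stabilizer G a : Subgroup G) : Set G))
    (g : G) (x : α) (hg : g • a = x) : F G a n x = (g * n⁻¹) • a := by
  unfold F
  have h1 : g⁻¹ * sec G a x ∈ MulAction.stabilizer G a := by
    rw [MulAction.mem_stabilizer_iff, mul_smul, sec_spec, ← hg, inv_smul_smul]
  have h2 : n * (g⁻¹ * sec G a x) * n⁻¹ ∈ MulAction.stabilizer G a :=
    (Subgroup.mem_normalizer_iff.1 hn _).1 h1
  rw [MulAction.mem_stabilizer_iff] at h2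
  have h3 : sec G a x * n⁻¹ = (g * n⁻¹) * (n * (g⁻¹ * sec G a x) * n⁻¹) := by group
  rw [h3, mul_smul, h2]

theorem F_smul [MulAction.IsPretransitive G α] (n : G)
    (hn : n ∈ Subgroup.normalizer ((MulAction.stabilizer G a : Subgroup G) : Set G))
    (g : G) (y : α) : F G a n (g • y) = g • F G a n y := by
  have h1 : (g * sec G a y) • a = g • y := by rw [mul_smul, sec_spec]
  rw [F_wd G a n hn (g * sec G a y) (g • y) h1]
  unfold F
  rw [mul_assoc, mul_smul]

theorem F_mul [MulAction.IsPretransitive G α] (n m : G)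
    (hn : n ∈ Subgroup.normalizer ((MulAction.stabilizer G a : Subgroup G) : Set G))
    (x : α) : F G a n (F G a m x) = F G a (n * m) x := by
  rw [F_wd G a n hn (sec G a x * m⁻¹) (F G a m x) rfl]
  unfold F
  rw [mul_inv_rev, mul_assoc]

theorem F_one [MulAction.IsPretransitive G α] (x : α) : F G a 1 x = x := by
  unfold F
  rw [inv_one, mul_one, sec_spec]

theorem F_base [MulAction.IsPretransitive G α] (n : G)
    (hn : n ∈ Subgroup.normalizer ((MulAction.stabilizer G a : Subgroup G) : Set G)) :
    F G a n a = n⁻¹ • a := by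
  rw [F_wd G a n hn 1 a (one_smul _ _), one_mul]

noncomputable def cPerm [MulAction.IsPretransitive G α]
    (n : ↥(Subgroup.normalizer ((MulAction.stabilizer G a : Subgroup G) : Set G))) :
    Equiv.Perm α where
  toFun := F G a n.1
  invFun := F G a n.1⁻¹
  left_inv x := by
    rw [F_mul G a _ _ (Subgroup.inv_mem _ n.2), inv_mul_cancel, F_one]
  right_inv x := by
    rw [F_mul G a _ _ n.2, mul_inv_cancel, F_one]

theorem cPerm_apply [MulAction.IsPretransitive G α]
    (n : ↥(Subgroup.normalizer ((MulAction.stabilizer G a : Subgroup G) : Set G))) (x : α) :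
    cPerm G a n x = F G a n.1 x := rfl

theorem cPerm_mem [MulAction.IsPretransitive G α]
    (n : ↥(Subgroup.normalizer ((MulAction.stabilizer G a : Subgroup G) : Set G))) :
    cPerm G a n ∈ Subgroup.centralizer (G : Set (Equiv.Perm α)) := by
  rw [Subgroup.mem_centralizer_iff]
  intro h hh
  ext x
  rw [Equiv.Perm.mul_apply, Equiv.Perm.mul_apply, cPerm_apply, cPerm_apply]
  exact (F_smul G a n.1 n.2 ⟨h, hh⟩ x).symm

noncomputable def hom [MulAction.IsPretransitive G α] :
    ↥(Subgroup.normalizer ((MulAction.stabilizer G a : Subgroup G) : Set G)) →*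
      ↥(Subgroup.centralizer (G : Set (Equiv.Perm α))) where
  toFun n := ⟨cPerm G a n, cPerm_mem G a n⟩
  map_one' := by
    apply Subtype.ext
    ext x
    show F G a 1 x = x
    exact F_one G a x
  map_mul' n m := by
    apply Subtype.ext
    ext x
    show F G a (n.1 * m.1) x = F G a n.1 (F G a m.1 x)
    exact (F_mul G a n.1 m.1 n.2 x).symm

theorem hom_apply [MulAction.IsPretransitive G α]
    (n : ↥(Subgroup.normalizer ((MulAction.stabilizer G a : Subgroup G) : Set G))) (x : α) :
    ((hom G a n : ↥(Subgroup.centralizer (G : Set (Equiv.Perm α)))) : Equiv.Perm α) x =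
      F G a n.1 x := rfl

theorem hom_ker [MulAction.IsPretransitive G α] :
    (hom G a).ker = (MulAction.stabilizer G a).subgroupOf
      (Subgroup.normalizer ((MulAction.stabilizer G a : Subgroup G) : Set G)) := by
  ext n
  rw [MonoidHom.mem_ker, Subgroup.mem_subgroupOf, MulAction.mem_stabilizer_iff]
  constructor
  · intro h
    have h1 : F G a n.1 a = a := by
      rw [← hom_apply, h]; rfl
    rw [F_base G a n.1 n.2] at h1
    calc n.1 • a = n.1 • (n.1⁻¹ • a) := by rw [h1]
      _ = a := smul_inv_smul _ _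
  · intro h
    apply Subtype.ext
    ext x
    rw [hom_apply]
    show F G a n.1 x = x
    unfold F
    have h1 : n.1⁻¹ • a = a := by
      calc n.1⁻¹ • a = n.1⁻¹ • (n.1 • a) := by rw [h]
        _ = a := inv_smul_smul _ _
    rw [mul_smul, h1, sec_spec]

theorem comm_apply (c : Equiv.Perm α) (hc : c ∈ Subgroup.centralizer (G : Set (Equiv.Perm α)))
    (g : G) (x : α) : c (g • x) = g • c x := by
  have h1 := Subgroup.mem_centralizer_iff.1 hc g.1 g.2
  have h2 := congrArg (fun f : Equiv.Perm α => f x) h1
  exact h2.symm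

theorem mem_normalizer_of_fix [Finite α] [MulAction.IsPretransitive G α] (g : G)
    (hfix : ∀ h ∈ MulAction.stabilizer G a, h • (g • a) = g • a) :
    g⁻¹ ∈ Subgroup.normalizer ((MulAction.stabilizer G a : Subgroup G) : Set G) := by
  apply ASMax.mem_normalizer_of_conj_le'
  intro h hh
  rw [MulAction.mem_stabilizer_iff, inv_inv, mul_smul, mul_smul, hfix h hh, inv_smul_smul]

theorem hom_surj [Finite α] [MulAction.IsPretransitive G α] :
    Function.Surjective (hom G a) := by
  rintro ⟨c, hc⟩
  obtain ⟨g, hg⟩ := MulAction.exists_smul_eq G a (c a)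
  have hfix : ∀ h ∈ MulAction.stabilizer G a, h • (g • a) = g • a := by
    intro h hh
    rw [hg, ← comm_apply G c hc, MulAction.mem_stabilizer_iff.1 hh]
  have hn := mem_normalizer_of_fix G a g hfix
  refine ⟨⟨g⁻¹, hn⟩, ?_⟩
  apply Subtype.ext
  ext x
  rw [hom_apply]
  show F G a g⁻¹ x = c x
  unfold F
  rw [inv_inv, mul_smul, hg, ← comm_apply G c hc, sec_spec]

theorem orbit_eq [Finite α] [MulAction.IsPretransitive G α] :
    MulAction.orbit (Subgroup.centralizer (G : Set (Equiv.Perm α))) a =
      MulAction.fixedPoints (MulAction.stabilizer G a) α := by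
  ext x
  constructor
  · rintro ⟨c, rfl⟩
    intro h
    show h.1 • (c.1 a) = c.1 a
    rw [← comm_apply G c.1 c.2, MulAction.mem_stabilizer_iff.1 h.2]
  · intro hx
    obtain ⟨g, hg⟩ := MulAction.exists_smul_eq G a x
    have hfix : ∀ h ∈ MulAction.stabilizer G a, h • (g • a) = g • a := by
      intro h hh
      rw [hg]
      exact hx ⟨h, hh⟩
    have hn := mem_normalizer_of_fix G a g hfix
    refine ⟨hom G a ⟨g⁻¹, hn⟩, ?_⟩
    show ((hom G a ⟨g⁻¹, hn⟩ : ↥(Subgroup.centralizer (G : Set (Equiv.Perm α)))) : Equiv.Perm α) a = x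
    rw [hom_apply, F_base G a _ hn, inv_inv, hg]

theorem main [Finite α] [MulAction.IsPretransitive G α] :
    Nonempty (Subgroup.centralizer (G : Set (Equiv.Perm α)) ≃*
      Subgroup.normalizer ((MulAction.stabilizer G a : Subgroup G) : Set G) ⧸
        (MulAction.stabilizer G a).subgroupOf
          (Subgroup.normalizer ((MulAction.stabilizer G a : Subgroup G) : Set G))) := by
  have e1 := QuotientGroup.quotientKerEquivOfSurjective (hom G a) (hom_surj G a)
  have e2 := QuotientGroup.quotientMulEquivOfEq (hom_ker G a)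
  exact ⟨(e2.symm.trans e1).symm⟩

end Cfsg.Agent.Lib.Helper6.TransCent
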