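import Mathlib

namespace Cfsg.Agent.Lib.Helper6.TwoOrb

open MulAction

section
variable {G Ω : Type*} [Group G] [MulAction G Ω] (H : Subgroup G)

/-- invariance of a function under the subgroup -/
def Inv (f : Ω → ℚ) : Prop := ∀ (h : G), h ∈ H → ∀ ω, f (h • ω) = f ω

theorem out_inv {f : Ω → ℚ} (hf : Inv H f) (g : G) (ω : Ω) :
    f (((g : G ⧸ H)).out⁻¹ • ω) = f (g⁻¹ • ω) := by
  obtain ⟨h, hh⟩ := QuotientGroup.mk_out_eq_mul H g
  rw [hh, mul_inv_rev, mul_smul]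
  exact hf _ (inv_mem h.2) _

variable [Fintype (G ⧸ H)] [Fintype Ω]

/-- the pairing sum -/
noncomputable def S (f f' : Ω → ℚ) (ω ω' : Ω) : ℚ := ∑ y : G ⧸ H, f (y.out⁻¹ • ω) * f' (y.out⁻¹ • ω')

theorem S_smul {f f' : Ω → ℚ} (hf : Inv H f) (hf' : Inv H f') (g : G) (ω ω' : Ω) :
    S H f f' (g • ω) (g • ω') = S H f f' ω ω' := by
  unfold S
  have key : ∀ (k : Ω → ℚ), Inv H k → ∀ (y : G ⧸ H) (x : Ω),
      k (y.out⁻¹ • g • x) = k ((g⁻¹ • y).out⁻¹ • x) := by
    intro k hk y x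
    have hy : ((g⁻¹ * y.out : G) : G ⧸ H) = g⁻¹ • y := by
      show g⁻¹ • ((y.out : G) : G ⧸ H) = g⁻¹ • y
      rw [QuotientGroup.out_eq']
    rw [← hy, out_inv H hk, mul_inv_rev, inv_inv, mul_smul]
  have h1 : ∀ y : G ⧸ H, f (y.out⁻¹ • g • ω) * f' (y.out⁻¹ • g • ω') =
      (fun y : G ⧸ H => f (y.out⁻¹ • ω) * f' (y.out⁻¹ • ω')) (g⁻¹ • y) := by
    intro y
    rw [key f hf, key f' hf']
  rw [Finset.sum_congr rfl (fun y _ => h1 y)]
  exact Equiv.sum_comp (MulAction.toPerm g⁻¹)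
    (fun y : G ⧸ H => f (y.out⁻¹ • ω) * f' (y.out⁻¹ • ω'))

theorem S_rowsum (f f' : Ω → ℚ) (ω : Ω) :
    ∑ ω' : Ω, S H f f' ω ω' = (∑ y : G ⧸ H, f (y.out⁻¹ • ω)) * ∑ x : Ω, f' x := by
  unfold S
  rw [Finset.sum_comm, Finset.sum_mul]
  apply Finset.sum_congr rfl
  intro y _
  rw [← Finset.mul_sum]
  congr 1
  exact Equiv.sum_comp (MulAction.toPerm y.out⁻¹) f'

open Classical in
theorem S_form (h2 : IsMultiplyPretransitive G Ω 2) {f f' : Ω → ℚ} (hf : Inv H f)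
    (hf' : Inv H f') (ω₀ ω₁ : Ω) (h01 : ω₀ ≠ ω₁) :
    ∀ ω ω', S H f f' ω ω' = if ω = ω' then S H f f' ω₀ ω₀ else S H f f' ω₀ ω₁ := by
  intro ω ω'
  rw [is_two_pretransitive_iff] at h2
  split_ifs with h
  · subst h
    by_cases h' : ω = ω₀
    · rw [h']
    · obtain ⟨g, hg, -⟩ := h2 (Ne.symm h') h'
      rw [← hg, S_smul H hf hf']
  · obtain ⟨g, hg, hg'⟩ := h2 h01 h
    rw [← hg, ← hg', S_smul H hf hf']

open Classical in
theorem sum_ite_form (d e : ℚ) (ω : Ω) :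
    ∑ ω' : Ω, (if ω = ω' then d else e) = (Fintype.card Ω : ℚ) * e + (d - e) := by
  have h1 : ∀ ω' : Ω, (if ω = ω' then d else e) = e + (if ω = ω' then (d - e) else 0) := by
    intro ω'; split_ifs <;> ring
  rw [Finset.sum_congr rfl (fun x _ => h1 x), Finset.sum_add_distrib, Finset.sum_const,
    Finset.card_univ, nsmul_eq_mul, Finset.sum_ite_eq]
  simp

open Classical in
theorem sum_ite_form' (d e : ℚ) (ω : Ω) :
    ∑ ω' : Ω, (if ω' = ω then d else e) = (Fintype.card Ω : ℚ) * e + (d - e) := by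
  rw [← sum_ite_form d e ω]
  apply Finset.sum_congr rfl
  intro x _
  by_cases h : x = ω
  · rw [if_pos h, if_pos h.symm]
  · rw [if_neg h, if_neg (fun h' => h h'.symm)]

end

theorem no_three {G Ω : Type*} [Group G] [Finite G] [MulAction G Ω] [Finite Ω]
    (h2 : IsMultiplyPretransitive G Ω 2) (H : Subgroup G) (hidx : H.index = Nat.card Ω)
    (q₁ q₂ q₃ : orbitRel.Quotient H Ω) (h12 : q₁ ≠ q₂) (h13 : q₁ ≠ q₃) (h23 : q₂ ≠ q₃) :
    False := by
  classical
  letI : Fintype Ω := Fintype.ofFinite Ω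
  letI : Fintype (G ⧸ H) := Fintype.ofFinite (G ⧸ H)
  set F : orbitRel.Quotient H Ω → Ω → ℚ :=
    fun q ω => if (Quotient.mk'' ω : orbitRel.Quotient H Ω) = q then 1 else 0 with hF
  have hFinv : ∀ q, Inv H (F q) := by
    intro q h hh ω
    have h1 : (Quotient.mk'' (h • ω) : orbitRel.Quotient H Ω) = Quotient.mk'' ω := by
      apply Quotient.sound'
      show h • ω ∈ orbit H ω
      exact ⟨⟨h, hh⟩, rfl⟩
    simp only [hF, h1]
  have hF01 : ∀ q ω, F q ω * F q ω = F q ω := by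
    intro q ω; simp only [hF]; split_ifs <;> simp
  have hFnn : ∀ q ω, 0 ≤ F q ω := by
    intro q ω; simp only [hF]; split_ifs <;> norm_num
  have hFle : ∀ q ω, F q ω ≤ 1 := by
    intro q ω; simp only [hF]; split_ifs <;> norm_num
  have hFdisj : ∀ q q', q ≠ q' → ∀ ω, F q ω * F q' ω = 0 := by
    intro q q' hqq ω
    simp only [hF]
    split_ifs with h1 h2
    · exact absurd (h1.symm.trans h2) hqq
    · simp
    · simp
    · simp
  have hq : ∀ q : orbitRel.Quotient H Ω, F q q.out = 1 := by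
    intro q; simp only [hF]; rw [if_pos (Quotient.out_eq' q)]
  have hq' : ∀ q q' : orbitRel.Quotient H Ω, q ≠ q' → F q q'.out = 0 := by
    intro q q' hqq; simp only [hF]; rw [if_neg]; rw [Quotient.out_eq']; exact fun h => hqq h.symm
  have h2' : ∀ a b c d : Ω, a ≠ b → c ≠ d → ∃ g : G, g • a = c ∧ g • b = d :=
    fun a b c d h h' => is_two_pretransitive_iff.1 h2 h h'
  have hRpos : ∀ q ω, 0 < ∑ y : G ⧸ H, F q (y.out⁻¹ • ω) := by
    intro q ω
    obtain ⟨g, hg⟩ : ∃ g : G, g • ω = q.out := by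
      by_cases h : ω = q.out
      · exact ⟨1, by rw [one_smul]; exact h⟩
      · obtain ⟨g, hg, -⟩ := h2' _ _ _ _ h (Ne.symm h)
        exact ⟨g, hg⟩
    have h1 : F q (((g⁻¹ : G) : G ⧸ H).out⁻¹ • ω) = 1 := by
      rw [out_inv H (hFinv q), inv_inv, hg]; exact hq q
    calc (0:ℚ) < 1 := one_pos
      _ = F q (((g⁻¹ : G) : G ⧸ H).out⁻¹ • ω) := h1.symm
      _ ≤ ∑ y : G ⧸ H, F q (y.out⁻¹ • ω) :=
        Finset.single_le_sum (f := fun y : G ⧸ H => F q (y.out⁻¹ • ω))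
          (fun y _ => hFnn q _) (Finset.mem_univ _)
  have hmpos : ∀ q, 0 < ∑ x : Ω, F q x := by
    intro q
    calc (0:ℚ) < 1 := one_pos
      _ = F q q.out := (hq q).symm
      _ ≤ ∑ x : Ω, F q x :=
        Finset.single_le_sum (f := fun x : Ω => F q x) (fun x _ => hFnn q x) (Finset.mem_univ _)
  have hmlt : ∀ q q' : orbitRel.Quotient H Ω, q ≠ q' →
      ∑ x : Ω, F q x < (Fintype.card Ω : ℚ) := by
    intro q q' hqq
    have h1 : (1:ℚ) ≤ ∑ x : Ω, (1 - F q x) := by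
      calc (1:ℚ) = 1 - F q q'.out := by rw [hq' q q' hqq]; ring
        _ ≤ ∑ x : Ω, (1 - F q x) :=
          Finset.single_le_sum (f := fun x : Ω => 1 - F q x)
            (fun x _ => by linarith [hFle q x]) (Finset.mem_univ _)
    rw [Finset.sum_sub_distrib, Finset.sum_const, Finset.card_univ, nsmul_eq_mul, mul_one] at h1
    linarith
  set ω₀ := q₁.out with hω₀
  set ω₁ := q₂.out with hω₁
  have h01 : ω₀ ≠ ω₁ := by
    intro h
    apply h12
    rw [← Quotient.out_eq' q₁, ← Quotient.out_eq' q₂]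
    exact congrArg _ h
  have form := fun q q' => S_form H h2 (hFinv q) (hFinv q') ω₀ ω₁ h01
  have hd0 : ∀ q q', q ≠ q' → S H (F q) (F q') ω₀ ω₀ = 0 := by
    intro q q' hqq
    unfold S
    apply Finset.sum_eq_zero
    intro y _
    exact hFdisj q q' hqq _
  have hrel : ∀ q q', (Fintype.card Ω : ℚ) * S H (F q) (F q') ω₀ ω₁ +
      (S H (F q) (F q') ω₀ ω₀ - S H (F q) (F q') ω₀ ω₁) =
      (∑ y : G ⧸ H, F q (y.out⁻¹ • ω₀)) * ∑ x : Ω, F q' x := by
    intro q q'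
    rw [← S_rowsum H (F q) (F q') ω₀, ← sum_ite_form _ _ ω₀]
    apply Finset.sum_congr rfl
    intro ω' _
    exact (form q q' ω₀ ω').symm
  have he : ∀ q q', q ≠ q' → S H (F q) (F q') ω₀ ω₁ ≠ 0 := by
    intro q q' hqq h0
    have h1 := hrel q q'
    rw [h0, hd0 q q' hqq] at h1
    have h3 := mul_pos (hRpos q ω₀) (hmpos q')
    have h4 : (∑ y : G ⧸ H, F q (y.out⁻¹ • ω₀)) * ∑ x : Ω, F q' x = 0 := by
      rw [← h1]; ring
    linarith
  have hd1 : S H (F q₁) (F q₁) ω₀ ω₀ = ∑ y : G ⧸ H, F q₁ (y.out⁻¹ • ω₀) := by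
    unfold S
    apply Finset.sum_congr rfl
    intro y _
    exact hF01 q₁ _
  set d := S H (F q₁) (F q₁) ω₀ ω₀ with hd
  set e := S H (F q₁) (F q₁) ω₀ ω₁ with he'
  set m := ∑ x : Ω, F q₁ x with hm
  have hdpos : 0 < d := by rw [hd1]; exact hRpos q₁ ω₀
  have hmp : 0 < m := hmpos q₁
  have hmn : m < (Fintype.card Ω : ℚ) := hmlt q₁ q₂ h12
  have hrel1 : (Fintype.card Ω : ℚ) * e + (d - e) = d * m := by
    have := hrel q₁ q₁
    rw [← hd1] at this
    exact this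
  have hα : d - e ≠ 0 := by
    intro h
    have h1 : e = d := by linarith
    rw [h1] at hrel1
    have h2 : d * ((Fintype.card Ω : ℚ) - m) = 0 := by linarith
    have h3 : 0 < d * ((Fintype.card Ω : ℚ) - m) := mul_pos hdpos (by linarith)
    linarith
  have hβ : (Fintype.card Ω : ℚ) * e + (d - e) ≠ 0 := by
    rw [hrel1]
    exact (mul_pos hdpos hmp).ne'
  set A : orbitRel.Quotient H Ω → Matrix (G ⧸ H) Ω ℚ :=
    fun q => Matrix.of (fun y ω => F q (y.out⁻¹ • ω)) with hA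
  have hM : ∀ q q' ω ω', ((A q).transpose * A q') ω ω' = S H (F q) (F q') ω ω' := by
    intro q q' ω ω'
    rw [Matrix.mul_apply]
    rfl
  set Kmat : Matrix Ω Ω ℚ :=
    Matrix.of (fun ω ω' => (d - e)⁻¹ * ((if ω = ω' then 1 else 0) -
      e / ((Fintype.card Ω : ℚ) * e + (d - e)))) with hK
  have hKM : Kmat * ((A q₁).transpose * A q₁) = 1 := by
    ext ω ω''
    rw [Matrix.mul_apply, Matrix.one_apply]
    have h1 : ∀ ω' : Ω, Kmat ω ω' * ((A q₁).transpose * A q₁) ω' ω'' =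
        (d - e)⁻¹ * ((if ω = ω' then (if ω' = ω'' then d else e) else 0) -
          e / ((Fintype.card Ω : ℚ) * e + (d - e)) * (if ω' = ω'' then d else e)) := by
      intro ω'
      rw [hM q₁ q₁ ω' ω'', form q₁ q₁ ω' ω'']
      show (d - e)⁻¹ * ((if ω = ω' then 1 else 0) -
        e / ((Fintype.card Ω : ℚ) * e + (d - e))) * (if ω' = ω'' then d else e) = _
      by_cases h : ω = ω'
      · rw [if_pos h, if_pos h]; ring
      · rw [if_neg h, if_neg h]; ring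
    rw [Finset.sum_congr rfl (fun x _ => h1 x), ← Finset.mul_sum, Finset.sum_sub_distrib,
      Finset.sum_ite_eq, ← Finset.mul_sum, sum_ite_form']
    simp only [Finset.mem_univ, if_true]
    rw [div_mul_cancel₀ e hβ]
    by_cases h : ω = ω''
    · rw [if_pos h, if_pos h]
      exact inv_mul_cancel₀ hα
    · rw [if_neg h, if_neg h, sub_self, mul_zero]
  have hcard : Fintype.card (G ⧸ H) = Fintype.card Ω := by
    rw [← Nat.card_eq_fintype_card, ← Nat.card_eq_fintype_card, ← hidx]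
    rfl
  have hright : A q₁ * (Kmat * (A q₁).transpose) = 1 := by
    rw [Matrix.mul_eq_one_comm_of_card_eq (G ⧸ H) Ω ℚ hcard, Matrix.mul_assoc]
    exact hKM
  set e₁₂ := S H (F q₁) (F q₂) ω₀ ω₁ with he₁₂
  set e₁₃ := S H (F q₁) (F q₃) ω₀ ω₁ with he₁₃
  have hAB : (A q₁).transpose * (e₁₃ • A q₂ - e₁₂ • A q₃) = 0 := by
    rw [Matrix.mul_sub, Matrix.mul_smul, Matrix.mul_smul]
    ext ω ω'
    simp only [Matrix.sub_apply, Matrix.smul_apply, Matrix.zero_apply, smul_eq_mul]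
    rw [hM q₁ q₂ ω ω', hM q₁ q₃ ω ω', form q₁ q₂ ω ω', form q₁ q₃ ω ω', hd0 q₁ q₂ h12,
      hd0 q₁ q₃ h13]
    by_cases h : ω = ω'
    · rw [if_pos h, if_pos h]; ring
    · rw [if_neg h, if_neg h]; ring
  have hB0 : e₁₃ • A q₂ - e₁₂ • A q₃ = 0 := by
    calc e₁₃ • A q₂ - e₁₂ • A q₃
        = (A q₁ * (Kmat * (A q₁).transpose)) * (e₁₃ • A q₂ - e₁₂ • A q₃) := by
          rw [hright, Matrix.one_mul]
      _ = A q₁ * (Kmat * ((A q₁).transpose * (e₁₃ • A q₂ - e₁₂ • A q₃))) := by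
          simp only [Matrix.mul_assoc]
      _ = 0 := by rw [hAB, Matrix.mul_zero, Matrix.mul_zero]
  have hval := congrFun (congrFun hB0 ((1 : G) : G ⧸ H)) q₂.out
  simp only [Matrix.sub_apply, Matrix.smul_apply, Matrix.zero_apply, smul_eq_mul] at hval
  have hA2 : A q₂ ((1 : G) : G ⧸ H) q₂.out = 1 := by
    show F q₂ ((((1 : G) : G ⧸ H)).out⁻¹ • q₂.out) = 1
    rw [out_inv H (hFinv q₂), inv_one, one_smul]; exact hq q₂
  have hA3 : A q₃ ((1 : G) : G ⧸ H) q₂.out = 0 := by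
    show F q₃ ((((1 : G) : G ⧸ H)).out⁻¹ • q₂.out) = 0
    rw [out_inv H (hFinv q₃), inv_one, one_smul]; exact hq' q₃ q₂ (Ne.symm h23)
  rw [hA2, hA3] at hval
  exact he q₁ q₃ h13 (by linarith)

theorem main {G Ω : Type*} [Group G] [Finite G] [MulAction G Ω] [Finite Ω]
    (h2 : IsMultiplyPretransitive G Ω 2) (H : Subgroup G) (hidx : H.index = Nat.card Ω)
    (hnt : ¬ IsPretransitive H Ω) : Nat.card (orbitRel.Quotient H Ω) = 2 := by
  classical
  letI : Fintype (orbitRel.Quotient H Ω) := Fintype.ofFinite _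
  rw [Nat.card_eq_fintype_card]
  have hle : Fintype.card (orbitRel.Quotient H Ω) ≤ 2 := by
    by_contra hcon
    push_neg at hcon
    obtain ⟨a, b, c, hab, hac, hbc⟩ := Fintype.two_lt_card_iff.1 hcon
    exact no_three h2 H hidx a b c hab hac hbc
  have hge : 2 ≤ Fintype.card (orbitRel.Quotient H Ω) := by
    by_contra hcon
    push_neg at hcon
    have hsub : Subsingleton (orbitRel.Quotient H Ω) :=
      Fintype.card_le_one_iff_subsingleton.1 (by omega)
    apply hnt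
    constructor
    intro x y
    have h1 : (Quotient.mk'' y : orbitRel.Quotient H Ω) = Quotient.mk'' x :=
      Subsingleton.elim _ _
    have h3 := Quotient.exact' h1
    obtain ⟨h, hh⟩ := h3
    exact ⟨h, hh⟩
  omega

end Cfsg.Agent.Lib.Helper6.TwoOrb
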