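import Mathlib
import Cfsg.Agent.Lib.Helper1.UniqP

namespace Cfsg.Agent.Lib.Helper6.UniqS

open Subgroup

theorem cyc_unique {C : Type*} [Group C] [Finite C] [IsCyclic C] {n : ℕ} (hn : 0 < n)
    (L1 L2 : Subgroup C) (h1 : Nat.card L1 = n) (h2 : Nat.card L2 = n) : L1 = L2 := by
  classical
  haveI := Fintype.ofFinite C
  set F : Finset C := Finset.univ.filter (fun a : C => a ^ n = 1) with hF
  have hFc : F.card ≤ n := IsCyclic.card_pow_eq_one_le hn
  have key : ∀ L : Subgroup C, Nat.card L = n → (L : Set C) = (F : Set C) := by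
    intro L hL
    apply Set.eq_of_subset_of_ncard_le
    · intro a ha
      have h := pow_card_eq_one' (G := L) (x := ⟨a, ha⟩)
      rw [hL] at h
      have h' : a ^ n = 1 := by
        have := congrArg Subtype.val h
        simpa using this
      simp [hF, h']
    · rw [Set.ncard_coe_finset]
      have : (L : Set C).ncard = n := by rw [← hL]; rfl
      rw [this]; exact hFc
    · exact Set.toFinite _
  exact SetLike.coe_injective ((key L1 h1).trans (key L2 h2).symm)

theorem cyclic_of_unique {G : Type*} [Group G] [Finite G] (p m s : ℕ) (hp : p.Prime)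
    (hG : Nat.card G = p ^ m) (hs : 1 ≤ s) (hsm : s < m) (h2 : p ≠ 2 ∨ 2 ≤ s)
    (huniq : ∀ H K : Subgroup G, Nat.card H = p ^ s → Nat.card K = p ^ s → H = K) :
    IsCyclic G := by
  classical
  haveI : Fact p.Prime := ⟨hp⟩
  have hGp : IsPGroup p G := IsPGroup.of_card hG
  have hdvd : p ^ s ∣ Nat.card G := by rw [hG]; exact pow_dvd_pow p hsm.le
  obtain ⟨H, hH⟩ := Sylow.exists_subgroup_card_pow_prime p hdvd
  have hB : ∀ (L : Subgroup G) (t : ℕ), t ≤ s → Nat.card L = p ^ t → L ≤ H := by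
    intro L t hts hL
    obtain ⟨K, hK, hLK⟩ := Sylow.exists_subgroup_card_pow_prime_le p hdvd L hL hts
    rw [huniq H K hH hK]; exact hLK
  have hdvd1 : p ^ (s + 1) ∣ Nat.card G := by rw [hG]; exact pow_dvd_pow p hsm
  obtain ⟨K, hK, hHK⟩ := Sylow.exists_subgroup_card_pow_prime_le p hdvd1 H hH (Nat.le_succ s)
  obtain ⟨x, hxK, hxH⟩ : ∃ x ∈ K, x ∉ H := by
    by_contra hcon
    push_neg at hcon
    have hle : K ≤ H := hcon
    have := Subgroup.card_le_of_le hle
    rw [hK, hH] at this
    exact absurd this (not_le.2 (Nat.pow_lt_pow_right hp.one_lt (Nat.lt_succ_self s)))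
  have hzx : zpowers x = K := by
    have hle : zpowers x ≤ K := (zpowers_le).2 hxK
    have hd : Nat.card (zpowers x) ∣ p ^ (s + 1) := hK ▸ Subgroup.card_dvd_of_le hle
    obtain ⟨t, ht, hct⟩ := (Nat.dvd_prime_pow hp).1 hd
    rcases Nat.lt_or_ge t (s + 1) with hlt | hge
    · exact absurd (hB (zpowers x) t (by omega) hct (mem_zpowers x)) hxH
    · have : t = s + 1 := by omega
      exact Subgroup.eq_of_le_of_card_ge hle (by rw [hK, hct, this])
  have hHx : H ≤ zpowers x := hzx ▸ hHK
  have huniq1 : ∀ L1 L2 : Subgroup G, Nat.card L1 = p → Nat.card L2 = p → L1 = L2 := by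
    intro L1 L2 h1 h2'
    have hL1 : L1 ≤ zpowers x := (hB L1 1 hs (by rw [h1, pow_one])).trans hHx
    have hL2 : L2 ≤ zpowers x := (hB L2 1 hs (by rw [h2', pow_one])).trans hHx
    have hc1 : Nat.card (L1.subgroupOf (zpowers x)) = p := by
      rw [← h1]; exact Nat.card_congr (Subgroup.subgroupOfEquivOfLe hL1).toEquiv
    have hc2 : Nat.card (L2.subgroupOf (zpowers x)) = p := by
      rw [← h2']; exact Nat.card_congr (Subgroup.subgroupOfEquivOfLe hL2).toEquiv
    have := cyc_unique hp.pos (L1.subgroupOf (zpowers x)) (L2.subgroupOf (zpowers x)) hc1 hc2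
    rw [Subgroup.subgroupOf_inj, inf_of_le_left hL1, inf_of_le_left hL2] at this
    exact this
  rcases Cfsg.Agent.Lib.Helper1.UniqP.cyclic_or_quat hGp huniq1 with hc | ⟨hp2, n, ⟨e⟩⟩
  · exact hc
  · exfalso
    have hs2 : 2 ≤ s := by
      rcases h2 with h | h
      · exact absurd hp2 h
      · exact h
    haveI : NeZero (2 ^ n) := ⟨by positivity⟩
    set u := e.symm (QuaternionGroup.xa 0) with hu
    set v := e.symm (QuaternionGroup.xa 1) with hv
    have hou : orderOf u = 4 := by
      rw [hu, MulEquiv.orderOf_eq]; exact QuaternionGroup.orderOf_xa 0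
    have hov : orderOf v = 4 := by
      rw [hv, MulEquiv.orderOf_eq]; exact QuaternionGroup.orderOf_xa 1
    have h4 : (4 : ℕ) = p ^ 2 := by rw [hp2]; norm_num
    have huH : u ∈ H :=
      hB (zpowers u) 2 hs2 (by rw [Nat.card_zpowers, hou, h4]) (mem_zpowers u)
    have hvH : v ∈ H :=
      hB (zpowers v) 2 hs2 (by rw [Nat.card_zpowers, hov, h4]) (mem_zpowers v)
    obtain ⟨i, hi⟩ := mem_zpowers_iff.1 (hHx huH)
    obtain ⟨j, hj⟩ := mem_zpowers_iff.1 (hHx hvH)
    have hcomm : u * v = v * u := by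
      rw [← hi, ← hj]; exact (Commute.refl x).zpow_zpow i j
    have hcomm' : QuaternionGroup.xa (0 : ZMod (2 * 2 ^ n)) * QuaternionGroup.xa 1
        = QuaternionGroup.xa 1 * QuaternionGroup.xa 0 := by
      have := congrArg e hcomm
      simpa [hu, hv] using this
    rw [QuaternionGroup.xa_mul_xa, QuaternionGroup.xa_mul_xa] at hcomm'
    have h3 := QuaternionGroup.a.inj hcomm'
    have h5 : ((2 : ℕ) : ZMod (2 * 2 ^ n)) = 0 := by
      have : (2 : ZMod (2 * 2 ^ n)) = 0 := by linear_combination h3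
      exact_mod_cast this
    rw [ZMod.natCast_eq_zero_iff] at h5
    have h6 : 2 * 2 ^ n ≤ 2 := Nat.le_of_dvd (by norm_num) h5
    have hn0 : n = 0 := by
      by_contra hn
      have : 2 ^ 1 ≤ 2 ^ n := Nat.pow_le_pow_right (by norm_num) (by omega)
      omega
    have hcard : Nat.card G = 4 * 2 ^ n := by
      rw [Nat.card_congr e.toEquiv, Nat.card_eq_fintype_card, QuaternionGroup.card]
    rw [hn0, hG, hp2] at hcard
    have hm2 : m = 2 := by
      have h22 : (2 : ℕ) ^ m = 2 ^ 2 := by rw [hcard]; norm_num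
      exact Nat.pow_right_injective (le_refl 2) h22
    omega

end Cfsg.Agent.Lib.Helper6.UniqS
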